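import Cfsg.Agent.ChevUniversal.MultE
import Cfsg.Agent.TwistedLie.E6Torus

/-!
The triple cover of `²E₆(q)` inside the universal group of type `E₆` over `K`, for `3 ∣ q + 1`.
-/

set_option autoImplicit false

namespace CfsgLib.SchurTwisted.E6

open Cfsg.Lie CfsgLib.Chevalley CfsgLib.ChevSteinberg CfsgLib.TwistedLie CfsgLib.TwistedLie.E6
open CfsgLib.ChevUniversal

universe u

local notation "S" => sysE6

variable {K : Type u} [Field K] [Fintype K] {q : ℕ} (hq : IsPrimePow q) (hK : Fintype.card K = q ^ 2)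

omit [Fintype K] in
theorem pair_chk : ∀ ab ∈ ([(56, 36), (15, 35), (42, 37), (29, 34)] : List (ℕ × ℕ)),
    ab.1 < chevE6.nroots ∧ ab.2 < chevE6.nroots ∧ ab.2 ≠ ab.1 ∧ ab.2 ≠ chevE6.neg ab.1 ∧
      chevE6.commTerms ab.1 ab.2 = [] := by decide +kernel

omit [Fintype K] in
/-- Root elements of a pair commute in the universal group. -/
theorem y_pair_comm {a b : ℕ}
    (h : (a, b) ∈ ([(56, 36), (15, 35), (42, 37), (29, 34)] : List (ℕ × ℕ))) (t u : K) :
    Commute ((groupSys S K).y a t) ((groupSys S K).y b u) := by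
  obtain ⟨h1, h2, h3, h4, h5⟩ := pair_chk (a, b) h
  have e := (groupSys S K).comm a h1 b h2 h3 h4 t u
  simp only [ChevalleyDatum.commWord, h5, List.map_nil, List.prod_nil, mul_one] at e
  rw [mul_assoc, inv_mul_eq_iff_eq_mul] at e
  exact e.symm

omit [Fintype K] in
/-- The exponents of the kernel of the torus map. -/
theorem torHom_split (ω : Kˣ) (c : Fin chevE6.rank → Kˣ)
    (hc : ∀ l, c l = ω ^ ([1, 0, 2, 0, 1, 2] : List ℤ).getD l 0) :
    c = Pi.mulSingle ⟨0, by decide⟩ ω * Pi.mulSingle ⟨5, by decide⟩ (ω * ω) *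
      (Pi.mulSingle ⟨2, by decide⟩ (ω * ω) * Pi.mulSingle ⟨4, by decide⟩ ω) := by
  funext l
  rw [hc l]
  obtain ⟨l, hl⟩ := l
  have hl6 : l < 6 := hl
  interval_cases l <;> simp [Pi.mulSingle_apply, pow_two, zpow_ofNat]

include hq hK

/-- The triple cover. -/
theorem exists_cover (h3 : 3 ∣ q + 1) :
    ∃ (Γ : Type u) (_ : Group Γ) (_ : Finite Γ) (σ : Γ →* ↥(tw hq hK).G),
      Cfsg.IsStemExtension σ ∧ Nonempty (σ.ker ≃* Multiplicative (ZMod 3)) := by
  classical
  obtain ⟨p, hp, hcp, n, hpn⟩ := exists_char_pow hq two_ne_zero hK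
  haveI := hcp
  set T := groupSys S K with hTdef
  haveI hfin : Finite (chevE6.SteinbergGroup K) := finite_steinbergGroup witness_E6
  set P : Subgroup (chevE6.SteinbergGroup K) := (tw hq hK).G.comap T.θ with hP
  let π : P →* ↥(tw hq hK).G := T.θ.subgroupComap (tw hq hK).G
  have hπ : Function.Surjective π := by
    rintro ⟨g, hg⟩
    obtain ⟨x, hx⟩ := groupProj_surjective S K ⟨g, (tw hq hK).G_mem_group hg⟩
    have hx' : T.θ x = g := congrArg Subtype.val hx
    exact ⟨⟨x, by rw [hP, Subgroup.mem_comap, hx']; exact hg⟩, Subtype.ext hx'⟩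
  have hker : ∀ {x : P}, x ∈ π.ker ↔ (x : chevE6.SteinbergGroup K) ∈ T.θ.ker := by
    intro x
    rw [MonoidHom.mem_ker, MonoidHom.mem_ker, Subtype.ext_iff]
    rfl
  have hθker : T.θ.ker = (StSys.torF chevE6 K).ker.map
      ((groupSys S K).torHom (groupSys_mulH S K) witness_E6) :=
    (groupSys S K).ker_eq_map (groupSys_mulH S K) witness_E6 (group_gen S K)
  have hcen : π.ker ≤ Subgroup.center P := fun x hx => by
    refine Subgroup.mem_center_iff.2 fun y => Subtype.ext ?_
    exact Subgroup.mem_center_iff.1 ((T.ker_le witness_E6 (group_gen S K) _ (hker.1 hx)).1) _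
  -- `3` is prime to the characteristic
  have hp3 : p ≠ 3 := by
    rintro rfl
    have hq3 : 3 ∣ q := hpn ▸ dvd_pow_self 3 fun h0 => hq.ne_one (by rw [hpn, h0, pow_zero])
    have : 3 ∣ 1 := (Nat.dvd_add_right hq3).1 h3
    omega
  -- the derived group
  let Δ := commutator ↥P
  have hperfG : commutator ↥(tw hq hK).G = ⊤ := perfect hq hK
  have hmap : Δ.map π = ⊤ := by
    rw [show Δ = ⁅(⊤ : Subgroup P), ⊤⁆ from rfl, Subgroup.map_commutator, ← MonoidHom.range_eq_map,
      MonoidHom.range_eq_top.2 hπ]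
    exact hperfG
  have hdec : ∀ x : P, ∃ d ∈ Δ, ∃ z ∈ π.ker, x = d * z := by
    intro x
    obtain ⟨d, hd, e⟩ : π x ∈ Δ.map π := hmap ▸ Subgroup.mem_top _
    exact ⟨d, hd, d⁻¹ * x, by rw [MonoidHom.mem_ker, map_mul, map_inv, e, inv_mul_cancel],
      (mul_inv_cancel_left d x).symm⟩
  have hz3 : ∀ z ∈ π.ker, z ^ 3 = 1 := by
    intro z hz
    have hz' := hker.1 hz
    rw [hθker] at hz'
    obtain ⟨c, hc, e⟩ := hz'
    obtain ⟨h1, h2⟩ := (ker_torF_E6 c).1 hc
    refine Subtype.ext ?_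
    rw [Subgroup.coe_pow, ← e, ← map_pow, Subgroup.coe_one]
    rw [show c ^ 3 = 1 from funext fun l => by
      rw [Pi.pow_apply, h2 l, ← zpow_natCast, ← zpow_mul, mul_comm, zpow_mul, zpow_natCast, h1,
        one_zpow, Pi.one_apply], map_one]
  -- elements of `p`-power order lie in the derived group
  have hpel : ∀ x : P, x ^ p = 1 → x ∈ Δ := by
    intro x hx
    obtain ⟨d, hd, z, hz, rfl⟩ := hdec x
    have hcomm : Commute d z := Subgroup.mem_center_iff.1 (hcen hz) d
    have h1 : z ^ p ∈ Δ := by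
      rw [hcomm.mul_pow, mul_eq_one_iff_inv_eq] at hx
      exact hx ▸ inv_mem (pow_mem hd p)
    have h2 : z ^ 3 ∈ Δ := by rw [hz3 z hz]; exact one_mem _
    have h4 : z ∈ Δ := by
      have hgcd : Nat.gcd p 3 = 1 := (Nat.coprime_primes hp Nat.prime_three).2 hp3
      have e := Nat.gcd_eq_gcd_ab p 3
      rw [hgcd] at e
      have : z = (z ^ p) ^ Nat.gcdA p 3 * (z ^ 3) ^ Nat.gcdB p 3 := by
        rw [← zpow_natCast, ← zpow_natCast, ← zpow_mul, ← zpow_mul, ← zpow_add, ← e]
        simp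
      rw [this]
      exact mul_mem (zpow_mem h1 _) (zpow_mem h2 _)
    exact mul_mem hd h4
  -- the pair elements
  let D' : Subgroup (chevE6.SteinbergGroup K) := Δ.map P.subtype
  have hpow : ∀ (r : ℕ) (t : K) (m : ℕ), T.y r t ^ m = T.y r ((m : K) * t) := by
    intro r t m
    induction m with
    | zero => rw [pow_zero, Nat.cast_zero, zero_mul, T.y_zero]
    | succ m ih => rw [pow_succ, ih, T.add, Nat.cast_succ, add_one_mul]
  have hpair : ∀ {a b : ℕ}, (a, b) ∈ ([(56, 36), (15, 35), (42, 37), (29, 34)] : List (ℕ × ℕ)) →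
      ∀ t u : K, Sys.xG S K a t * Sys.xG S K b u ∈ (tw hq hK).G →
        T.y a t * T.y b u ∈ D' := by
    intro a b hab t u hG
    have hm : T.y a t * T.y b u ∈ P := by
      rw [hP, Subgroup.mem_comap, map_mul, T.θ_y, T.θ_y]; exact hG
    refine ⟨⟨_, hm⟩, hpel _ (Subtype.ext ?_), rfl⟩
    rw [Subgroup.coe_pow, Subgroup.coe_one, (y_pair_comm hab t u).mul_pow, hpow, hpow,
      CharP.cast_eq_zero, zero_mul, zero_mul, T.y_zero, T.y_zero, one_mul]
  obtain ⟨s0, s1, s2, s3, s4, s5⟩ := simple_eq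
  obtain ⟨m0, m1, m2, m3, m4, m5⟩ := neg_eq
  have hh : ∀ {a b : ℕ}, ((a = 0 ∧ b = 5) ∨ (a = 2 ∧ b = 4)) → ∀ u : Kˣ,
      T.hT (chevE6.simple a) (u : K) * T.hT (chevE6.simple b) (phi hq hK (u : K)) ∈ D' := by
    intro a b hab u
    have hn : ∀ v : K, v ≠ 0 →
        T.nT (chevE6.simple a) v * T.nT (chevE6.simple b) (phi hq hK v) ∈ D' := by
      intro v hv
      have hm : chevE6.simple a < chevE6.nroots ∧ chevE6.simple b < chevE6.nroots := by
        rcases hab with ⟨rfl, rfl⟩ | ⟨rfl, rfl⟩ <;> decide +kernel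
      have hPN := fun t => pair_mem hq hK hab t
      have hl : (chevE6.simple a, chevE6.simple b) ∈
            ([(56, 36), (15, 35), (42, 37), (29, 34)] : List (ℕ × ℕ)) ∧
          (chevE6.neg (chevE6.simple a), chevE6.neg (chevE6.simple b)) ∈
            ([(56, 36), (15, 35), (42, 37), (29, 34)] : List (ℕ × ℕ)) ∧
          chevE6.commTerms (chevE6.simple b) (chevE6.neg (chevE6.simple a)) = [] ∧
          chevE6.neg (chevE6.simple a) ≠ chevE6.simple b ∧
          chevE6.commTerms (chevE6.neg (chevE6.simple b)) (chevE6.simple a) = [] := by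
        rcases hab with ⟨rfl, rfl⟩ | ⟨rfl, rfl⟩ <;> decide +kernel
      obtain ⟨l1, l2, l3, l4, l5⟩ := hl
      have hcx : ∀ {r s : ℕ}, r < chevE6.nroots → s < chevE6.nroots → s ≠ r → s ≠ chevE6.neg r →
          chevE6.commTerms r s = [] → ∀ t t' : K, Commute (T.y r t) (T.y s t') := by
        intro r s h1 h2 h3 h4 h5 t t'
        have e := T.comm r h1 s h2 h3 h4 t t'
        simp only [ChevalleyDatum.commWord, h5, List.map_nil, List.prod_nil, mul_one] at e
        rw [mul_assoc, inv_mul_eq_iff_eq_mul] at e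
        exact e.symm
      have hd : chevE6.neg (chevE6.simple a) ≠ chevE6.neg (chevE6.simple b) ∧
          chevE6.simple a ≠ chevE6.neg (chevE6.simple b) ∧
          chevE6.simple a ≠ chevE6.neg (chevE6.neg (chevE6.simple b)) := by
        rcases hab with ⟨rfl, rfl⟩ | ⟨rfl, rfl⟩ <;> decide +kernel
      have c1 := hcx hm.2 (sysE6.wf.neg_lt _ hm.1) l4 hd.1 l3
      have c2 := hcx (sysE6.wf.neg_lt _ hm.2) hm.1 hd.2.1 hd.2.2 l5
      have hA := hpair l1 v (phi hq hK v) (hPN v).1
      have hB := hpair l2 (-v⁻¹) (-(phi hq hK v)⁻¹) (by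
        have h := (hPN (-v⁻¹)).2
        rwa [Folded.N, map_neg, map_inv₀] at h)
      have e : T.nT (chevE6.simple a) v * T.nT (chevE6.simple b) (phi hq hK v) =
          (T.y (chevE6.simple a) v * T.y (chevE6.simple b) (phi hq hK v)) *
          (T.y (chevE6.neg (chevE6.simple a)) (-v⁻¹) *
            T.y (chevE6.neg (chevE6.simple b)) (-(phi hq hK v)⁻¹)) *
          (T.y (chevE6.simple a) v * T.y (chevE6.simple b) (phi hq hK v)) := by
        set x1 := T.y (chevE6.simple a) v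
        set y1 := T.y (chevE6.simple b) (phi hq hK v)
        set x2 := T.y (chevE6.neg (chevE6.simple a)) (-v⁻¹)
        set y2 := T.y (chevE6.neg (chevE6.simple b)) (-(phi hq hK v)⁻¹)
        have d1 : Commute y1 x2 := c1 _ _
        have d2 : Commute y2 x1 := c2 _ _
        have d3 : Commute x1 y1 := y_pair_comm l1 _ _
        calc x1 * x2 * x1 * (y1 * y2 * y1) = x1 * x2 * (x1 * y1) * y2 * y1 := by group
          _ = x1 * (x2 * y1) * (x1 * y2) * y1 := by rw [d3.eq]; group
          _ = x1 * (y1 * x2) * (y2 * x1) * y1 := by rw [d1.eq, d2.eq]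
          _ = _ := by group
      rw [e]
      exact mul_mem (mul_mem hA hB) hA
    have h1 := mul_mem (hn u u.ne_zero) (hn (-1) (neg_ne_zero.2 one_ne_zero))
    rw [map_neg, map_one] at h1
    have hcm : Commute (T.nT (chevE6.simple b) (phi hq hK (u : K))) (T.nT (chevE6.simple a) (-1)) := by
      have hl : ∀ r ∈ [chevE6.simple b, chevE6.neg (chevE6.simple b)],
          ∀ s ∈ [chevE6.simple a, chevE6.neg (chevE6.simple a)],
          r < chevE6.nroots ∧ s < chevE6.nroots ∧ s ≠ r ∧ s ≠ chevE6.neg r ∧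
            chevE6.commTerms r s = [] := by
        rcases hab with ⟨rfl, rfl⟩ | ⟨rfl, rfl⟩ <;> decide +kernel
      have hcx : ∀ r ∈ [chevE6.simple b, chevE6.neg (chevE6.simple b)],
          ∀ s ∈ [chevE6.simple a, chevE6.neg (chevE6.simple a)], ∀ t t' : K,
          Commute (T.y r t) (T.y s t') := by
        intro r hr s hs t t'
        obtain ⟨h1, h2, h3, h4, h5⟩ := hl r hr s hs
        have e := T.comm r h1 s h2 h3 h4 t t'
        simp only [ChevalleyDatum.commWord, h5, List.map_nil, List.prod_nil, mul_one] at e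
        rw [mul_assoc, inv_mul_eq_iff_eq_mul] at e
        exact e.symm
      simp only [StSys.nT]
      refine ((?_ : Commute _ _).mul_left ?_).mul_left ?_ <;>
        refine ((?_ : Commute _ _).mul_right ?_).mul_right ?_ <;> exact hcx _ (by simp) _ (by simp) _ _
    have e : T.hT (chevE6.simple a) (u : K) * T.hT (chevE6.simple b) (phi hq hK (u : K)) =
        T.nT (chevE6.simple a) (u : K) * T.nT (chevE6.simple b) (phi hq hK (u : K)) *
          (T.nT (chevE6.simple a) (-1) * T.nT (chevE6.simple b) (-1)) := by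
      simp only [StSys.hT]
      rw [mul_assoc, ← mul_assoc (T.nT (chevE6.simple a) (-1)), ← hcm.eq]
      simp only [mul_assoc]
    rwa [e]
  -- the kernel
  let M := (powMonoidHom 3 : Kˣ →* Kˣ).ker
  have hM : Nat.card M = 3 := by
    rw [IsCyclic.card_powMonoidHom_ker, Nat.card_units, Nat.card_eq_fintype_card, hK]
    refine Nat.gcd_eq_right (h3.trans ?_)
    refine ⟨q - 1, ?_⟩
    rw [← Nat.sq_sub_sq q 1, one_pow]
  let ψ : M →* (Fin chevE6.rank → Kˣ) :=
    MonoidHom.mk' (fun ω l => (ω : Kˣ) ^ ([1, 0, 2, 0, 1, 2] : List ℤ).getD l 0)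
      fun a b => funext fun l => by simp [mul_zpow]
  have hω : ∀ ω : M, phi hq hK (((ω : Kˣ)) : K) = ((ω : Kˣ) : K) * ((ω : Kˣ) : K) := by
    intro ω
    have h1 : (ω : Kˣ) ^ 3 = 1 := ω.2
    obtain ⟨m, hm⟩ := h3
    have h2 : (ω : Kˣ) ^ q = (ω : Kˣ) * ω := by
      rw [← mul_right_cancel_iff (a := (ω : Kˣ)), ← pow_succ, hm, pow_mul, h1, one_pow]
      rw [pow_three, ← mul_assoc] at h1
      exact h1.symm
    rw [phi_apply, ← Units.val_pow_eq_pow_val, h2, Units.val_mul]
  have hΨ : ∀ ω : M, T.torHom (groupSys_mulH S K) witness_E6 (ψ ω) ∈ D' := by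
    intro ω
    rw [torHom_split (ω : Kˣ) (ψ ω) fun l => rfl, map_mul, map_mul, map_mul,
      T.torHom_mulSingle, T.torHom_mulSingle, T.torHom_mulSingle, T.torHom_mulSingle, Units.val_mul]
    have e2 : phi hq hK (((ω : Kˣ) : K) * ((ω : Kˣ) : K)) = ((ω : Kˣ) : K) := by
      rw [← hω ω, phi_phi]
    refine mul_mem ?_ ?_
    · have h := hh (Or.inl ⟨rfl, rfl⟩) (ω : Kˣ)
      rwa [hω] at h
    · have h := hh (Or.inr ⟨rfl, rfl⟩) ((ω : Kˣ) * ω)
      rwa [Units.val_mul, e2] at h
  have hDP : ∀ z ∈ D', z ∈ P := by rintro _ ⟨x, -, rfl⟩; exact x.2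
  have hΨker : ∀ ω : M, T.torHom (groupSys_mulH S K) witness_E6 (ψ ω) ∈ T.θ.ker := fun ω => by
    rw [hθker]
    refine Subgroup.mem_map_of_mem _ ((ker_torF_E6 _).2 ⟨?_, fun l => ?_⟩)
    · show ((ω : Kˣ) ^ (1 : ℤ)) ^ 3 = 1
      rw [zpow_one]
      exact ω.2
    · show _ = ((ω : Kˣ) ^ (1 : ℤ)) ^ _
      rw [zpow_one]
      rfl
  let σ : Δ →* ↥(tw hq hK).G := π.comp Δ.subtype
  let f : M →* σ.ker := MonoidHom.mk' (fun ω =>
    ⟨⟨⟨_, hDP _ (hΨ ω)⟩, by
        obtain ⟨x, hx, e⟩ := hΨ ω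
        exact (show (⟨_, hDP _ (hΨ ω)⟩ : P) = x from Subtype.ext e.symm) ▸ hx⟩,
      hker.2 (hΨker ω)⟩)
    fun a b => Subtype.ext (Subtype.ext (Subtype.ext (by simp)))
  have hfb : Function.Bijective f := by
    refine ⟨fun a b h => ?_, fun z => ?_⟩
    · have h1 : T.torHom (groupSys_mulH S K) witness_E6 (ψ a) =
          T.torHom (groupSys_mulH S K) witness_E6 (ψ b) :=
        congrArg (fun z : σ.ker => (((z : Δ) : P) : chevE6.SteinbergGroup K)) h
      have hinj : Function.Injective ((groupSys S K).torHom (groupSys_mulH S K) witness_E6) :=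
        torHom_injOn (S' := sysE7) embE6 witness_E6 fun c hc h' => by
          obtain ⟨-, h2⟩ := (ker_torF_E7 c).1 hc
          have h6 := h2 ⟨6, by decide⟩
          rw [h' ⟨6, by decide⟩ (by decide)] at h6
          have h1 : c ⟨1, by decide⟩ = 1 := by simpa using h6.symm
          funext l
          rw [h2 l, h1, one_zpow, Pi.one_apply]
      have h2 := congrFun (hinj h1) ⟨0, by decide⟩
      simp only [ψ, MonoidHom.mk'_apply] at h2
      exact Subtype.ext (by simpa using h2)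
    · have hz : (((z : Δ) : P) : chevE6.SteinbergGroup K) ∈ T.θ.ker := hker.1 z.2
      rw [hθker] at hz
      obtain ⟨c, hc, e⟩ := hz
      obtain ⟨h1, h2⟩ := (ker_torF_E6 c).1 hc
      refine ⟨⟨c ⟨0, by decide⟩, h1⟩, Subtype.ext (Subtype.ext (Subtype.ext ?_))⟩
      show T.torHom (groupSys_mulH S K) witness_E6 (ψ _) = _
      rw [← e]
      congr 1
      funext l
      rw [h2 l]
      rfl
  refine ⟨↥Δ, inferInstance, inferInstance, σ, ⟨?_, ?_, ?_⟩, ⟨?_⟩⟩
  · intro g
    obtain ⟨x, hx, e⟩ : g ∈ Δ.map π := hmap ▸ Subgroup.mem_top g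
    exact ⟨⟨x, hx⟩, e⟩
  · intro z hz
    refine Subgroup.mem_center_iff.2 fun y => Subtype.ext ?_
    exact Subgroup.mem_center_iff.1 (hcen (show (z : P) ∈ π.ker from hz)) _
  · have hperf : commutator ↥Δ = ⊤ := by
      apply Subgroup.map_injective Δ.subtype_injective
      rw [Subgroup.map_subtype_commutator, ← MonoidHom.range_eq_map, Subgroup.range_subtype]
      refine le_antisymm (Subgroup.commutator_mono le_top le_top) ?_
      show commutator ↥P ≤ _
      rw [_root_.commutator_def, Subgroup.commutator_le]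
      intro a _ b _
      obtain ⟨a', ha, za, hza, rfl⟩ := hdec a
      obtain ⟨b', hb, zb, hzb, rfl⟩ := hdec b
      rw [Schur.commutator_congr hcen (g' := a') (h' := b')
        (by rw [map_mul, MonoidHom.mem_ker.1 hza, mul_one])
        (by rw [map_mul, MonoidHom.mem_ker.1 hzb, mul_one])]
      exact Subgroup.commutator_mem_commutator ha hb
    rw [hperf]
    exact le_top
  · haveI : Fact (Nat.Prime 3) := ⟨Nat.prime_three⟩
    haveI : IsCyclic M := inferInstance
    exact (MulEquiv.ofBijective f hfb).symm.trans (mulEquivOfCyclicCardEq (by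
      rw [hM, Nat.card_congr Multiplicative.toAdd, Nat.card_zmod]))

end CfsgLib.SchurTwisted.E6
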