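import Cfsg.Agent.SchurTwisted.E6Layers

/-!
The flag of the unipotent subgroup of `²E₆(q)`: coordinates, uniqueness and the action of the torus.
-/

set_option autoImplicit false

namespace CfsgLib.SchurTwisted.E6

open Cfsg.Lie CfsgLib.Chevalley CfsgLib.TwistedLie CfsgLib.TwistedLie.E6

set_option synthInstance.maxSize 1024
set_option synthInstance.maxHeartbeats 100000

local notation "S" => sysE6

variable {K : Type*} [Field K] [Fintype K] {q : ℕ} (hq : IsPrimePow q) (hK : Fintype.card K = q ^ 2)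

include hq hK

/-- The parameters of a layer. -/
def Dom (k : ℕ) (t : K) : Prop := isShort k = false → phi hq hK t = t

/-- The subgroup of the layers from `n` on. -/
noncomputable def NN (n : ℕ) : Subgroup (GL chevE6.Idx K) :=
  uSub chevE6 K {r | r ∈ upR n} ⊓ (tw hq hK).G

/-- The root elements of a layer. -/
noncomputable def ee (k : ℕ) (t : K) : GL chevE6.Idx K :=
  if isShort k then
    Sys.xG S K (rep k) t * Sys.xG S K (pE (rep k)) ((sgE (rep k) : K) * phi hq hK t)
  else Sys.xG S K (rep k) t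

theorem ee_short {k : ℕ} (h : isShort k = true) (t : K) : ee hq hK k t =
    Sys.xG S K (rep k) t * Sys.xG S K (pE (rep k)) ((sgE (rep k) : K) * phi hq hK t) := by
  rw [ee, if_pos h]

theorem ee_long' {k : ℕ} (h : isShort k = false) (t : K) :
    ee hq hK k t = Sys.xG S K (rep k) t := by
  rw [ee, if_neg (by simp [h])]

omit hq hK in
theorem pE_lt {k : ℕ} (hk : k < 24) :
    pE (rep k) < chevE6.nroots ∧ chevE6.nroots / 2 ≤ pE (rep k) := by
  have hm : rep k ∈ layR k := by unfold layR; split_ifs <;> simp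
  obtain ⟨h1, h2, -⟩ := lay_ht hk (lay_pE hk hm)
  exact ⟨h1, h2⟩

theorem ee_add {k : ℕ} (hk : k < 24) (t u : K) :
    ee hq hK k t * ee hq hK k u = ee hq hK k (t + u) := by
  cases h : isShort k with
  | false => simp only [ee_long' hq hK h]; exact Sys.xG_add S K _ t u
  | true =>
    have hc := orth_commute S K (twist_short hk h).2.2 u ((sgE (rep k) : K) * phi hq hK t)
    simp only [ee_short hq hK h, map_add, mul_add, ← Sys.xG_add S K]
    simp only [mul_assoc]
    rw [← mul_assoc (Sys.xG S K (pE (rep k)) _), ← hc.eq, mul_assoc]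

theorem ee_zero (k : ℕ) : ee hq hK k 0 = 1 := by
  simp [ee, Sys.xG_zero]

theorem ee_inv {k : ℕ} (hk : k < 24) (t : K) : (ee hq hK k t)⁻¹ = ee hq hK k (-t) :=
  inv_eq_of_mul_eq_one_right (by rw [ee_add hq hK hk, add_neg_cancel, ee_zero])

theorem ee_mem_lay {k : ℕ} (hk : k < 24) (t : K) :
    ee hq hK k t ∈ uSub chevE6 K {r | r ∈ layR k} := by
  have h1 := rep_pos hk
  obtain ⟨h2, h3⟩ := pE_lt hk
  cases h : isShort k with
  | false =>
    rw [ee_long' hq hK h]
    exact Sys.xG_mem_uSub S K (P := {r | r ∈ layR k}) (by simp [layR, h]) h1.2 h1.1 _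
  | true =>
    rw [ee_short hq hK h]
    exact mul_mem (Sys.xG_mem_uSub S K (P := {r | r ∈ layR k}) (by simp [layR, h]) h1.2 h1.1 _)
      (Sys.xG_mem_uSub S K (P := {r | r ∈ layR k}) (by simp [layR, h]) h3 h2 _)

theorem sigma_x {r : ℕ} (hr : r < chevE6.nroots) (t : K) :
    (tw hq hK).σ (Sys.xG S K r t) = Sys.xG S K (pE r) ((sgE r : K) * phi hq hK t) :=
  twistHom_x S K graphE6 (phi hq hK) hr t

theorem sigma_ee {k : ℕ} (hk : k < 24) {t : K} (ht : Dom hq hK k t) :
    (tw hq hK).σ (ee hq hK k t) = ee hq hK k t := by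
  cases h : isShort k with
  | false =>
    rw [ee_long' hq hK h, sigma_x hq hK (rep_pos hk).1, (twist_long hk h).2, Int.cast_one, one_mul,
      ht h]
    exact congrArg (fun r => Sys.xG S K r t) (twist_long hk h).1
  | true =>
    obtain ⟨hp, he, ho⟩ := twist_short hk h
    rw [ee_short hq hK h]
    show sigma hq hK (_ * _) = _
    rw [map_mul]
    show (tw hq hK).σ _ * (tw hq hK).σ _ = _
    rw [sigma_x hq hK (rep_pos hk).1, sigma_x hq hK (pE_lt hk).1, map_mul, map_intCast,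
      phi_phi, ← mul_assoc, ← Int.cast_mul, mul_comm (sgE (pE (rep k))), he, Int.cast_one, one_mul]
    rw [show Sys.xG S K (pE (pE (rep k))) t = Sys.xG S K (rep k) t from
      congrArg (fun r => Sys.xG S K r t) hp]
    exact (orth_commute S K ho _ _).eq.symm

/-- A fixed element of the positive unipotent subgroup lies in the group. -/
theorem fixed_mem_G {p : GL chevE6.Idx K} (hp : p ∈ chevE6.posUnipotent K)
    (hfix : (tw hq hK).σ p = p) : p ∈ (tw hq hK).G := by
  set E := tw hq hK with hE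
  have hle : E.flipFix longWord ≤ E.G := E.flipFix_le_G _
  refine hle ((E.mem_flipFix).2 ⟨?_, hfix⟩)
  rw [← uSub_univ] at hp
  refine Sys.uSub_le S K (fun r _ h1 h2 t => Sys.xG_mem_uSub S K ?_ h1 h2 t) hp
  refine ⟨h2, ?_⟩
  rw [E.perm_nW]
  show (Sys.wperm S (longWord.flatMap blkF) ⟨r, h2⟩ : ℕ) < _
  rw [wperm_flat]
  exact long_neg r h2 h1

theorem ee_mem_G {k : ℕ} (hk : k < 24) {t : K} (ht : Dom hq hK k t) :
    ee hq hK k t ∈ (tw hq hK).G :=
  fixed_mem_G hq hK (uSub_le_posUnipotent K _ (ee_mem_lay hq hK hk t)) (sigma_ee hq hK hk ht)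

omit hq hK in
theorem closed_single {r : ℕ} {k : ℕ} (hk : k < 24) (hr : r ∈ layR k) :
    Sys.Closed S {x | x = r} := by
  intro a ha b hb hap hbp c hc i j hi hj hv
  have hae : a = r := ha
  have hbe : b = r := hb
  subst a b
  have hm := closed_lay hk r hr r hr hap hbp c hc i j hi hj hv
  obtain ⟨-, -, e1⟩ := lay_ht hk hm
  obtain ⟨h2, h1, e2⟩ := lay_ht hk hr
  have e := ht_add hv
  rw [e1, e2, ← add_mul] at e
  have hlow : (1 : ℤ) ≤ lowL.getD k 0 := e2 ▸ (ht_pos h2 h1).1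
  have h2' : 2 * lowL.getD k 0 ≤ ((i : ℤ) + j) * lowL.getD k 0 :=
    mul_le_mul_of_nonneg_right (by omega) (by omega)
  omega

theorem lay_onto {k : ℕ} (hk : k < 24) {u : GL chevE6.Idx K}
    (hu : u ∈ uSub chevE6 K {r | r ∈ layR k}) (hfix : (tw hq hK).σ u = u) :
    ∃ t, Dom hq hK k t ∧ u = ee hq hK k t := by
  have hr := (rep_pos hk).1
  cases h : isShort k with
  | false =>
    have hle : uSub chevE6 K {r | r ∈ layR k} ≤ (Sys.xHom S K (rep k)).range :=
      Sys.uSub_le S K fun r hr' _ _ t => by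
        have : r ∈ layR k := hr'
        rw [layR, if_neg (by simp [h]), List.mem_singleton] at this
        subst this
        exact ⟨Multiplicative.ofAdd t, rfl⟩
    obtain ⟨m, rfl⟩ := hle hu
    rw [show Sys.xHom S K (rep k) m = Sys.xG S K (rep k) (Multiplicative.toAdd m) from rfl,
      sigma_x hq hK hr, (twist_long hk h).2, Int.cast_one, one_mul] at hfix
    have hp := congrArg (fun r => Sys.xG S K r (phi hq hK (Multiplicative.toAdd m)))
      (twist_long hk h).1
    refine ⟨Multiplicative.toAdd m, fun _ => xG_inj S K hr (hp.symm.trans hfix), ?_⟩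
    rw [ee_long' hq hK h]
    rfl
  | true =>
    obtain ⟨hp, he, ho⟩ := twist_short hk h
    have hc := fun s t => orth_commute S K ho s t
    let M : Subgroup (GL chevE6.Idx K) :=
      { carrier := {g | ∃ s t, g = Sys.xG S K (rep k) s * Sys.xG S K (pE (rep k)) t}
        one_mem' := ⟨0, 0, by simp [Sys.xG_zero]⟩
        mul_mem' := by
          rintro x y ⟨s, t, rfl⟩ ⟨s', t', rfl⟩
          refine ⟨s + s', t + t', ?_⟩
          rw [← Sys.xG_add, ← Sys.xG_add]
          simp only [mul_assoc]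
          rw [← mul_assoc (Sys.xG S K (pE (rep k)) t), ← (hc s' t).eq, mul_assoc]
        inv_mem' := by
          rintro x ⟨s, t, rfl⟩
          refine ⟨-s, -t, ?_⟩
          rw [mul_inv_rev, Sys.xG_inv, Sys.xG_inv, (hc _ _).eq] }
    have hle : uSub chevE6 K {r | r ∈ layR k} ≤ M := by
      refine Sys.uSub_le S K fun r hr' _ _ t => ?_
      have : r ∈ layR k := hr'
      rw [layR, if_pos h, List.mem_cons, List.mem_singleton] at this
      rcases this with rfl | rfl
      · exact ⟨t, 0, by simp [Sys.xG_zero]⟩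
      · exact ⟨0, t, by simp [Sys.xG_zero]⟩
    obtain ⟨s, t, rfl⟩ := hle hu
    refine ⟨s, fun h' => absurd (h.symm.trans h') (by simp), ?_⟩
    have h2 : (tw hq hK).σ (Sys.xG S K (rep k) s) * (tw hq hK).σ (Sys.xG S K (pE (rep k)) t) =
        Sys.xG S K (rep k) s * Sys.xG S K (pE (rep k)) t := by
      rw [← (tw hq hK).σ_mul _ (Sys.xG_mem S K hr s) _ (Sys.xG_mem S K (pE_lt hk).1 t)]
      exact hfix
    rw [sigma_x hq hK hr, sigma_x hq hK (pE_lt hk).1,
      show Sys.xG S K (pE (pE (rep k))) ((sgE (pE (rep k)) : K) * phi hq hK t) =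
        Sys.xG S K (rep k) ((sgE (pE (rep k)) : K) * phi hq hK t) from
        congrArg (fun r => Sys.xG S K r _) hp, ← (hc _ _).eq] at h2
    set a' := (sgE (pE (rep k)) : K) * phi hq hK t
    set b' := (sgE (rep k) : K) * phi hq hK s
    have h3 : Sys.xG S K (rep k) (-s + a') = Sys.xG S K (pE (rep k)) (t + -b') := by
      rw [← Sys.xG_add S K, ← Sys.xG_add S K, ← Sys.xG_inv S K _ s, ← Sys.xG_inv S K _ b',
        eq_mul_inv_iff_mul_eq, mul_assoc, h2, inv_mul_cancel_left]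
    have hmem : rep k ∈ layR k := by simp [layR, h]
    have hmem' : pE (rep k) ∈ layR k := by simp [layR, h]
    have hb : Sys.xG S K (pE (rep k)) (t + -b') ∈
        uSub chevE6 K {x | x = rep k} ⊓ uSub chevE6 K {x | x = pE (rep k)} :=
      ⟨h3 ▸ Sys.xG_mem_uSub S K (P := {x | x = rep k}) rfl (rep_pos hk).2 hr _,
        Sys.xG_mem_uSub S K (P := {x | x = pE (rep k)}) rfl (pE_lt hk).2
          (pE_lt hk).1 _⟩
    rw [Sys.uSub_inf S K (closed_single hk hmem) (closed_single hk hmem'),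
      uSub_empty_of (fun r hr _ => (by simpa [isShort] using h : pE (rep k) ≠ rep k)
        (hr.2.symm.trans hr.1)), Subgroup.mem_bot,
      Sys.xG_eq_one_iff S K (pE_lt hk).1] at hb
    rw [ee_short hq hK h, eq_neg_of_add_eq_zero_left hb, neg_neg]

omit hq hK in
theorem lay_inf {k : ℕ} (hk : k < 24) :
    uSub chevE6 K {r | r ∈ layR k} ⊓ uSub chevE6 K {r | r ∈ upR (k + 1)} = ⊥ := by
  rw [Sys.uSub_inf S K (closed_lay hk) (closed_up (by omega))]
  refine uSub_empty_of fun r hr _ => ?_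
  exact absurd hr.2 (lay_not_up hk hr.1)

theorem σ_up {n : ℕ} (hn : n < 25) {u : GL chevE6.Idx K}
    (hu : u ∈ uSub chevE6 K {r | r ∈ upR n}) :
    (tw hq hK).σ u ∈ uSub chevE6 K {r | r ∈ upR n} :=
  (tw hq hK).σ_uSub (fun s hs _ => by
    have h := up_pE
    simp only [List.all_eq_true, List.mem_range, decide_eq_true_eq] at h
    exact h n hn _ hs) hu

theorem σ_lay {k : ℕ} (hk : k < 24) {u : GL chevE6.Idx K}
    (hu : u ∈ uSub chevE6 K {r | r ∈ layR k}) :
    (tw hq hK).σ u ∈ uSub chevE6 K {r | r ∈ layR k} :=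
  (tw hq hK).σ_uSub (fun _ hs _ => lay_pE hk hs) hu

theorem NN_le {k : ℕ} (hk : k < 24) : NN hq hK (k + 1) ≤ NN hq hK k :=
  inf_le_inf_right _ (uSub_mono fun r hr => by rw [← upR_split hk]; exact Or.inr hr)

theorem ee_mem_NN {k : ℕ} (hk : k < 24) {t : K} (ht : Dom hq hK k t) :
    ee hq hK k t ∈ NN hq hK k :=
  Subgroup.mem_inf.2 ⟨uSub_mono (fun r hr => by rw [← upR_split hk]; exact Or.inl hr)
    (ee_mem_lay hq hK hk t), ee_mem_G hq hK hk ht⟩

theorem exists_coord {k : ℕ} (hk : k < 24) {u : GL chevE6.Idx K} (hu : u ∈ NN hq hK k) :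
    ∃ t, Dom hq hK k t ∧ (ee hq hK k t)⁻¹ * u ∈ NN hq hK (k + 1) := by
  obtain ⟨hu1, huG⟩ := Subgroup.mem_inf.1 hu
  rw [← upR_split hk] at hu1
  obtain ⟨p, hp, x, hx, e⟩ := Sys.uSub_union_mul S K (closed_lay hk) (closed_up (by omega))
    (by rw [upR_split hk]; exact closed_up (by omega)) hu1
  set E := tw hq hK with hE
  have h1 : E.σ p * E.σ x = p * x := by
    rw [← E.σ_mul p (E.uSub_mem_group hp) x (E.uSub_mem_group hx), ← e, E.σ_mem huG]
  have hkey : p⁻¹ * E.σ p = x * (E.σ x)⁻¹ := by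
    rw [inv_mul_eq_iff_eq_mul, ← mul_assoc, ← h1, mul_inv_cancel_right]
  have hb : p⁻¹ * E.σ p ∈ uSub chevE6 K {r | r ∈ layR k} ⊓
      uSub chevE6 K {r | r ∈ upR (k + 1)} :=
    Subgroup.mem_inf.mpr ⟨mul_mem (inv_mem hp) (σ_lay hq hK hk hp),
      hkey ▸ mul_mem hx (inv_mem (σ_up hq hK (by omega) hx))⟩
  rw [lay_inf hk, Subgroup.mem_bot, inv_mul_eq_one] at hb
  obtain ⟨t, ht, rfl⟩ := lay_onto hq hK hk hp hb.symm
  refine ⟨t, ht, ?_⟩
  rw [e, inv_mul_cancel_left]
  refine Subgroup.mem_inf.2 ⟨hx, ?_⟩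
  have : x = (ee hq hK k t)⁻¹ * u := by rw [e, inv_mul_cancel_left]
  rw [this]
  exact mul_mem (inv_mem (ee_mem_G hq hK hk ht)) huG

theorem eq_zero_of_mem {k : ℕ} (hk : k < 24) {t : K}
    (h : ee hq hK k t ∈ NN hq hK (k + 1)) : t = 0 := by
  have hb : ee hq hK k t ∈ uSub chevE6 K {r | r ∈ layR k} ⊓
      uSub chevE6 K {r | r ∈ upR (k + 1)} :=
    ⟨ee_mem_lay hq hK hk t, (Subgroup.mem_inf.1 h).1⟩
  rw [lay_inf hk, Subgroup.mem_bot] at hb
  have hr := (rep_pos hk).1
  cases hs : isShort k with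
  | false =>
    rw [ee_long' hq hK hs, Sys.xG_eq_one_iff S K hr] at hb
    exact hb
  | true =>
    rw [ee_short hq hK hs, mul_eq_one_iff_eq_inv, Sys.xG_inv] at hb
    have hm : Sys.xG S K (rep k) t ∈
        uSub chevE6 K {x | x = rep k} ⊓ uSub chevE6 K {x | x = pE (rep k)} :=
      ⟨Sys.xG_mem_uSub S K (P := {x | x = rep k}) rfl (rep_pos hk).2 hr _,
        hb ▸ Sys.xG_mem_uSub S K (P := {x | x = pE (rep k)}) rfl (pE_lt hk).2
          (pE_lt hk).1 _⟩
    rw [Sys.uSub_inf S K (closed_single hk (by simp [layR, hs]))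
      (closed_single hk (by simp [layR, hs])),
      uSub_empty_of (fun r hr _ => (by simpa [isShort] using hs : pE (rep k) ≠ rep k)
        (hr.2.symm.trans hr.1)), Subgroup.mem_bot, Sys.xG_eq_one_iff S K hr] at hm
    exact hm

theorem tor_conj_ee {c : ℕ → Kˣ} (hc : c ∈ Folded.fixC (phi hq hK) chevE6 qE) {k : ℕ} (hk : k < 24)
    (t : K) : tor chevE6 K c * ee hq hK k t * (tor chevE6 K c)⁻¹ =
      ee hq hK k ((torusVal chevE6 c (rep k) : K) * t) := by
  have hr := (rep_pos hk).1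
  cases h : isShort k with
  | false =>
    rw [ee_long' hq hK h, ee_long' hq hK h, Sys.tor_conj S K c hr]
  | true =>
    rw [ee_short hq hK h, ee_short hq hK h, ← conj_mul, Sys.tor_conj S K c hr,
      Sys.tor_conj S K c (pE_lt hk).1,
      Folded.torusVal_fix_val graphE6 (phi hq hK) hc hr, map_mul, mul_left_comm]

theorem NN_conj {n : ℕ} (hn : n < 25) {g : GL chevE6.Idx K} (hg : g ∈ (tw hq hK).B1)
    {u : GL chevE6.Idx K} (hu : u ∈ NN hq hK n) : g * u * g⁻¹ ∈ NN hq hK n := by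
  obtain ⟨hu1, huG⟩ := Subgroup.mem_inf.1 hu
  refine Subgroup.mem_inf.2 ⟨?_, mul_mem (mul_mem ((tw hq hK).B1_le hg).2 huG)
    (inv_mem ((tw hq hK).B1_le hg).2)⟩
  obtain ⟨v, hv, t, ht, rfl⟩ := (tw hq hK).mem_B1.mp hg
  set Q := uSub chevE6 K {r | r ∈ upR n}
  have htQ : t * u * t⁻¹ ∈ Q := by
    obtain ⟨c, -, rfl⟩ := ht
    have hle : Q ≤ Q.comap (MulAut.conj (tor chevE6 K c)).toMonoidHom := by
      refine Sys.uSub_le S K fun r hr h1 h2 s => ?_
      rw [Subgroup.mem_comap, MulEquiv.coe_toMonoidHom, MulAut.conj_apply, Sys.tor_conj S K c h2]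
      exact Sys.xG_mem_uSub S K (P := {r | r ∈ upR n}) hr h1 h2 _
    exact hle hu1
  have hv' : v ∈ uSub chevE6 K Set.univ := by rw [uSub_univ]; exact hv.1
  have key : ∀ r, chevE6.nroots / 2 ≤ r → r < chevE6.nroots → ∀ a : K, ∀ w ∈ Q,
      Sys.xG S K r a * w * (Sys.xG S K r a)⁻¹ ∈ Q := by
    intro r h1 h2 a w hw
    have hle : Q ≤ Q.comap (MulAut.conj (Sys.xG S K r a)).toMonoidHom := by
      refine Sys.uSub_le S K fun s hs g1 g2 b => ?_
      rw [Subgroup.mem_comap, MulEquiv.coe_toMonoidHom, MulAut.conj_apply, Sys.xG_inv]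
      by_cases hrs : s = r
      · subst hrs
        rw [Sys.xG_add, Sys.xG_add]
        exact Sys.xG_mem_uSub S K (P := {r | r ∈ upR n}) hs g1 g2 _
      have hneg : s ≠ chevE6.neg r := fun e => by
        have := (Sys.neg_half S r h2).mpr h1
        omega
      have h := Sys.xG_comm S K h2 g2 hrs hneg (-a) b
      rw [Sys.xG_inv, neg_neg] at h
      rw [h]
      refine mul_mem (Sys.xG_mem_uSub S K (P := {r | r ∈ upR n}) hs g1 g2 _)
        (Sys.wG_commWord_mem S K h2 g2 _ _ fun c hc => ?_)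
      exact chkUp_spec hn h2 h1 hs hc
    exact hle hw
  let N' : Subgroup (GL chevE6.Idx K) := Subgroup.normalizer (Q : Set (GL chevE6.Idx K))
  have hN' : uSub chevE6 K Set.univ ≤ N' := by
    refine Sys.uSub_le S K fun r _ h1 h2 a => Subgroup.mem_normalizer_iff.2 fun w => ⟨key r h1 h2 a w, ?_⟩
    intro hw
    have h := key r h1 h2 (-a) _ hw
    rw [← Sys.xG_inv] at h
    simpa [mul_assoc] using h
  have := (Subgroup.mem_normalizer_iff.mp (hN' hv') _).1 htQ
  rw [show v * t * u * (v * t)⁻¹ = v * (t * u * t⁻¹) * v⁻¹ by group]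
  exact this

theorem NN_zero : NN hq hK 0 = chevE6.posUnipotent K ⊓ (tw hq hK).G := by
  refine congrArg (· ⊓ (tw hq hK).G) (le_antisymm (uSub_le_posUnipotent K _) ?_)
  rw [← uSub_univ]
  refine Sys.uSub_le S K fun r _ h1 h2 t =>
    Sys.xG_mem_uSub S K (P := {r | r ∈ upR 0}) ?_ h1 h2 t
  have h := upR_all
  simp only [List.all_eq_true, List.mem_range, Bool.or_eq_true, decide_eq_true_eq] at h
  exact (h r h2).resolve_left (not_lt.2 h1)

theorem NN_top : NN hq hK 24 = ⊥ :=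
  eq_bot_iff.2 (inf_le_left.trans (uSub_empty_of fun r hr _ => by
    have h : r ∈ upR 24 := hr
    rw [upR_24] at h
    simp at h).le)

/-- Generation by the root elements of the layers. -/
theorem NN_gen (n : ℕ) : n ≤ 24 → NN hq hK n ≤ Subgroup.closure
    {x | ∃ j, j < 24 ∧ n ≤ j ∧ ∃ t, Dom hq hK j t ∧ x = ee hq hK j t} := by
  intro hn
  induction h : 24 - n generalizing n with
  | zero =>
    obtain rfl : n = 24 := by omega
    rw [NN_top]; exact bot_le
  | succ m ih =>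
    intro u hu
    obtain ⟨t, ht, hrest⟩ := exists_coord hq hK (show n < 24 by omega) hu
    have h1 : ee hq hK n t ∈ Subgroup.closure
        {x | ∃ j, j < 24 ∧ n ≤ j ∧ ∃ t, Dom hq hK j t ∧ x = ee hq hK j t} :=
      Subgroup.subset_closure ⟨n, by omega, le_rfl, t, ht, rfl⟩
    have h2 := Subgroup.closure_mono
      (k := {x | ∃ j, j < 24 ∧ n ≤ j ∧ ∃ t, Dom hq hK j t ∧ x = ee hq hK j t})
      (by rintro x ⟨j, hj', hj, t, ht, e⟩; exact ⟨j, hj', by omega, t, ht, e⟩)
      (ih (n + 1) (by omega) (by omega) hrest)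
    simpa using mul_mem h1 h2

end CfsgLib.SchurTwisted.E6
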