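import Cfsg.Agent.SchurTwisted.E6Layers
import Cfsg.Agent.TwistedLie.E6Torus

/-!
Elements of the torus of `²E₆(q)` separating the layers, for `q ≥ 3`: the values are powers
`g ^ (A + B q)` of a generator of the multiplicative group.
-/

set_option autoImplicit false

namespace CfsgLib.SchurTwisted.E6

open Cfsg.Lie CfsgLib.Chevalley CfsgLib.TwistedLie CfsgLib.TwistedLie.E6

local notation "S" => sysE6

/-- The first exponent of a value. -/
def expA (n : List ℤ) (r : ℕ) : ℤ :=
  n.getD 0 0 * chevE6.cartan 0 r + n.getD 1 0 * chevE6.cartan 1 r + n.getD 2 0 * chevE6.cartan 2 r +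
    n.getD 3 0 * chevE6.cartan 3 r + n.getD 5 0 * chevE6.cartan 4 r + n.getD 4 0 * chevE6.cartan 5 r

/-- The second exponent of a value. -/
def expB (n : List ℤ) (r : ℕ) : ℤ :=
  n.getD 4 0 * chevE6.cartan 0 r + n.getD 1 0 * chevE6.cartan 1 r + n.getD 5 0 * chevE6.cartan 2 r +
    n.getD 3 0 * chevE6.cartan 3 r + n.getD 2 0 * chevE6.cartan 4 r + n.getD 0 0 * chevE6.cartan 5 r

/-- The value is `1` identically. -/
def isOne (n : List ℤ) (r : ℕ) : Bool := decide (expA n r = 0) && decide (expB n r = 0)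

/-- The value is different from `1` for every `q ≥ 3`. -/
def isNe (n : List ℤ) (r : ℕ) : Bool :=
  !isOne n r && decide (-2 ≤ expA n r ∧ expA n r ≤ 2 ∧ -2 ≤ expB n r ∧ expB n r ≤ 2) &&
    decide (¬ ((expA n r = 2 ∨ expA n r = -2) ∧ (expB n r = 2 ∨ expB n r = -2)))

/-- The parameters used for separation. -/
def candN : List (List ℤ) :=
  [[-1, 0, 0, 0, 0, -1], [-1, 0, -1, 0, 0, 1], [-1, 0, -1, -1, 1, 0], [-1, -1, 0, -1, 0, -1],
    [-1, -1, -2, -2, -1, -2], [0, 0, 0, -1, 0, 0]]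

/-- The parameters used for scalars. -/
def scalN : List (List ℤ) :=
  [[0, 0, 0, 0, 0, -1], [0, 0, 0, 0, -1, 0], [0, 0, 0, 0, 0, 1], [0, 0, -1, 0, 0, 0],
    [0, 0, 1, 0, 0, 0], [-1, 0, 0, 0, 0, 0], [1, 0, 0, 0, 0, 0]]

theorem chkSep : ((List.range 24).all fun j => (List.range 24).all fun k => decide (k ≤ j) ||
    candN.any fun n =>
      isOne n (rep j) && isNe n (rep k) || isOne n (rep k) && isNe n (rep j)) = true := by
  decide +kernel

theorem chkFpf : ((List.range 24).all fun k => candN.any fun n => isNe n (rep k)) = true := by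
  decide +kernel

theorem chkScal : ((List.range 24).all fun k => !isShort k ||
    scalN.any fun n => decide (expA n (rep k) = 1) && decide (expB n (rep k) = 0)) = true := by
  decide +kernel

variable {K : Type*} [Field K] [Fintype K] {q : ℕ}

/-- The parameters attached to exponents. -/
def cN (q : ℕ) (g : Kˣ) (n : List ℤ) : ℕ → Kˣ
  | 0 => g ^ (n.getD 0 0 + n.getD 4 0 * q)
  | 1 => g ^ (n.getD 1 0 + n.getD 1 0 * q)
  | 2 => g ^ (n.getD 2 0 + n.getD 5 0 * q)
  | 3 => g ^ (n.getD 3 0 + n.getD 3 0 * q)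
  | 4 => g ^ (n.getD 5 0 + n.getD 2 0 * q)
  | 5 => g ^ (n.getD 4 0 + n.getD 0 0 * q)
  | _ => 1

omit [Fintype K] in
theorem cN_val (g : Kˣ) (n : List ℤ) (r : ℕ) :
    torusVal chevE6 (cN q g n) r = g ^ (expA n r + expB n r * q) := by
  rw [torusVal, show chevE6.rank = 6 from rfl]
  simp only [Finset.prod_range_succ, Finset.prod_range_zero, one_mul, cN, ← zpow_mul, ← zpow_add]
  congr 1
  simp only [expA, expB]
  ring

variable (hq : IsPrimePow q) (hK : Fintype.card K = q ^ 2)
include hq hK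

theorem cN_mem (g : Kˣ) (n : List ℤ) : cN q g n ∈ Folded.fixC (phi hq hK) chevE6 qE := by
  have hsq : g ^ ((q : ℤ) * q) = g := by
    rw [← Nat.cast_mul, zpow_natCast]
    refine Units.ext ?_
    rw [Units.val_pow_eq_pow_val, ← sq, ← hK, FiniteField.pow_card]
  have e : ∀ a b : ℤ, g ^ (b + a * q) = Folded.uMap (phi hq hK) (g ^ (a + b * q)) := fun a b => by
    refine Units.ext ?_
    show _ = phi hq hK ((g ^ (a + b * q) : Kˣ) : K)
    rw [phi_apply, ← Units.val_pow_eq_pow_val, ← zpow_natCast, ← zpow_mul,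
      show (a + b * q) * (q : ℤ) = a * q + (q * q) * b by ring, zpow_add, zpow_add, zpow_mul g (q * q : ℤ),
      hsq, mul_comm]
  intro j hj
  replace hj : j < 6 := hj
  interval_cases j
  · rw [show qE 0 = 5 by decide +kernel]; exact e _ _
  · rw [show qE 1 = 1 by decide +kernel]; exact e _ _
  · rw [show qE 2 = 4 by decide +kernel]; exact e _ _
  · rw [show qE 3 = 3 by decide +kernel]; exact e _ _
  · rw [show qE 4 = 2 by decide +kernel]; exact e _ _
  · rw [show qE 5 = 0 by decide +kernel]; exact e _ _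

omit hq hK in
theorem eq_one_of_isOne (g : Kˣ) {n : List ℤ} {r : ℕ} (h : isOne n r = true) :
    torusVal chevE6 (cN q g n) r = 1 := by
  simp only [isOne, Bool.and_eq_true, decide_eq_true_eq] at h
  simp [cN_val, h.1, h.2]

theorem ne_one_of_isNe (hq3 : 3 ≤ q) {g : Kˣ} (hg : ∀ x, x ∈ Subgroup.zpowers g) {n : List ℤ}
    {r : ℕ} (h : isNe n r = true) : torusVal chevE6 (cN q g n) r ≠ 1 := by
  simp only [isNe, isOne, Bool.and_eq_true, Bool.not_eq_true', Bool.and_eq_false_iff,
    decide_eq_true_eq, decide_eq_false_iff_not] at h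
  obtain ⟨⟨hne, hA1, hA2, hB1, hB2⟩, h2⟩ := h
  rw [cN_val, Ne, ← orderOf_dvd_iff_zpow_eq_one, orderOf_eq_card_of_forall_mem_zpowers hg,
    Nat.card_units, Nat.card_eq_fintype_card, hK, Nat.cast_sub (Nat.one_le_pow _ _ hq.pos),
    Nat.cast_pow, Nat.cast_one]
  set A := expA n r
  set B := expB n r
  have hq' : (3 : ℤ) ≤ q := by exact_mod_cast hq3
  have hsq : 3 * (q : ℤ) ≤ (q : ℤ) ^ 2 := by nlinarith
  have hB : B = -2 ∨ B = -1 ∨ B = 0 ∨ B = 1 ∨ B = 2 := by omega
  have h0 : A + B * q ≠ 0 := by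
    rcases hB with e | e | e | e | e <;> rw [e] <;> omega
  have hlt : (A + B * q).natAbs < ((q : ℤ) ^ 2 - 1).natAbs := by
    rcases hB with e | e | e | e | e <;> rw [e] at h2 ⊢ <;> omega
  exact fun hd => h0 (Int.eq_zero_of_dvd_of_natAbs_lt_natAbs hd hlt)

/-- An element fixed-point free on a given layer. -/
theorem exists_fpf (hq3 : 3 ≤ q) {k : ℕ} (hk : k < 24) :
    ∃ c ∈ Folded.fixC (phi hq hK) chevE6 qE, (torusVal chevE6 c (rep k) : K) ≠ 1 := by
  obtain ⟨g, hg⟩ := IsCyclic.exists_generator (α := Kˣ)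
  have h := chkFpf
  simp only [List.all_eq_true, List.mem_range, List.any_eq_true] at h
  obtain ⟨n, -, hn⟩ := h k hk
  exact ⟨cN q g n, cN_mem hq hK g n, fun e => ne_one_of_isNe hq hK hq3 hg hn (Units.ext e)⟩

/-- Two different layers are separated by the torus. -/
theorem exists_separating (hq3 : 3 ≤ q) {j k : ℕ} (hk : k < 24) (hjk : j < k) :
    ∃ c ∈ Folded.fixC (phi hq hK) chevE6 qE,
      (torusVal chevE6 c (rep j) = 1 ∧ torusVal chevE6 c (rep k) ≠ 1) ∨
        (torusVal chevE6 c (rep k) = 1 ∧ torusVal chevE6 c (rep j) ≠ 1) := by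
  obtain ⟨g, hg⟩ := IsCyclic.exists_generator (α := Kˣ)
  have h := chkSep
  simp only [List.all_eq_true, List.mem_range, List.any_eq_true, Bool.or_eq_true, Bool.and_eq_true,
    decide_eq_true_eq] at h
  obtain ⟨n, -, hn⟩ := (h j (by omega) k hk).resolve_left (by omega)
  refine ⟨cN q g n, cN_mem hq hK g n, ?_⟩
  rcases hn with ⟨h1, h2⟩ | ⟨h1, h2⟩
  · exact Or.inl ⟨eq_one_of_isOne g h1, ne_one_of_isNe hq hK hq3 hg h2⟩
  · exact Or.inr ⟨eq_one_of_isOne g h1, ne_one_of_isNe hq hK hq3 hg h2⟩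

/-- On a layer of two roots the torus induces all scalars. -/
theorem exists_scalar {k : ℕ} (hk : k < 24) (hs : isShort k = true) (y : Kˣ) :
    ∃ c ∈ Folded.fixC (phi hq hK) chevE6 qE, torusVal chevE6 c (rep k) = y := by
  have h := chkScal
  simp only [List.all_eq_true, List.mem_range, List.any_eq_true, Bool.or_eq_true, Bool.and_eq_true,
    Bool.not_eq_true', decide_eq_true_eq] at h
  obtain ⟨n, -, hA, hB⟩ := (h k hk).resolve_left (by simp [hs])
  exact ⟨cN q y n, cN_mem hq hK y n, by rw [cN_val, hA, hB]; simp⟩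

/-- A scalar avoiding the exceptional values. -/
theorem exists_good_scalar (hq3 : 3 ≤ q) : ∃ s : K, s ≠ 0 ∧ 1 + s ≠ 0 ∧ s * s + s + 1 ≠ 0 := by
  classical
  have h9 : 4 < Fintype.card K := by
    rw [hK]
    calc 4 < 3 ^ 2 := by norm_num
      _ ≤ q ^ 2 := Nat.pow_le_pow_left hq3 2
  by_cases h : ∃ r : K, r * r + r + 1 = 0
  · obtain ⟨r, hr⟩ := h
    have hlt : ({0, -1, r, -1 - r} : Finset K).card < (Finset.univ : Finset K).card :=
      lt_of_le_of_lt Finset.card_le_four (by rwa [Finset.card_univ])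
    obtain ⟨s, -, hs⟩ := Finset.exists_mem_notMem_of_card_lt_card hlt
    simp only [Finset.mem_insert, Finset.mem_singleton, not_or] at hs
    refine ⟨s, hs.1, fun e => hs.2.1 (by linear_combination e), fun e => ?_⟩
    have : (s - r) * (s - (-1 - r)) = 0 := by linear_combination e - hr
    rcases mul_eq_zero.1 this with e' | e'
    · exact hs.2.2.1 (sub_eq_zero.1 e')
    · exact hs.2.2.2 (sub_eq_zero.1 e')
  · push Not at h
    obtain ⟨s, -, hs⟩ := Finset.exists_mem_notMem_of_card_lt_card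
      (show ({0, -1} : Finset K).card < (Finset.univ : Finset K).card from
        lt_of_le_of_lt Finset.card_le_two (by rw [Finset.card_univ]; omega))
    simp only [Finset.mem_insert, Finset.mem_singleton, not_or] at hs
    exact ⟨s, hs.1, fun e => hs.2 (by linear_combination e), h s⟩

end CfsgLib.SchurTwisted.E6
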