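import Cfsg.Agent.SchurTwisted.Flag
import Cfsg.Agent.SchurTwisted.E6Flag
import Cfsg.Agent.SchurTwisted.E6Sep
import Cfsg.Agent.TwistedLie.E6Order

/-!
The multiplier of `²E₆(q)`, `q ≥ 3`, at the characteristic: an invariant complement over the Borel
subgroup along the twenty-four layers.
-/

set_option autoImplicit false

namespace CfsgLib.SchurTwisted.E6

open Cfsg.Lie CfsgLib.Chevalley CfsgLib.TwistedLie CfsgLib.TwistedLie.E6
open CfsgLib.SchurClassical
open scoped commutatorElement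

universe u

local notation "S" => sysE6

/-- The long positive roots, each with two fixed roots summing to it. -/
def longSum : List (ℕ × ℕ × ℕ) :=
  [(39, 25, 47), (46, 32, 47), (47, 39, 46), (44, 25, 51), (51, 44, 46), (53, 44, 47), (60, 25, 63),
    (63, 46, 60), (65, 47, 60), (69, 51, 60), (70, 53, 60), (71, 53, 63)]

/-- A fixed root with sign `1`. -/
def isFixedRoot (a : ℕ) : Bool := decide (pE a = a) && decide (sgE a = 1) && decide (a < 72)

theorem chkLong : ((List.range 24).all fun k => isShort k || longSum.any fun x =>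
    decide (x.1 = rep k) && isFixedRoot x.2.1 && isFixedRoot x.2.2 &&
    decide (x.2.2 ≠ x.2.1 ∧ x.2.2 ≠ chevE6.neg x.2.1) &&
    orthB chevE6 x.2.1 (rep k) && orthB chevE6 x.2.2 (rep k) &&
    (match chevE6.commTerms x.2.1 x.2.2 with
      | [(c, C, 1, 1)] => decide (c = rep k ∧ (C = 1 ∨ C = -1))
      | _ => false)) = true := by decide +kernel

theorem long_spec {k : ℕ} (hk : k < 24) (hs : isShort k = false) : ∃ (a b : ℕ) (C : ℤ),
    isFixedRoot a = true ∧ isFixedRoot b = true ∧ b ≠ a ∧ b ≠ chevE6.neg a ∧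
    orthB chevE6 a (rep k) = true ∧ orthB chevE6 b (rep k) = true ∧
    chevE6.commTerms a b = [(rep k, C, 1, 1)] ∧ (C = 1 ∨ C = -1) := by
  have h := chkLong
  simp only [List.all_eq_true, List.mem_range, List.any_eq_true, Bool.or_eq_true, Bool.and_eq_true,
    decide_eq_true_eq] at h
  obtain ⟨⟨r, a, b⟩, -, hx⟩ := (h k hk).resolve_left (by simp [hs])
  obtain ⟨⟨⟨⟨⟨⟨-, ha⟩, hb⟩, hne, hneg⟩, oa⟩, ob⟩, hm⟩ := hx
  simp only at ha hb hne hneg oa ob hm
  split at hm
  · rename_i c C heq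
    simp only [decide_eq_true_eq] at hm
    obtain ⟨rfl, hC⟩ := hm
    exact ⟨a, b, C, ha, hb, hne, hneg, oa, ob, heq, hC⟩
  · simp at hm

theorem fixed_flip : ((List.range 72).all fun r => decide (36 ≤ r) || !isFixedRoot r ||
    (isFixedRoot (wL chevE6 (wdN longWord) r) && decide (36 ≤ wL chevE6 (wdN longWord) r) &&
      decide (wL chevE6 (wdN longWord) (wL chevE6 (wdN longWord) r) = r))) = true := by decide +kernel

variable {K : Type u} [Field K] [Fintype K] {q : ℕ} (hq : IsPrimePow q) (hK : Fintype.card K = q ^ 2)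

include hq hK

/-- Fixed root elements with fixed parameter lie in the group. -/
theorem root_mem {r : ℕ} (hr : isFixedRoot r = true) {w : K} (hw : phi hq hK w = w) :
    Sys.xG S K r w ∈ (tw hq hK).G := by
  have hspec : ∀ {r}, isFixedRoot r = true →
      r < chevE6.nroots ∧ ∀ t, (tw hq hK).σ (Sys.xG S K r t) = Sys.xG S K r (phi hq hK t) := by
    intro r hr
    simp only [isFixedRoot, Bool.and_eq_true, decide_eq_true_eq] at hr
    obtain ⟨⟨hp, he⟩, hlt⟩ := hr
    refine ⟨hlt, fun t => ?_⟩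
    rw [sigma_x hq hK hlt, he, Int.cast_one, one_mul]
    exact congrArg (fun s => Sys.xG S K s (phi hq hK t)) hp
  have hpos : ∀ {r}, isFixedRoot r = true → 36 ≤ r → ∀ {w}, phi hq hK w = w →
      Sys.xG S K r w ∈ (tw hq hK).G := fun {r} hr h36 {w} hw =>
    fixed_mem_G hq hK (uSub_le_posUnipotent K _
      (Sys.xG_mem_uSub S K (P := Set.univ) trivial h36 (hspec hr).1 w))
      (by rw [(hspec hr).2, hw])
  by_cases h36 : 36 ≤ r
  · exact hpos hr h36 hw
  · have h := fixed_flip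
    simp only [List.all_eq_true, List.mem_range, Bool.or_eq_true, Bool.and_eq_true,
      decide_eq_true_eq, Bool.not_eq_true'] at h
    have hlt := (hspec hr).1
    rcases h r hlt with (h' | h') | ⟨⟨h1, h2⟩, h3⟩
    · exact absurd h' h36
    · rw [hr] at h'; exact Bool.noConfusion h'
    obtain ⟨r', hr'⟩ : ∃ r', r' = wL chevE6 (wdN longWord) r := ⟨_, rfl⟩
    rw [← hr'] at h1 h2 h3
    obtain ⟨κ, hκ, hc⟩ := Sys.conj_root S K ((tw hq hK).nW longWord) ⟨r', (hspec h1).1⟩
    have e : ((Sys.perm S K ((tw hq hK).nW longWord) ⟨r', (hspec h1).1⟩ : Fin chevE6.nroots) : ℕ) =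
        r := by
      rw [Tw.perm_nW]
      show (Sys.wperm S (longWord.flatMap blkF) ⟨r', _⟩ : ℕ) = r
      rw [wperm_flat]
      exact h3
    have hmem : ∀ {t}, phi hq hK t = t → Sys.xG S K r (κ * t) ∈ (tw hq hK).G := fun {t} ht => by
      rw [← e, ← (hc t).1]
      exact mul_mem (mul_mem ((tw hq hK).nW_mem _) (hpos h1 h2 ht)) (inv_mem ((tw hq hK).nW_mem _))
    have hκf : phi hq hK κ = κ := by
      have h5 := (tw hq hK).σ_mem (hmem (map_one _))
      rw [mul_one, (hspec hr).2] at h5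
      exact xG_inj S K hlt h5
    rw [show w = κ * (κ⁻¹ * w) by rw [mul_inv_cancel_left₀ hκ]]
    exact hmem (by rw [map_mul, map_inv₀, hκf, hw])

theorem NN_le_B1 (n : ℕ) : NN hq hK n ≤ (tw hq hK).B1 :=
  (inf_le_inf_right _ (uSub_le_posUnipotent K _)).trans (tw hq hK).U_le_B1

omit [Fintype K] hq hK in
theorem tor_conj_mul {A : Type*} [Group A] {t e e' w : A} (h : t * e * t⁻¹ = e') :
    t * (e * w) * t⁻¹ * (e * w)⁻¹ = e' * e⁻¹ * (e * (t * w * t⁻¹ * w⁻¹) * e⁻¹) := by
  rw [← h]; group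

/-- A torus element moving the coordinate of a layer fixes nothing on it. -/
theorem fpf_of_ne {k : ℕ} (hk : k < 24) {c : ℕ → Kˣ}
    (hc' : c ∈ Folded.fixC (phi hq hK) chevE6 qE) (hne : (torusVal chevE6 c (rep k) : K) ≠ 1) :
    FPF (tor chevE6 K c) (NN hq hK k) (NN hq hK (k + 1)) := by
  intro u hu htu
  obtain ⟨s, hs, hsu⟩ := exists_coord hq hK hk hu
  obtain ⟨w, hw, rfl⟩ : ∃ w, w ∈ NN hq hK (k + 1) ∧ u = ee hq hK k s * w :=
    ⟨_, hsu, (mul_inv_cancel_left _ _).symm⟩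
  have htor : tor chevE6 K c ∈ (tw hq hK).B1 := (tw hq hK).T_le_B1 ⟨c, hc', rfl⟩
  have h1 : ee hq hK k s ∈ (tw hq hK).B1 := NN_le_B1 hq hK _ (ee_mem_NN hq hK hk hs)
  rw [tor_conj_mul (tor_conj_ee hq hK hc' hk s), ee_inv hq hK hk, ee_add hq hK hk] at htu
  have h2 : ee hq hK k s * (tor chevE6 K c * w * (tor chevE6 K c)⁻¹ * w⁻¹) * ee hq hK k (-s) ∈
      NN hq hK (k + 1) := by
    rw [← ee_inv hq hK hk]
    exact NN_conj hq hK (by omega) h1
      (mul_mem (NN_conj hq hK (by omega) htor hw) (inv_mem hw))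
  have h5 := mul_mem htu (inv_mem h2)
  rw [mul_inv_cancel_right] at h5
  have h3 := eq_zero_of_mem hq hK hk h5
  have h4 : ((torusVal chevE6 c (rep k) : K) - 1) * s = 0 := by
    rw [← h3]; ring
  rcases mul_eq_zero.1 h4 with h4 | h4
  · exact absurd (sub_eq_zero.1 h4) hne
  · rw [h4, ee_zero, one_mul]; exact hw

/-- A torus element fixing the coordinate of a layer fixes it. -/
theorem fixesLayer_of_eq {k : ℕ} (hk : k < 24) {c : ℕ → Kˣ}
    (hc' : c ∈ Folded.fixC (phi hq hK) chevE6 qE) (h1 : torusVal chevE6 c (rep k) = 1) :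
    FixesLayer (tor chevE6 K c) (NN hq hK k) (NN hq hK (k + 1)) := by
  intro u hu
  obtain ⟨s, hs, hsu⟩ := exists_coord hq hK hk hu
  obtain ⟨w, hw, rfl⟩ : ∃ w, w ∈ NN hq hK (k + 1) ∧ u = ee hq hK k s * w :=
    ⟨_, hsu, (mul_inv_cancel_left _ _).symm⟩
  have htor : tor chevE6 K c ∈ (tw hq hK).B1 := (tw hq hK).T_le_B1 ⟨c, hc', rfl⟩
  have h2 := tor_conj_ee hq hK hc' hk s
  rw [h1, Units.val_one, one_mul] at h2
  rw [tor_conj_mul h2, mul_inv_cancel, one_mul]
  exact NN_conj hq hK (by omega) (NN_le_B1 hq hK _ (ee_mem_NN hq hK hk hs))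
    (mul_mem (NN_conj hq hK (by omega) htor hw) (inv_mem hw))

variable {Γ : Type u} [Group Γ] {π : Γ →* GL chevE6.Idx K}
  (hrange : π.range = (tw hq hK).G) (hc : π.ker ≤ Subgroup.center Γ)

include hrange hc

/-- Lifts of the elements of a long root subgroup commute. -/
theorem long_commute {k : ℕ} (hk : k < 24) (hs : isShort k = false) {X Y : Γ} {t u : K}
    (hu : Dom hq hK k u) (hX : π X = ee hq hK k t)
    (hY : π Y = ee hq hK k u) : X * Y = Y * X := by
  obtain ⟨a, b, C, ha, hb, hne, hneg, oa, ob, hterms, hC⟩ := long_spec hk hs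
  have ha' : a < chevE6.nroots := by
    simp only [isFixedRoot, Bool.and_eq_true, decide_eq_true_eq] at ha; exact ha.2
  have hb' : b < chevE6.nroots := by
    simp only [isFixedRoot, Bool.and_eq_true, decide_eq_true_eq] at hb; exact hb.2
  have hC2 : (C : K) * C = 1 := by rcases hC with rfl | rfl <;> simp
  have hw : phi hq hK ((C : K) * u) = (C : K) * u := by rw [map_mul, map_intCast, hu hs]
  obtain ⟨A, hA⟩ : Sys.xG S K a ((C : K) * u) ∈ π.range := hrange ▸ root_mem hq hK ha hw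
  obtain ⟨B, hB⟩ : Sys.xG S K b 1 ∈ π.range := hrange ▸ root_mem hq hK hb (map_one _)
  refine commute_of_comm hc (A₁ := A) (B₁ := B) ?_ ?_ ?_
  · rw [hY, ee_long' hq hK hs, map_commutatorElement, hA, hB, commutatorElement_def]
    have h := Sys.xG_comm S K ha' hb' hne hneg (-((C : K) * u)) (1 : K)
    have hword : Sys.wG S K (chevE6.commWord K a b (-((C : K) * u)) 1) = Sys.xG S K (rep k) u := by
      simp only [ChevalleyDatum.commWord, hterms, List.map_cons, List.map_nil, pow_one, neg_neg,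
        mul_one]
      rw [wG_single, ← mul_assoc, hC2, one_mul]
    rw [hword, Sys.xG_inv, neg_neg] at h
    rw [Sys.xG_inv S K a ((C : K) * u), h,
      ((orth_commute S K ob (1 : K) u).eq), mul_inv_cancel_right]
  · rw [hX, ee_long' hq hK hs, hA]
    exact (orth_commute S K oa _ _).eq.symm
  · rw [hX, ee_long' hq hK hs, hB]
    exact (orth_commute S K ob _ _).eq.symm

/-- Lifts of a long layer commute modulo the complement below. -/
theorem long_comm_mod {k : ℕ} (hk : k < 24) (hs : isShort k = false) {M' : Subgroup Γ}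
    (hM' : Compl π (tw hq hK).B1 (NN hq hK (k + 1)) M') (a b : Γ)
    (ha : π a ∈ NN hq hK k) (hb : π b ∈ NN hq hK k) : ⁅a, b⁆ ∈ M' := by
  have hB : ∀ {n : ℕ}, NN hq hK n ≤ (tw hq hK).B1 := fun {n} => NN_le_B1 hq hK n
  have hzero : ∀ n g : Γ, π n ∈ NN hq hK (k + 1) → π g ∈ NN hq hK k → ⁅n, g⁆ ∈ M' := by
    intro n g hn hg
    obtain ⟨z, hz, m, hm, hz1, rfl⟩ := hM'.split hc hn
    rw [comm_congr hc (g' := m) (a' := g) (by rw [map_mul, hz1, one_mul]) rfl,
      show ⁅m, g⁆ = m * (g * m⁻¹ * g⁻¹) by simp only [commutatorElement_def]; group]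
    exact mul_mem hm (hM'.conj g (hB hg) _ (inv_mem hm))
  obtain ⟨t, ht, hat⟩ := exists_coord hq hK hk ha
  obtain ⟨u, hu, hbu⟩ := exists_coord hq hK hk hb
  obtain ⟨X, hX⟩ : ee hq hK k t ∈ π.range := hrange ▸ ee_mem_G hq hK hk ht
  obtain ⟨Y, hY⟩ : ee hq hK k u ∈ π.range := hrange ▸ ee_mem_G hq hK hk hu
  have hn1 : π (X⁻¹ * a) ∈ NN hq hK (k + 1) := by rwa [map_mul, map_inv, hX]
  have hn2 : π (Y⁻¹ * b) ∈ NN hq hK (k + 1) := by rwa [map_mul, map_inv, hY]
  have hXY : ⁅X, Y⁆ = 1 := commutatorElement_eq_one_iff_mul_comm.2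
    (long_commute hq hK hrange hc hk hs hu hX hY)
  have hconj : ∀ g m, π g ∈ NN hq hK k → m ∈ M' → g * m * g⁻¹ ∈ M' := fun g m hg hm =>
    hM'.conj g (hB hg) m hm
  have hXN : π X ∈ NN hq hK k := hX ▸ ee_mem_NN hq hK hk ht
  have hYN : π Y ∈ NN hq hK k := hY ▸ ee_mem_NN hq hK hk hu
  have h1 : ⁅X⁻¹ * a, b⁆ ∈ M' := hzero _ _ hn1 hb
  have h2 : ⁅Y⁻¹ * b, X⁆ ∈ M' := hzero _ _ hn2 hXN
  have e : ⁅a, b⁆ = X * ⁅X⁻¹ * a, b⁆ * X⁻¹ * (⁅X, Y⁆ * (Y * ⁅Y⁻¹ * b, X⁆⁻¹ * Y⁻¹)) := by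
    simp only [commutatorElement_def]; group
  rw [e, hXY, one_mul]
  exact mul_mem (hconj X _ hXN h1) (hconj Y _ hYN (inv_mem h2))

variable [Finite Γ]

/-- The invariant complement over the unipotent subgroup, for `q ≥ 3`. -/
theorem exists_compl (hq3 : 3 ≤ q) : ∀ n, n ≤ 24 →
    ∃ M, Compl π (tw hq hK).B1 (NN hq hK n) M := by
  set E := tw hq hK with hE
  have hB1 : E.B1 ≤ π.range := by rw [hrange]; exact E.B1_le.trans inf_le_right
  have hUB : chevE6.posUnipotent K ⊓ E.G ≤ E.B1 := E.U_le_B1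
  have hTB : E.T ≤ E.B1 := E.T_le_B1
  have hNU : ∀ n, NN hq hK n ≤ chevE6.posUnipotent K ⊓ E.G := fun n =>
    inf_le_inf_right _ (uSub_le_posUnipotent K _)
  have hTT : ∀ a ∈ E.T, ∀ b ∈ E.T, a * b = b * a := by
    rintro _ ⟨c, -, rfl⟩ _ ⟨d, -, rfl⟩
    rw [← map_mul, ← map_mul, mul_comm]
  intro n hn
  induction h : 24 - n generalizing n with
  | zero =>
    obtain rfl : n = 24 := by omega
    rw [NN_top]
    exact ⟨⊥, compl_bot _⟩
  | succ m ih =>
    obtain ⟨M', hM'⟩ := ih (n + 1) (by omega) (by omega)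
    obtain ⟨k, rfl⟩ : ∃ k : ℕ, k = n := ⟨n, rfl⟩
    have hk : k < 24 := by omega
    have hnorm : ∀ j : ℕ, j < 25 → ∀ g ∈ E.B1, ∀ u ∈ NN hq hK j, g * u * g⁻¹ ∈ NN hq hK j :=
      fun j hj g hg u hu => NN_conj hq hK hj hg hu
    have hNB : NN hq hK k ≤ E.B1 := (hNU _).trans hUB
    have hab : ∀ a b : Γ, π a ∈ NN hq hK k → π b ∈ NN hq hK k → ⁅a, b⁆ ∈ M' := by
      cases hs : isShort k with
      | false => exact long_comm_mod hq hK hrange hc hk hs hM'
      | true =>
        have hd : ∀ x : K, Dom hq hK k x := fun x h' => absurd (hs.symm.trans h') (by simp)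
        refine comm_of_scalar hc hM' (NN_le hq hK hk) hNB hTB hB1 (hnorm _ (by omega)) (ee hq hK k)
          (fun x => ee_mem_NN hq hK hk (hd x)) (fun x y => ?_) (fun u hu => ?_) (fun v hv => ?_)
          (exists_good_scalar hq hK hq3)
        · rw [← ee_add hq hK hk, inv_mul_cancel]; exact one_mem _
        · obtain ⟨t, -, ht⟩ := exists_coord hq hK hk hu
          exact ⟨t, ht⟩
        · obtain ⟨c, hc', hcv⟩ := exists_scalar hq hK hk hs (Units.mk0 v hv)
          refine ⟨tor chevE6 K c, ⟨c, hc', rfl⟩, fun x => ?_⟩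
          rw [tor_conj_ee hq hK hc' hk, hcv, Units.val_mk0, inv_mul_cancel]
          exact one_mem _
    obtain ⟨c₀, hc₀, hne₀⟩ := exists_fpf hq hK hq3 hk
    let Y : Set (GL chevE6.Idx K) :=
      {x | ∃ j, j < k ∧ ∃ t, Dom hq hK j t ∧ x = ee hq hK j t}
    have hYB : Y ⊆ E.B1 := by
      rintro _ ⟨j, hj, t, ht, rfl⟩
      exact hUB (hNU _ (ee_mem_NN hq hK (show j < 24 by omega) ht))
    have hgen : E.B1 ≤ Subgroup.closure ((E.T : Set (GL chevE6.Idx K)) ∪ NN hq hK k ∪ Y) := by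
      refine sup_le ?_ fun x hx => Subgroup.subset_closure (Or.inl (Or.inl hx))
      rw [← NN_zero]
      refine (NN_gen hq hK 0 (by omega)).trans ((Subgroup.closure_le _).2 ?_)
      rintro _ ⟨j, hj, -, t, ht, rfl⟩
      by_cases hjk : j < k
      · exact Subgroup.subset_closure (Or.inr ⟨j, hjk, t, ht, rfl⟩)
      · have hle : ∀ d, k + d < 24 → NN hq hK (k + d) ≤ NN hq hK k := by
          intro d
          induction d with
          | zero => exact fun _ => le_rfl
          | succ d ihd => exact fun hd => (NN_le hq hK (k := k + d) (by omega)).trans (ihd (by omega))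
        refine Subgroup.subset_closure (Or.inl (Or.inr ?_))
        obtain ⟨d, rfl⟩ := Nat.exists_eq_add_of_le (not_lt.mp hjk)
        exact hle d hj (ee_mem_NN hq hK hj ht)
    obtain ⟨M, hM, -⟩ := exists_compl_step hc hM' (U := chevE6.posUnipotent K ⊓ E.G) (T := E.T)
      (NN_le hq hK hk) hNB hTB hUB (hnorm _ (by omega)) (hnorm _ (by omega)) hB1 hTT hab
      (t₀ := tor chevE6 K c₀) ⟨c₀, hc₀, rfl⟩ (fpf_of_ne hq hK hk hc₀ hne₀) hYB hgen (by
        rintro _ ⟨j, hjk, t, ht, rfl⟩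
        have hj : j < 24 := by omega
        obtain ⟨c, hc', ⟨h1, h2⟩ | ⟨h2, h1⟩⟩ := exists_separating hq hK hq3 hk hjk
        · refine Or.inl ⟨_, ⟨c, hc', rfl⟩, ?_,
            fpf_of_ne hq hK hk hc' (fun e => h2 (Units.ext e))⟩
          have h3 := tor_conj_ee hq hK hc' hj t
          rw [h1, Units.val_one, one_mul, mul_inv_eq_iff_eq_mul] at h3
          exact h3
        · set χ := (torusVal chevE6 c (rep j) : K) with hχ
          have hχ1 : χ - 1 ≠ 0 := sub_ne_zero.2 fun e => h1 (Units.ext e)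
          refine Or.inr ⟨_, ⟨c, hc', rfl⟩, ee hq hK j (t / (χ - 1)),
            hNU _ (ee_mem_NN hq hK hj ?_), fixesLayer_of_eq hq hK hk hc' h2, ?_⟩
          · intro hlong
            have hχq : phi hq hK χ = χ :=
              (Folded.torusVal_fix_val graphE6 (phi hq hK) hc' (rep_pos hj).1).symm.trans
                (congrArg (fun r => (torusVal chevE6 c r : K)) (twist_long hj hlong).1)
            rw [map_div₀, map_sub, map_one, hχq, ht hlong]
          · rw [tor_conj_ee hq hK hc' hj, ← hχ, ee_inv hq hK hj, ee_add hq hK hj]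
            congr 1
            field_simp
            ring)
    exact ⟨M, hM⟩

omit hrange hc

omit [Finite Γ] in
/-- The index of the Borel subgroup is prime to `p`. -/
theorem not_dvd_index {p : ℕ} [CharP K p] (hp : p.Prime) :
    ¬ p ∣ ((tw hq hK).B1.subgroupOf (tw hq hK).G).index := by
  intro hd
  have hBG : (tw hq hK).B1 ≤ (tw hq hK).G := (tw hq hK).B1_le.trans inf_le_right
  have hmul := Subgroup.card_mul_index ((tw hq hK).B1.subgroupOf (tw hq hK).G)
  rw [Nat.card_congr (Subgroup.subgroupOfEquivOfLe hBG).toEquiv, Tw.card_B1, card_U hq hK] at hmul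
  set i := ((tw hq hK).B1.subgroupOf (tw hq hK).G).index
  have h := congrArg (fun x => Nat.gcd 3 (q + 1) * x) hmul
  beta_reduce at h
  rw [card_group hq hK, mul_assoc (q ^ 36) _ i, mul_left_comm (Nat.gcd 3 (q + 1)), ← mul_assoc _ _ i,
    card_T hq hK] at h
  simp only [mul_assoc (q ^ 36)] at h
  have h' := Nat.eq_of_mul_eq_mul_left (pow_pos hq.pos 36) h
  have hp' : p ∣ (q ^ 2 - 1) * (q ^ 5 + 1) * (q ^ 6 - 1) * (q ^ 8 - 1) * (q ^ 9 + 1) *
      (q ^ 12 - 1) := by
    have h'' := dvd_mul_of_dvd_right hd ((q - 1) ^ 4 * (q + 1) ^ 2)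
    rw [h'] at h''
    simpa only [mul_assoc] using h''
  haveI := Fact.mk hp
  rw [← CharP.cast_eq_zero_iff (ZMod p) p] at hp'
  obtain ⟨n, hn⟩ : ∃ n, q = p ^ n := by
    obtain ⟨p', hp', hc', n, e⟩ := exists_char_pow hq two_ne_zero hK
    exact ⟨n, by rw [e, CharP.eq K hc' ‹CharP K p›]⟩
  have hn0 : n ≠ 0 := fun h0 => hq.ne_one (by rw [hn, h0, pow_zero])
  have hq0 : (q : ZMod p) = 0 := by
    rw [hn, Nat.cast_pow, ZMod.natCast_self, zero_pow hn0]
  simp only [Nat.cast_mul, Nat.cast_add, Nat.cast_pow, Nat.cast_one,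
    Nat.cast_sub (Nat.one_le_pow _ _ hq.pos), hq0] at hp'
  simp at hp'

omit [Finite Γ] in
/-- At the characteristic a stem kernel is trivial. -/
theorem noMult_defining {p : ℕ} [CharP K p] (hp : p.Prime) (hq3 : 3 ≤ q) :
    NoMult p ↥(tw hq hK).G := by
  intro Δ _ _ σ hs hcσ hA
  let θ : Δ →* GL chevE6.Idx K := (tw hq hK).G.subtype.comp σ
  have hk : θ.ker = σ.ker := MonoidHom.ker_comp_of_injective σ _ (Subgroup.subtype_injective _)
  have hrθ : θ.range = (tw hq hK).G := by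
    rw [MonoidHom.range_comp, MonoidHom.range_eq_top.2 hs, ← MonoidHom.range_eq_map,
      Subgroup.range_subtype]
  refine ker_inf_commutator_of_index hp hs hcσ hA ((tw hq hK).B1.subgroupOf (tw hq hK).G)
    (not_dvd_index hq hK hp) ?_
  rw [Subgroup.subgroupOf, Subgroup.comap_comap, ← hk]
  obtain ⟨M, hM⟩ := exists_compl hq hK hrθ (hk ▸ hcσ) hq3 0 (by norm_num)
  rw [NN_zero] at hM
  refine ker_inf_commutator_of_compl (hk ▸ hcσ) (hk ▸ hA) hM
    (by rw [hrθ]; exact (tw hq hK).B1_le.trans inf_le_right)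
    (tw hq hK).U_le_B1 (tw hq hK).T_le_B1 (fun g hg => (tw hq hK).mem_B1.mp hg) ?_ ?_
  · rintro _ ⟨c, -, rfl⟩ _ ⟨d, -, rfl⟩
    rw [← map_mul, ← map_mul, mul_comm]
  · rintro _ ⟨c, -, rfl⟩
    refine ⟨q ^ 2 - 1, ?_, ?_⟩
    · obtain ⟨n, hn⟩ : ∃ n, q = p ^ n := by
        obtain ⟨p', hp', hc', n, e⟩ := exists_char_pow hq two_ne_zero hK
        exact ⟨n, by rw [e, CharP.eq K hc' ‹CharP K p›]⟩
      have h1 : 1 ≤ q ^ 2 := Nat.one_le_pow _ _ hq.pos
      have hn0 : n ≠ 0 := fun h0 => hq.ne_one (by rw [hn, h0, pow_zero])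
      refine (hp.coprime_iff_not_dvd).2 fun hd => hp.not_dvd_one ?_
      have h2 : p ∣ q ^ 2 := dvd_pow (hn ▸ dvd_pow_self p hn0) two_ne_zero
      exact (Nat.dvd_add_right hd).1 (by rwa [Nat.sub_add_cancel h1])
    · rw [← map_pow]
      have hc1 : c ^ (q ^ 2 - 1) = 1 := funext fun j => by
        rw [Pi.pow_apply, Pi.one_apply]
        refine Units.ext ?_
        rw [Units.val_pow_eq_pow_val, Units.val_one, ← hK]
        exact FiniteField.pow_card_sub_one_eq_one _ (c j).ne_zero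
      rw [hc1, map_one]

end CfsgLib.SchurTwisted.E6
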