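import Cfsg.Agent.SchurTwisted.E6Cross
import Cfsg.Agent.SchurTwisted.E6Cover
import Cfsg.Agent.SchurTwisted.E6Defining

/-!
The multiplier of `²E₆(q)`, `q ≥ 3`, is cyclic of order `gcd(3, q + 1)`.
-/

set_option autoImplicit false

namespace CfsgLib.SchurTwisted

open CfsgLib.SchurClassical
open Subgroup

universe u

/-- A stem kernel has order dividing `d` if each of its primary parts does. -/
theorem card_stem_ker_dvd {G : Type u} [Group G] {d : ℕ}
    (h : ∀ r, r.Prime → ∀ (Δ : Type u) [Group Δ] [Finite Δ] (τ : Δ →* G), Function.Surjective τ →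
      τ.ker ≤ center Δ → IsPGroup r τ.ker → Nat.card ↥(τ.ker ⊓ commutator Δ) ∣ d)
    {Γ : Type u} [Group Γ] [Finite Γ] {σ : Γ →* G} (hσ : Cfsg.IsStemExtension σ) :
    Nat.card σ.ker ∣ d := by
  obtain ⟨hs, hc, hd⟩ := hσ
  rw [Nat.dvd_iff_prime_pow_dvd_dvd]
  intro r k hr hrk
  haveI := Fact.mk hr
  -- the part of the kernel prime to `r`
  let N : Subgroup Γ :=
    { carrier := {a | a ∈ σ.ker ∧ ¬ r ∣ orderOf a}
      one_mem' := ⟨one_mem _, by rw [orderOf_one]; exact hr.not_dvd_one⟩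
      mul_mem' := fun {a b} ha hb => ⟨mul_mem ha.1 hb.1, fun hdvd => by
        have hcom : Commute a b := (mem_center_iff.1 (hc ha.1) b).symm
        rcases hr.dvd_mul.1 (hdvd.trans hcom.orderOf_mul_dvd_mul_orderOf) with e | e
        exacts [ha.2 e, hb.2 e]⟩
      inv_mem' := fun {a} ha => ⟨inv_mem ha.1, by rw [orderOf_inv]; exact ha.2⟩ }
  have hNr : ¬ r ∣ Nat.card N := fun hdvd => by
    obtain ⟨x, hx⟩ := exists_prime_orderOf_dvd_card' r hdvd
    exact x.2.2 (by rw [Subgroup.orderOf_coe, hx])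
  haveI : N.Normal := ⟨fun a ha g => by rwa [mem_center_iff.1 (hc ha.1) g, mul_inv_cancel_right]⟩
  have hker : N ≤ σ.ker := fun a ha => ha.1
  let τ : Γ ⧸ N →* G := QuotientGroup.lift N σ hker
  have hτs : Function.Surjective τ := fun g => by
    obtain ⟨x, rfl⟩ := hs g; exact ⟨x, rfl⟩
  have hτk : τ.ker = σ.ker.map (QuotientGroup.mk' N) := by
    ext x
    obtain ⟨x, rfl⟩ := QuotientGroup.mk_surjective x
    refine ⟨fun hx => ⟨x, hx, rfl⟩, ?_⟩
    rintro ⟨y, hy, e⟩
    rw [← e]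
    exact hy
  have hτc : τ.ker ≤ center (Γ ⧸ N) := by
    rw [hτk]
    rintro _ ⟨x, hx, rfl⟩
    refine mem_center_iff.2 fun y => ?_
    obtain ⟨y, rfl⟩ := QuotientGroup.mk_surjective y
    exact congrArg (QuotientGroup.mk (s := N)) (mem_center_iff.1 (hc hx) y)
  have hτp : IsPGroup r τ.ker := by
    rintro ⟨x, hx⟩
    rw [hτk] at hx
    obtain ⟨x, hx, rfl⟩ := hx
    refine ⟨(orderOf x).factorization r, Subtype.ext ?_⟩
    have hm : x ^ r ^ (orderOf x).factorization r ∈ N := by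
      refine ⟨pow_mem hx _, ?_⟩
      rw [orderOf_pow_of_dvd (pow_ne_zero _ hr.ne_zero) (Nat.ordProj_dvd _ _)]
      exact Nat.not_dvd_ordCompl hr (orderOf_pos x).ne'
    show (x : Γ ⧸ N) ^ r ^ _ = 1
    rw [← QuotientGroup.mk_pow, QuotientGroup.eq_one_iff]
    exact hm
  have hτd : τ.ker ≤ commutator (Γ ⧸ N) := by
    rw [hτk]
    refine (Subgroup.map_mono hd).trans ?_
    rw [_root_.commutator_def, Subgroup.map_commutator]
    exact Subgroup.commutator_mono le_top le_top
  have h1 := h r hr _ τ hτs hτc hτp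
  rw [inf_eq_left.2 hτd] at h1
  refine Dvd.dvd.trans ?_ h1
  have hcard : Nat.card σ.ker = Nat.card τ.ker * Nat.card N := by
    rw [card_eq_card_quotient_mul_card_subgroup (N.subgroupOf σ.ker),
      Nat.card_congr (subgroupOfEquivOfLe hker).toEquiv]
    congr 1
    let f : σ.ker →* Γ ⧸ N := (QuotientGroup.mk' N).comp σ.ker.subtype
    have hk : f.ker = N.subgroupOf σ.ker := by
      ext x
      rw [MonoidHom.mem_ker, mem_subgroupOf]
      exact QuotientGroup.eq_one_iff _
    rw [← hk, Nat.card_congr (QuotientGroup.quotientKerEquivRange f).toEquiv,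
      MonoidHom.range_comp, range_subtype, hτk]
  rw [hcard] at hrk
  exact ((hr.coprime_iff_not_dvd.2 hNr).pow_left k).dvd_of_dvd_mul_right hrk

namespace E6

open Cfsg.Lie CfsgLib.Chevalley CfsgLib.TwistedLie CfsgLib.TwistedLie.E6

variable {K : Type u} [Field K] [Fintype K] {q : ℕ} (hq : IsPrimePow q) (hK : Fintype.card K = q ^ 2)

include hq hK

/-- The multiplier of `²E₆(q)`. -/
theorem hasCyclicSchurMultiplier_twistedE6 (h2 : q ≠ 2) :
    Cfsg.HasCyclicSchurMultiplier ↥(twistedE6 K q) (Nat.gcd 3 (q + 1)) := by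
  obtain ⟨p, hp, hcp, -⟩ := exists_char_pow hq two_ne_zero hK
  haveI := hcp
  have hq3 : 3 ≤ q := by have := hq.two_le; omega
  show Cfsg.HasCyclicSchurMultiplier ↥(tw hq hK).G _
  have hpart : ∀ r, r.Prime → ∀ (Δ : Type u) [Group Δ] [Finite Δ] (τ : Δ →* ↥(tw hq hK).G),
      Function.Surjective τ → τ.ker ≤ center Δ → IsPGroup r τ.ker →
      Nat.card ↥(τ.ker ⊓ commutator Δ) ∣ Nat.gcd 3 (q + 1) := by
    intro r hr Δ _ _ τ hs hc hA
    by_cases hrp : r = p
    · subst hrp
      rw [noMult_defining hq hK hp hq3 Δ τ hs hc hA, Subgroup.card_bot]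
      exact one_dvd _
    · exact card_cross hq hK hp hr hrp hs hc hA
  refine ⟨?_, fun Γ _ _ σ hσ => ?_⟩
  · rcases (Nat.dvd_prime Nat.prime_three).1 (Nat.gcd_dvd_left 3 (q + 1)) with e | e
    · rw [e]
      haveI : Finite ↥(tw hq hK).G := inferInstance
      refine ⟨↥(tw hq hK).G, inferInstance, inferInstance, MonoidHom.id _,
        ⟨fun x => ⟨x, rfl⟩, ?_, ?_⟩, ⟨?_⟩⟩
      · intro x hx; rw [show x = 1 from hx]; exact one_mem _
      · intro x hx; rw [show x = 1 from hx]; exact one_mem _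
      · haveI : Subsingleton (MonoidHom.id ↥(tw hq hK).G).ker :=
          ⟨fun a b => Subtype.ext ((show (a : ↥(tw hq hK).G) = 1 from a.2).trans
            (show (b : ↥(tw hq hK).G) = 1 from b.2).symm)⟩
        haveI : IsCyclic (MonoidHom.id ↥(tw hq hK).G).ker := isCyclic_of_subsingleton
        exact mulEquivOfCyclicCardEq (by
          rw [Nat.card_congr Multiplicative.toAdd, Nat.card_zmod, Nat.card_unique])
    · rw [e]
      exact exists_cover hq hK (e ▸ Nat.gcd_dvd_right 3 (q + 1))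
  · have hd := card_stem_ker_dvd hpart hσ
    rcases (Nat.dvd_prime Nat.prime_three).1 (hd.trans (Nat.gcd_dvd_left 3 (q + 1))) with e | e
    · haveI : Subsingleton σ.ker := (Nat.card_eq_one_iff_unique.1 e).1
      exact ⟨1, fun z => ⟨1, Subsingleton.elim _ _⟩⟩
    · have e3 : Nat.gcd 3 (q + 1) = 3 := Nat.dvd_antisymm (Nat.gcd_dvd_left _ _) (e ▸ hd)
      haveI : Fact (Nat.Prime 3) := ⟨Nat.prime_three⟩
      haveI : IsCyclic σ.ker := isCyclic_of_prime_card e
      let f : Multiplicative (ZMod (Nat.gcd 3 (q + 1))) ≃* σ.ker := mulEquivOfCyclicCardEq (by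
        rw [Nat.card_congr Multiplicative.toAdd, Nat.card_zmod, e3, e])
      exact ⟨f.toMonoidHom, f.surjective⟩

end E6

end CfsgLib.SchurTwisted
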