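import Cfsg.Agent.TwistedLie.Bruhat
import Cfsg.Agent.Schur.CentralCommutator

/-!
Lifting the Bruhat decomposition of a twisted group through a central extension: if the unipotent
subgroup, the torus and the reflections have compatible lifts, these generate a complement of
the kernel.
-/

set_option autoImplicit false

namespace CfsgLib.SchurTwisted

open Cfsg.Lie CfsgLib.Chevalley CfsgLib.TwistedLie
open scoped commutatorElement

variable {D : ChevalleyDatum} {S : Sys D} {F : Type*} [Field F] {ι : Type} (E : Tw S F ι)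
  {Γ : Type*} [Group Γ]

/-- Compatible lifts of the pieces of the Bruhat decomposition. -/
structure Lifts (π : Γ →* GL D.Idx F) where
  M : Subgroup Γ
  Th : Subgroup Γ
  n : ι → Γ
  M_map : M.map π = D.posUnipotent F ⊓ E.G
  M_inj : π.ker ⊓ M = ⊥
  M_conj : ∀ g, ∀ m ∈ M, π (g * m * g⁻¹) ∈ D.posUnipotent F ⊓ E.G → g * m * g⁻¹ ∈ M
  Th_map : Th.map π = E.T
  π_n : ∀ i, π (n i) = (S.wN F (E.blk i) : GL D.Idx F)
  n_sq : ∀ i, n i * n i ∈ Th
  n_conj : ∀ i, ∀ t ∈ Th, n i * t * (n i)⁻¹ ∈ Th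
  rel : ∀ L : List ι, E.wW L = 1 → (L.map n).prod ∈ Th
  rank_one : ∀ i, ∀ m ∈ M, π m ∈ E.X i → m ≠ 1 → ∃ m' ∈ M, ∃ t ∈ Th, ∃ m'' ∈ M,
    π m'' ∈ E.X i ∧ n i * m * (n i)⁻¹ = m' * n i * t * m''

namespace Lifts

variable {E} {π : Γ →* GL D.Idx F} (P : Lifts E π)

/-- The lift of a word. -/
def nh (L : List ι) : Γ := (L.map P.n).prod

theorem nh_cons (i : ι) (L : List ι) : P.nh (i :: L) = P.n i * P.nh L := rfl

theorem nh_append (A B : List ι) : P.nh (A ++ B) = P.nh A * P.nh B := by simp [nh]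

theorem π_nh (L : List ι) : π (P.nh L) = (E.nW L : GL D.Idx F) := by
  induction L with
  | nil => simp [nh, Tw.nW_nil]
  | cons i L ih => rw [nh_cons, map_mul, ih, P.π_n, E.nW_cons, Subgroup.coe_mul]

theorem nh_mem_Th {L : List ι} (h : E.wW L = 1) : P.nh L ∈ P.Th := P.rel L h

theorem π_mem_U {m : Γ} (hm : m ∈ P.M) : π m ∈ D.posUnipotent F ⊓ E.G :=
  P.M_map ▸ Subgroup.mem_map_of_mem π hm

theorem π_mem_T {t : Γ} (ht : t ∈ P.Th) : π t ∈ E.T := P.Th_map ▸ Subgroup.mem_map_of_mem π ht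

theorem exists_M {u : GL D.Idx F} (hu : u ∈ D.posUnipotent F ⊓ E.G) : ∃ m ∈ P.M, π m = u := by
  rw [← P.M_map] at hu
  exact hu

theorem M_eq {a b : Γ} (ha : a ∈ P.M) (hb : b ∈ P.M) (e : π a = π b) : a = b :=
  mul_inv_eq_one.1 (Subgroup.mem_bot.1 (P.M_inj.le ⟨by
    show π (a * b⁻¹) = 1
    rw [map_mul, map_inv, e, mul_inv_cancel], P.M.mul_mem ha (P.M.inv_mem hb)⟩))

theorem Th_conj_M {t m : Γ} (ht : t ∈ P.Th) (hm : m ∈ P.M) : t * m * t⁻¹ ∈ P.M := by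
  refine P.M_conj t m hm ?_
  rw [map_mul, map_mul, map_inv]
  exact (Subgroup.mem_normalizer_iff.mp (E.T_normalizes (P.π_mem_T ht)) _).mp (P.π_mem_U hm)

theorem n_conj_inv (i : ι) {t : Γ} (ht : t ∈ P.Th) : (P.n i)⁻¹ * t * P.n i ∈ P.Th := by
  have h1 := mul_mem (mul_mem (inv_mem (P.n_sq i)) (P.n_conj i t ht)) (P.n_sq i)
  have e : (P.n i * P.n i)⁻¹ * (P.n i * t * (P.n i)⁻¹) * (P.n i * P.n i) =
      (P.n i)⁻¹ * t * P.n i := by group
  rwa [e] at h1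

theorem nh_conj_inv : ∀ (L : List ι) {t : Γ}, t ∈ P.Th → (P.nh L)⁻¹ * t * P.nh L ∈ P.Th
  | [], t, ht => by simpa [nh] using ht
  | i :: L, t, ht => by
    have := nh_conj_inv L (P.n_conj_inv i ht)
    rw [nh_cons]
    simpa [mul_assoc] using this

/-- The elements with a lifted Bruhat form. -/
def Form (g : Γ) : Prop :=
  ∃ a ∈ P.M, ∃ L : List ι, ∃ t ∈ P.Th, ∃ b ∈ P.M, g = a * P.nh L * t * b

theorem form_mul_M {m g : Γ} (hm : m ∈ P.M) (hg : P.Form g) : P.Form (m * g) := by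
  obtain ⟨a, ha, L, t, ht, b, hb, rfl⟩ := hg
  exact ⟨m * a, mul_mem hm ha, L, t, ht, b, hb, by simp only [mul_assoc]⟩

theorem form_mul_Th {s g : Γ} (hs : s ∈ P.Th) (hg : P.Form g) : P.Form (s * g) := by
  obtain ⟨a, ha, L, t, ht, b, hb, rfl⟩ := hg
  refine ⟨s * a * s⁻¹, P.Th_conj_M hs ha, L, (P.nh L)⁻¹ * s * P.nh L * t,
    mul_mem (P.nh_conj_inv L hs) ht, b, hb, ?_⟩
  group

theorem form_n_mul (i : ι) {g : Γ} (hg : P.Form g) : P.Form (P.n i * g) := by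
  obtain ⟨m₀, hm₀, L, t, ht, b, hb, rfl⟩ := hg
  obtain ⟨a, ha, x, hx, e, han⟩ := E.U_split i (P.π_mem_U hm₀)
  obtain ⟨m₁, hm₁, rfl⟩ := P.exists_M ha
  obtain ⟨y, hy, rfl⟩ := P.exists_M (E.X_le_U i hx)
  obtain rfl : m₀ = m₁ * y := P.M_eq hm₀ (mul_mem hm₁ hy) (by rw [map_mul, e])
  set m := P.n i with hm
  set n := P.nh L with hn
  have hm₁' : m * m₁ * m⁻¹ ∈ P.M := P.M_conj m m₁ hm₁ (by
    rw [map_mul, map_mul, map_inv, hm, P.π_n]
    exact han)
  obtain ⟨t₀, ht₀, hrev⟩ : ∃ t₀ ∈ P.Th, P.nh L.reverse = n⁻¹ * t₀ := by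
    refine ⟨n * P.nh L.reverse, ?_, by rw [inv_mul_cancel_left]⟩
    rw [hn, ← P.nh_append]
    exact P.nh_mem_Th (by rw [E.wW_append, E.wW_reverse, mul_inv_cancel])
  obtain ⟨a₀, ha₀⟩ := List.exists_mem_of_ne_nil _ (E.blk_ne i)
  by_cases hpos : D.nroots / 2 ≤ (E.wW L.reverse (S.simpleF a₀) : ℕ)
  · have h1 := E.conj_X_of_pos (L := L.reverse) (fun c hc => E.blk_sign L.reverse ha₀ hc hpos) hx
    rw [← P.π_nh, ← map_inv, ← map_mul, ← map_mul] at h1
    have h2 := P.M_conj _ y hy h1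
    rw [hrev] at h2
    have hs : n⁻¹ * t₀ * n ∈ P.Th := P.nh_conj_inv L ht₀
    have h3 := P.Th_conj_M (inv_mem hs) h2
    have h4 : n⁻¹ * y * n ∈ P.M := by
      have e4 : (n⁻¹ * t₀ * n)⁻¹ * (n⁻¹ * t₀ * y * (n⁻¹ * t₀)⁻¹) * (n⁻¹ * t₀ * n)⁻¹⁻¹ =
          n⁻¹ * y * n := by group
      rwa [e4] at h3
    refine ⟨m * m₁ * m⁻¹, hm₁', i :: L, t, ht, t⁻¹ * (n⁻¹ * y * n) * t * b, mul_mem ?_ hb, ?_⟩
    · simpa using P.Th_conj_M (inv_mem ht) h4
    · rw [P.nh_cons, ← hm, ← hn]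
      group
  · by_cases h1 : y = 1
    · refine ⟨m * m₁ * m⁻¹, hm₁', i :: L, t, ht, b, hb, ?_⟩
      rw [P.nh_cons, ← hm, ← hn, h1]
      group
    obtain ⟨m', hm', t₁, ht₁, y'', hy'', hy''X, e1⟩ := P.rank_one i y hy hx h1
    rw [← hm] at e1
    have hpos' : ∀ c ∈ E.blk i, D.nroots / 2 ≤ (E.wW (i :: L).reverse (S.simpleF c) : ℕ) := by
      intro c hc
      obtain ⟨c', hc', e'⟩ := E.blk_image i c hc
      have hneg : (E.wW L.reverse (S.simpleF c') : ℕ) < D.nroots / 2 := by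
        by_contra h2
        exact hpos (E.blk_sign L.reverse hc' ha₀ (not_lt.mp h2))
      rw [List.reverse_cons, E.wW_append, E.wW_single, Equiv.Perm.mul_apply, e', Tw.wW,
        S.wperm_negF]
      exact S.root_lt_pos (Fin.isLt _) hneg
    have h2 := E.conj_X_of_pos hpos' hy''X
    rw [← P.π_nh, ← map_inv, ← map_mul, ← map_mul] at h2
    have h3 := P.M_conj _ y'' hy'' h2
    have hrev' : P.nh (i :: L).reverse = n⁻¹ * t₀ * m := by
      rw [List.reverse_cons, P.nh_append, hrev]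
      simp [nh, hm]
    rw [hrev'] at h3
    -- the correction from `m` to `m⁻¹` and from `n⁻¹ t₀` to `n⁻¹`
    have hw : n⁻¹ * t₀ * n * ((m * n)⁻¹ * (m * m) * (m * n)) ∈ P.Th := by
      refine mul_mem (P.nh_conj_inv L ht₀) ?_
      have := P.nh_conj_inv L (P.n_conj_inv i (P.n_sq i))
      rw [← hm, ← hn] at this
      simpa [mul_assoc] using this
    have h4 := P.Th_conj_M (inv_mem hw) h3
    have h5 : (m * n)⁻¹ * y'' * (m * n) ∈ P.M := by
      have e5 : (n⁻¹ * t₀ * n * ((m * n)⁻¹ * (m * m) * (m * n)))⁻¹ *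
          (n⁻¹ * t₀ * m * y'' * (n⁻¹ * t₀ * m)⁻¹) *
          (n⁻¹ * t₀ * n * ((m * n)⁻¹ * (m * m) * (m * n)))⁻¹⁻¹ =
            (m * n)⁻¹ * y'' * (m * n) := by group
      rwa [e5] at h4
    have hT' : m * t₁ * m⁻¹ * (m * m) ∈ P.Th := mul_mem (P.n_conj i _ ht₁) (P.n_sq i)
    obtain ⟨c, hc, L', t', ht', b', hb', e6⟩ := P.form_mul_M (mul_mem hm₁' hm') (P.form_mul_Th hT'
      ⟨1, one_mem _, L, 1, one_mem _, (m * n)⁻¹ * y'' * (m * n), h5, rfl⟩)
    refine ⟨c, hc, L', t' * t, mul_mem ht' ht, t⁻¹ * b' * t * b,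
      mul_mem (by simpa using P.Th_conj_M (inv_mem ht) hb') hb, ?_⟩
    calc m * (m₁ * y * n * t * b)
        = (m * m₁ * m⁻¹) * (m * y * m⁻¹) * m * n * t * b := by group
      _ = m * m₁ * m⁻¹ * m' * (m * t₁ * m⁻¹ * (m * m) *
          (1 * n * 1 * ((m * n)⁻¹ * y'' * (m * n)))) * t * b := by rw [e1]; group
      _ = _ := by rw [e6]; group

/-- The subgroup generated by the lifts. -/
def H : Subgroup Γ :=
  Subgroup.closure ((P.M : Set Γ) ∪ (P.Th : Set Γ) ∪ Set.range P.n)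

theorem form_of_mem {g : Γ} (hg : g ∈ P.H) : P.Form g := by
  induction hg using Subgroup.closure_induction_left with
  | one => exact ⟨1, one_mem _, [], 1, one_mem _, 1, one_mem _, by simp [nh]⟩
  | mul_left a ha y hy ih =>
    rcases ha with (ha | ha) | ⟨i, rfl⟩
    · exact P.form_mul_M ha ih
    · exact P.form_mul_Th ha ih
    · exact P.form_n_mul i ih
  | inv_mul_cancel a ha y hy ih =>
    rcases ha with (ha | ha) | ⟨i, rfl⟩
    · exact P.form_mul_M (inv_mem ha) ih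
    · exact P.form_mul_Th (inv_mem ha) ih
    · have h := P.form_mul_Th (inv_mem (P.n_sq i)) (P.form_n_mul i ih)
      rwa [show (P.n i * P.n i)⁻¹ * (P.n i * y) = (P.n i)⁻¹ * y by group] at h

theorem ker_inf_H_le (hc : π.ker ≤ Subgroup.center Γ) : π.ker ⊓ P.H ≤ P.Th := by
  rintro z ⟨hz, hzH⟩
  obtain ⟨a, ha, L, t, ht, b, hb, rfl⟩ := P.form_of_mem hzH
  have hz' : π a * (E.nW L : GL D.Idx F) * π t * π b = 1 := by
    rw [← P.π_nh, ← map_mul, ← map_mul, ← map_mul]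
    exact hz
  have e : (E.nW L : GL D.Idx F) * π t = (π a)⁻¹ * (π b)⁻¹ := by
    rw [eq_inv_mul_iff_mul_eq, eq_inv_iff_mul_eq_one, ← mul_assoc, hz']
  have hu : (E.nW L : GL D.Idx F) * π t ∈ D.posUnipotent F ⊓ E.G :=
    e ▸ mul_mem (inv_mem (P.π_mem_U ha)) (inv_mem (P.π_mem_U hb))
  have hb' : (E.nW L : GL D.Idx F) ∈ D.borelSubgroup F := by
    have h1 : (E.nW L : GL D.Idx F) * π t ∈ D.borelSubgroup F :=
      Subgroup.mem_sup_left hu.1
    have h2 : π t ∈ D.borelSubgroup F := Subgroup.mem_sup_right (E.T_le (P.π_mem_T ht))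
    simpa using mul_mem h1 (inv_mem h2)
  have hd : (E.nW L : GL D.Idx F) ∈ D.diagonalSubgroup F := by
    rw [← S.borel_inf_monomial F]
    exact ⟨hb', SetLike.coe_mem _⟩
  have hw : E.wW L = 1 := by
    rw [← E.perm_nW]
    exact S.perm_of_mem_hSub F hd
  have hτ : P.nh L * t ∈ P.Th := mul_mem (P.nh_mem_Th hw) ht
  have hτ1 : π (P.nh L * t) = 1 := by
    have h3 : π (P.nh L * t) ∈ D.posUnipotent F ⊓ D.diagonalSubgroup F := by
      refine ⟨?_, E.T_le (P.π_mem_T hτ)⟩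
      rw [map_mul, P.π_nh]
      exact hu.1
    rwa [S.posUnipotent_inf_diagonal F, Subgroup.mem_bot] at h3
  rw [show a * P.nh L * t * b = a * (P.nh L * t) * b by group] at hz ⊢
  have hab : π (a * b) = 1 := by
    have h1 : π (a * (P.nh L * t) * b) = 1 := hz
    rwa [map_mul, map_mul, hτ1, mul_one, ← map_mul] at h1
  have hb1 : b = a⁻¹ := eq_inv_of_mul_eq_one_right
    (Subgroup.mem_bot.1 (P.M_inj.le ⟨hab, mul_mem ha hb⟩))
  rw [hb1]
  have hconj : a * (P.nh L * t) * a⁻¹ = P.nh L * t := by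
    exact (Subgroup.mem_center_iff.1 (hc (show P.nh L * t ∈ π.ker from hτ1)) a).symm ▸ mul_inv_cancel_right _ _
  rw [hconj]
  exact hτ

include P in
theorem map_H : E.G ≤ P.H.map π := by
  refine E.gens.trans ((Subgroup.closure_le _).2 ?_)
  rintro g ((⟨i, hi⟩ | hg) | ⟨i, rfl⟩)
  · obtain ⟨m, hm, rfl⟩ := P.exists_M (E.X_le_U i hi)
    exact ⟨m, Subgroup.subset_closure (Or.inl (Or.inl hm)), rfl⟩
  · rw [← P.Th_map] at hg
    obtain ⟨t, ht, rfl⟩ := hg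
    exact ⟨t, Subgroup.subset_closure (Or.inl (Or.inr ht)), rfl⟩
  · exact ⟨P.n i, Subgroup.subset_closure (Or.inr ⟨i, rfl⟩), P.π_n i⟩

include P in
/-- A central extension with such lifts has kernel meeting the derived group inside the lifted torus. -/
theorem ker_inf_commutator_le (hc : π.ker ≤ Subgroup.center Γ) (hr : π.range = E.G) :
    π.ker ⊓ commutator Γ ≤ π.ker ⊓ P.Th := by
  refine le_inf inf_le_left (le_trans (le_inf inf_le_left (inf_le_right.trans ?_)) (P.ker_inf_H_le hc))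
  rw [_root_.commutator_def, Subgroup.commutator_le]
  intro x _ y _
  have hd : ∀ g : Γ, ∃ h ∈ P.H, ∃ z ∈ Subgroup.center Γ, g = h * z := fun g => by
    obtain ⟨h, hh, e⟩ := P.map_H (show π g ∈ E.G from hr ▸ ⟨g, rfl⟩)
    exact ⟨h, hh, h⁻¹ * g, hc (by rw [MonoidHom.mem_ker, map_mul, map_inv, e, inv_mul_cancel]),
      by rw [mul_inv_cancel_left]⟩
  obtain ⟨h, hh, z, hz, rfl⟩ := hd x
  obtain ⟨h', hh', z', hz', rfl⟩ := hd y
  have e : ⁅h * z, h' * z'⁆ = h * h' * h⁻¹ * h'⁻¹ := by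
    have c1 : ∀ g, g * z = z * g := Subgroup.mem_center_iff.1 hz
    have c2 : ∀ g, g * z' = z' * g := Subgroup.mem_center_iff.1 hz'
    calc ⁅h * z, h' * z'⁆ = (h * (z * (h' * z')) * z⁻¹) * h⁻¹ * (z'⁻¹ * h'⁻¹) := by
          rw [commutatorElement_def]; group
      _ = h * h' * (z' * h⁻¹) * z'⁻¹ * h'⁻¹ := by rw [← c1]; group
      _ = _ := by rw [← c2]; group
  rw [e]
  exact mul_mem (mul_mem (mul_mem hh hh') (inv_mem hh)) (inv_mem hh')

include P in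
/-- A central extension with lifts having injective torus has kernel meeting the derived group trivially. -/
theorem ker_inf_commutator (hc : π.ker ≤ Subgroup.center Γ) (hr : π.range = E.G)
    (hT : π.ker ⊓ P.Th = ⊥) : π.ker ⊓ commutator Γ = ⊥ :=
  eq_bot_iff.2 ((P.ker_inf_commutator_le hc hr).trans hT.le)

end Lifts

end CfsgLib.SchurTwisted
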