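import Cfsg.Agent.Chevalley.SLTwoHom

/-!
Identities in `SL₂` used for lifting.
-/

set_option autoImplicit false

namespace CfsgLib.SchurTwisted

open CfsgLib.Chevalley CfsgLib.Chevalley.SL2Rel
open scoped MatrixGroups

variable {F : Type*} [Field F]

/-- A lower unipotent element. -/
def lower (t : F) : SL(2, F) := ⟨!![1, 0; t, 1], by simp [Matrix.det_fin_two]⟩

theorem lower_val (t : F) : (lower t : Matrix (Fin 2) (Fin 2) F) = !![1, 0; t, 1] := rfl

/-- The element `n(b)`. -/
def nEl (b : F) : SL(2, F) := upper b * lower (-b⁻¹) * upper b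

theorem nEl_eq (b : Fˣ) : nEl (b : F) = dia b * weyl := by
  apply Subtype.ext
  have hb := b.ne_zero
  simp only [nEl, Matrix.SpecialLinearGroup.coe_mul, upper_val, lower_val, dia_val, weyl_val]
  ext i j
  fin_cases i <;> fin_cases j <;> simp [Matrix.mul_apply, Fin.sum_univ_two, hb]

theorem dia_mul (a b : Fˣ) : dia (a * b) = dia a * dia b := by
  apply Subtype.ext
  simp only [Matrix.SpecialLinearGroup.coe_mul, dia_val]
  ext i j
  fin_cases i <;> fin_cases j <;> simp [Matrix.mul_apply, Fin.sum_univ_two, mul_comm]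

/-- The diagonal as a homomorphism. -/
def diaHom : Fˣ →* SL(2, F) := MonoidHom.mk' dia dia_mul

theorem dia_one : (dia 1 : SL(2, F)) = 1 := map_one (diaHom (F := F))

theorem dia_inv (a : Fˣ) : (dia a)⁻¹ = dia a⁻¹ := (map_inv (diaHom (F := F)) a).symm

theorem weyl_sq : (weyl : SL(2, F)) * weyl = dia (-1) := by
  apply Subtype.ext
  simp only [Matrix.SpecialLinearGroup.coe_mul, dia_val, weyl_val]
  ext i j
  fin_cases i <;> fin_cases j <;> simp [Matrix.mul_apply, Fin.sum_univ_two]

theorem weyl_dia (a : Fˣ) : (weyl : SL(2, F)) * dia a = dia a⁻¹ * weyl := by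
  apply Subtype.ext
  simp only [Matrix.SpecialLinearGroup.coe_mul, dia_val, weyl_val]
  ext i j
  fin_cases i <;> fin_cases j <;> simp [Matrix.mul_apply, Fin.sum_univ_two]

theorem upper_add (s t : F) : upper (s + t) = upper s * upper t := by
  apply Subtype.ext
  simp only [Matrix.SpecialLinearGroup.coe_mul, upper_val]
  ext i j
  fin_cases i <;> fin_cases j <;> simp [Matrix.mul_apply, Fin.sum_univ_two, add_comm]

theorem lower_eq (t : F) : lower t = weyl * upper (-t) * weyl⁻¹ := by
  rw [eq_mul_inv_iff_mul_eq]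
  apply Subtype.ext
  simp only [Matrix.SpecialLinearGroup.coe_mul, upper_val, lower_val, weyl_val]
  ext i j
  fin_cases i <;> fin_cases j <;> simp [Matrix.mul_apply, Fin.sum_univ_two]

theorem weyl_upper (t : Fˣ) : weyl * upper (t : F) * weyl⁻¹ =
    upper (-(t : F)⁻¹) * weyl * dia t * upper (-(t : F)⁻¹) := by
  rw [mul_inv_eq_iff_eq_mul]
  apply Subtype.ext
  have ht := t.ne_zero
  simp only [Matrix.SpecialLinearGroup.coe_mul, upper_val, dia_val, weyl_val]
  ext i j
  fin_cases i <;> fin_cases j <;> simp [Matrix.mul_apply, Fin.sum_univ_two, ht]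

theorem dia_upper (a : Fˣ) (t : F) : dia a * upper t = upper ((a : F) ^ 2 * t) * dia a := by
  apply Subtype.ext
  have ha := a.ne_zero
  simp only [Matrix.SpecialLinearGroup.coe_mul, upper_val, dia_val]
  ext i j
  fin_cases i <;> fin_cases j <;> simp [Matrix.mul_apply, Fin.sum_univ_two, sq, ha, mul_comm,
    mul_assoc, mul_left_comm]

/-- An element conjugating `upper 1` to a product of three unipotent elements. -/
theorem conj_upper_eq (g : SL(2, F)) (hc : g.1 1 0 ≠ 0) :
    g * upper 1 * g⁻¹ = upper (g.1 0 0 / g.1 1 0) * lower (-(g.1 1 0) ^ 2) *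
      upper (-(g.1 0 0) / g.1 1 0) := by
  rw [mul_inv_eq_iff_eq_mul]
  apply Subtype.ext
  simp only [Matrix.SpecialLinearGroup.coe_mul, upper_val, lower_val]
  have hd := SL2Rel.det_eq g
  ext i j
  fin_cases i <;> fin_cases j <;> simp [Matrix.mul_apply, Fin.sum_univ_two] <;> field_simp <;> grind

theorem eq_dia_mul_upper (g : SL(2, F)) (hc : g.1 1 0 = 0) :
    ∃ (a : Fˣ) (b : F), g = dia a * upper b := by
  have hdet := SL2Rel.det_eq g
  have ha : g.1 0 0 ≠ 0 := fun e => by simp [e, hc] at hdet
  rw [hc, mul_zero, sub_zero] at hdet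
  refine ⟨Units.mk0 _ ha, g.1 0 1 / g.1 0 0, ?_⟩
  apply Matrix.SpecialLinearGroup.ext
  intro i j
  fin_cases i <;> fin_cases j <;>
    simp [upper_val, dia_val, Matrix.mul_apply, Fin.sum_univ_two, hc]
  · field_simp
  · exact eq_inv_of_mul_eq_one_right hdet

theorem lift_dia {G : Type*} [Group G] (R : SL2Rel F G) (u : Fˣ) : R.lift (dia u) = R.h u := by
  show R.toFun (dia u) = R.h u
  rw [show dia u = 1 * dia u from (one_mul _).symm, R.toFun_mul_dia, R.toFun_one, one_mul]

theorem lift_weyl {G : Type*} [Group G] (R : SL2Rel F G) : R.lift weyl = R.w := by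
  show R.toFun weyl = R.w
  rw [show (weyl : SL(2, F)) = 1 * weyl from (one_mul _).symm, R.toFun_mul_weyl, R.toFun_one,
    one_mul]

variable {K : Type*} [Field K] (f : F →+* K)

theorem map_upper (t : F) :
    Matrix.SpecialLinearGroup.map f (upper t) = upper (f t) := by
  apply Matrix.SpecialLinearGroup.ext
  intro i j
  fin_cases i <;> fin_cases j <;> simp [upper_val]

theorem map_lower (t : F) :
    Matrix.SpecialLinearGroup.map f (lower t) = lower (f t) := by
  apply Matrix.SpecialLinearGroup.ext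
  intro i j
  fin_cases i <;> fin_cases j <;> simp [lower_val]

theorem map_dia (u : Fˣ) :
    Matrix.SpecialLinearGroup.map f (dia u) = dia (Units.map (f : F →* K) u) := by
  apply Matrix.SpecialLinearGroup.ext
  intro i j
  fin_cases i <;> fin_cases j <;> simp [dia_val]

theorem map_weyl : Matrix.SpecialLinearGroup.map f (weyl : SL(2, F)) = weyl := by
  apply Matrix.SpecialLinearGroup.ext
  intro i j
  fin_cases i <;> fin_cases j <;> simp [weyl_val]

end CfsgLib.SchurTwisted
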