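import Cfsg.Agent.TwistedLie.D4Facts
import Cfsg.Agent.SchurTwisted.SL2Facts

/-!
The two rank-one homomorphisms `SL₂(q³) → ³D₄(q)` and `SL₂(q) → ³D₄(q)`.
-/

set_option autoImplicit false

namespace CfsgLib.SchurTwisted.D4

open Cfsg.Lie CfsgLib.Chevalley CfsgLib.Chevalley.SL2Rel CfsgLib.TwistedLie CfsgLib.TwistedLie.D4
open scoped MatrixGroups

local notation "S" => sysD4

variable {K : Type*} [Field K] [Fintype K] {q : ℕ} (hq : IsPrimePow q) (hK : Fintype.card K = q ^ 3)

/-- The homomorphism of a fundamental root. -/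
noncomputable def sHom {i : ℕ} (hi : i < chevD4.rank) : SL(2, K) →* GL chevD4.Idx K :=
  (Sys.sl2Rel S K hi).lift

theorem sHom_upper {i : ℕ} (hi : i < chevD4.rank) (t : K) :
    sHom hi (upper t) = Sys.xG S K (chevD4.simple i) t :=
  (Sys.sl2Rel S K hi).lift_upper rfl

theorem sHom_lower {i : ℕ} (hi : i < chevD4.rank) (t : K) :
    sHom hi (lower t) = Sys.xG S K (chevD4.neg (chevD4.simple i)) t :=
  (Sys.sl2Rel S K hi).lift_lower rfl

theorem sHom_dia {i : ℕ} (hi : i < chevD4.rank) (u : Kˣ) :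
    sHom hi (dia u) = tor chevD4 K (Pi.mulSingle i u) := lift_dia _ u

theorem sHom_weyl {i : ℕ} (hi : i < chevD4.rank) :
    sHom (K := K) hi weyl = Sys.nG S K (chevD4.simple i) 1 := lift_weyl _

theorem sHom_commute {i j : ℕ} (hi : i < chevD4.rank) (hj : j < chevD4.rank)
    (h : orthPairB chevD4 (chevD4.simple i) (chevD4.simple j) = true) (a b : SL(2, K)) :
    Commute (sHom hi a) (sHom hj b) := by
  obtain ⟨h1, h2, h3, h4⟩ := orthPair_spec h
  have key : ∀ x ∈ (sHom (K := K) hi).range, ∀ y ∈ (sHom (K := K) hj).range, Commute x y := by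
    intro x hx y hy
    rw [sHom, SL2Rel.range_lift] at hx hy
    induction hx using Subgroup.closure_induction with
    | mem x hx =>
      induction hy using Subgroup.closure_induction with
      | mem y hy =>
        rcases hx with ⟨t, rfl⟩ | ⟨t, rfl⟩ <;> rcases hy with ⟨u, rfl⟩ | ⟨u, rfl⟩
        exacts [orth_commute S K h1 t u, orth_commute S K h3 t u, orth_commute S K h2 t u,
          orth_commute S K h4 t u]
      | one => exact Commute.one_right _
      | mul _ _ _ _ a b => exact a.mul_right b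
      | inv _ _ a => exact a.inv_right
    | one => exact Commute.one_left _
    | mul _ _ _ _ a b => exact a.mul_left b
    | inv _ _ a => exact a.inv_left
  exact key _ ⟨a, rfl⟩ _ ⟨b, rfl⟩

include hq hK

/-- The three commuting factors on the triple orbit. -/
noncomputable def phi0 : SL(2, K) →* GL chevD4.Idx K :=
  MonoidHom.mk' (fun g => sHom (i := 0) (by decide) g *
    sHom (i := 2) (by decide) (Matrix.SpecialLinearGroup.map (phi hq hK) g) *
    sHom (i := 3) (by decide)
      (Matrix.SpecialLinearGroup.map ((phi hq hK).comp (phi hq hK)) g)) fun a b => by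
    simp only [map_mul]
    have c02 := sHom_commute (K := K) (i := 0) (j := 2) (by decide) (by decide)
      (by decide +kernel)
    have c03 := sHom_commute (K := K) (i := 0) (j := 3) (by decide) (by decide)
      (by decide +kernel)
    have c23 := sHom_commute (K := K) (i := 2) (j := 3) (by decide) (by decide)
      (by decide +kernel)
    exact (regroup3 (c02 _ _).symm (c03 _ _).symm (c23 _ _).symm).symm

theorem phi0_apply (g : SL(2, K)) : phi0 hq hK g = sHom (i := 0) (by decide) g *
    sHom (i := 2) (by decide) (Matrix.SpecialLinearGroup.map (phi hq hK) g) *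
    sHom (i := 3) (by decide)
      (Matrix.SpecialLinearGroup.map ((phi hq hK).comp (phi hq hK)) g) := rfl

theorem phi_sq (t : K) : ((phi hq hK).comp (phi hq hK)) t = t ^ q ^ 2 := by
  rw [RingHom.comp_apply, phi_apply, phi_apply, ← pow_mul, sq]

theorem phi0_upper (t : K) : phi0 hq hK (upper t) = P q t := by
  rw [phi0_apply, map_upper, map_upper, sHom_upper, sHom_upper, sHom_upper, phi_apply, phi_sq,
    simple0, simple2, simple3, P]

theorem phi0_lower (t : K) : phi0 hq hK (lower t) = N q t := by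
  rw [phi0_apply, map_lower, map_lower, sHom_lower, sHom_lower, sHom_lower, phi_apply, phi_sq,
    simple0, simple2, simple3, neg18, neg13, neg12, N]

theorem phi0_weyl : phi0 hq hK weyl = (Sys.wN S K (blkF 0) : GL chevD4.Idx K) := by
  rw [phi0_apply, map_weyl, map_weyl, sHom_weyl, sHom_weyl, sHom_weyl, n0_eq' hq hK, nL]
  simp [mul_assoc]

theorem phi0_dia (a : Kˣ) : phi0 hq hK (dia a) = tor chevD4 K (cJ q a) := by
  rw [phi0_apply, map_dia, map_dia, sHom_dia, sHom_dia, sHom_dia, cJ, map_mul, map_mul]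
  congr 4
  · exact Units.ext (phi_apply hq hK _)
  · exact Units.ext (phi_sq hq hK _)

/-- The fixed field. -/
noncomputable def kFix : Subfield K := (phi hq hK).eqLocusField (RingHom.id K)

theorem mem_kFix {t : K} : t ∈ kFix hq hK ↔ t ^ q = t := by
  show phi hq hK t = t ↔ _
  rw [phi_apply]

/-- The homomorphism of the fixed fundamental root. -/
noncomputable def phi1 : SL(2, kFix hq hK) →* GL chevD4.Idx K :=
  (sHom (i := 1) (by decide)).comp (Matrix.SpecialLinearGroup.map (kFix hq hK).subtype)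

theorem phi1_upper (t : kFix hq hK) : phi1 hq hK (upper t) = Sys.xG S K 14 (t : K) := by
  rw [phi1, MonoidHom.comp_apply, map_upper, sHom_upper, simple1]
  rfl

theorem phi1_lower (t : kFix hq hK) : phi1 hq hK (lower t) = Sys.xG S K 9 (t : K) := by
  rw [phi1, MonoidHom.comp_apply, map_lower, sHom_lower, simple1, neg14]
  rfl

theorem phi1_weyl : phi1 hq hK weyl = (Sys.wN S K (blkF 1) : GL chevD4.Idx K) := by
  rw [phi1, MonoidHom.comp_apply, map_weyl, sHom_weyl, n1_eq hq hK, simple1]

theorem phi1_dia (a : (kFix hq hK)ˣ) : phi1 hq hK (dia a) =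
    tor chevD4 K (Pi.mulSingle 1 (Units.map ((kFix hq hK).subtype : kFix hq hK →* K) a)) := by
  rw [phi1, MonoidHom.comp_apply, map_dia, sHom_dia]

omit hq hK in
theorem torusVal_neg4 (c : ℕ → Kˣ) :
    torusVal chevD4 c 5 = (torusVal chevD4 c 18)⁻¹ ∧ torusVal chevD4 c 10 = (torusVal chevD4 c 13)⁻¹ ∧
    torusVal chevD4 c 11 = (torusVal chevD4 c 12)⁻¹ ∧ torusVal chevD4 c 9 = (torusVal chevD4 c 14)⁻¹ := by
  refine ⟨?_, ?_, ?_, ?_⟩
  · rw [tv18, torusVal4 c 5 (-2) 1 0 0 (by decide +kernel) (by decide +kernel) (by decide +kernel)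
      (by decide +kernel)]
    simp [mul_comm]
  · rw [tv13, torusVal4 c 10 0 1 (-2) 0 (by decide +kernel) (by decide +kernel) (by decide +kernel)
      (by decide +kernel)]
    simp [mul_comm]
  · rw [tv12, torusVal4 c 11 0 1 0 (-2) (by decide +kernel) (by decide +kernel) (by decide +kernel)
      (by decide +kernel)]
    simp [mul_comm]
  · rw [tv14, torusVal4 c 9 1 (-2) 1 1 (by decide +kernel) (by decide +kernel) (by decide +kernel)
      (by decide +kernel)]
    simp [mul_comm, mul_left_comm, mul_assoc]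

omit hq hK in
theorem Cset_vals {c : ℕ → Kˣ} (hc : c ∈ Cset K q) :
    torusVal chevD4 c 13 = torusVal chevD4 c 18 ^ q ∧
    torusVal chevD4 c 12 = torusVal chevD4 c 18 ^ (q ^ 2) := by
  obtain ⟨h1, h2, h3, -⟩ := hc
  have h13 : torusVal chevD4 c 13 = torusVal chevD4 c 18 ^ q := by
    rw [tv13, tv18, zpow_two, zpow_two, mul_pow, mul_pow, inv_pow, h1, h2, mul_comm]
  refine ⟨h13, ?_⟩
  rw [sq q, pow_mul, ← h13, tv12, tv13, zpow_two, zpow_two, mul_pow, mul_pow, inv_pow, h1, h3]

theorem tor_conj_P {c : ℕ → Kˣ} (hc : c ∈ Cset K q) (t : K) :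
    tor chevD4 K c * P q t * (tor chevD4 K c)⁻¹ =
      P q ((torusVal chevD4 c 18 : K) * t) := by
  obtain ⟨h13, h12⟩ := Cset_vals hc
  simp only [P, conj_mul.symm]
  rw [Sys.tor_conj S K c (show 18 < chevD4.nroots by decide),
    Sys.tor_conj S K c (show 13 < chevD4.nroots by decide),
    Sys.tor_conj S K c (show 12 < chevD4.nroots by decide), h13, h12, Units.val_pow_eq_pow_val,
    Units.val_pow_eq_pow_val, mul_pow, mul_pow]

theorem tor_conj_N {c : ℕ → Kˣ} (hc : c ∈ Cset K q) (t : K) :
    tor chevD4 K c * N q t * (tor chevD4 K c)⁻¹ =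
      N q ((torusVal chevD4 c 18 : K)⁻¹ * t) := by
  obtain ⟨h13, h12⟩ := Cset_vals hc
  obtain ⟨h5, h10, h11, -⟩ := torusVal_neg4 c
  simp only [N, conj_mul.symm]
  rw [Sys.tor_conj S K c (show 5 < chevD4.nroots by decide),
    Sys.tor_conj S K c (show 10 < chevD4.nroots by decide),
    Sys.tor_conj S K c (show 11 < chevD4.nroots by decide), h5, h10, h11, h13, h12,
    Units.val_inv_eq_inv_val, Units.val_inv_eq_inv_val, Units.val_inv_eq_inv_val,
    Units.val_pow_eq_pow_val, Units.val_pow_eq_pow_val, mul_pow, mul_pow, inv_pow, inv_pow]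

theorem cval14_fixed {c : ℕ → Kˣ} (hc : c ∈ Cset K q) :
    (torusVal chevD4 c 14 : K) ∈ kFix hq hK := by
  obtain ⟨h1, h2, h3, h4⟩ := hc
  rw [mem_kFix, ← Units.val_pow_eq_pow_val, Units.val_inj, tv14, zpow_two, mul_pow, mul_pow, mul_pow,
    mul_pow, inv_pow, inv_pow, inv_pow, h1, ← h2, ← h3, ← h4]
  ac_rfl

theorem phi0_mem (g : SL(2, K)) : phi0 hq hK g ∈ (tw hq hK).G := by
  have hle : (phi0 hq hK).range ≤ (tw hq hK).G := by
    rintro _ ⟨g, rfl⟩
    by_cases hc : g.1 1 0 = 0
    · obtain ⟨a, b, rfl⟩ := eq_dia_mul_upper g hc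
      rw [map_mul, phi0_dia, phi0_upper]
      exact mul_mem (torJ_mem hq hK a) (P_mem b)
    · have hd := SL2Rel.det_eq g
      have e : g = upper (g.1 0 0 / g.1 1 0) *
          dia (Units.mk0 (-(g.1 1 0)⁻¹) (neg_ne_zero.mpr (inv_ne_zero hc))) * weyl *
          upper (g.1 1 1 / g.1 1 0) := by
        apply Matrix.SpecialLinearGroup.ext
        intro i j
        fin_cases i <;> fin_cases j <;>
          simp [upper_val, dia_val, weyl_val, Matrix.mul_apply, Fin.sum_univ_two]
        · field_simp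
        · field_simp
          linear_combination -hd
        · field_simp
      rw [e, map_mul, map_mul, map_mul, phi0_upper, phi0_upper, phi0_dia, phi0_weyl]
      exact mul_mem (mul_mem (mul_mem (P_mem _) (torJ_mem hq hK _)) ((tw hq hK).n_mem 0)) (P_mem _)
  exact hle ⟨g, rfl⟩

theorem phi1_mem (g : SL(2, kFix hq hK)) : phi1 hq hK g ∈ (tw hq hK).G := by
  have hle : (phi1 hq hK).range ≤ (tw hq hK).G := by
    rintro _ ⟨g, rfl⟩
    have hX : ∀ t, phi1 hq hK (upper t) ∈ (tw hq hK).G := fun t => by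
      rw [phi1_upper]; exact fix_mem (Or.inl rfl) ((mem_kFix hq hK).1 t.2)
    have hw : phi1 hq hK weyl ∈ (tw hq hK).G := by
      rw [phi1_weyl]; exact (tw hq hK).n_mem 1
    have hd : ∀ a, phi1 hq hK (dia a) ∈ (tw hq hK).G := fun a => by
      have h1 := congrArg (phi1 hq hK) (nEl_eq a)
      rw [nEl, map_mul, map_mul, map_mul, lower_eq, map_mul, map_mul, map_inv] at h1
      rw [← mul_inv_eq_iff_eq_mul.2 h1]
      exact mul_mem (mul_mem (mul_mem (hX _) (mul_mem (mul_mem hw (hX _)) (inv_mem hw))) (hX _))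
        (inv_mem hw)
    by_cases hc : g.1 1 0 = 0
    · obtain ⟨a, b, rfl⟩ := eq_dia_mul_upper g hc
      rw [map_mul]
      exact mul_mem (hd a) (hX b)
    · have hdet := SL2Rel.det_eq g
      have e : g = upper (g.1 0 0 / g.1 1 0) *
          dia (Units.mk0 (-(g.1 1 0)⁻¹) (neg_ne_zero.mpr (inv_ne_zero hc))) * weyl *
          upper (g.1 1 1 / g.1 1 0) := by
        apply Matrix.SpecialLinearGroup.ext
        intro i j
        fin_cases i <;> fin_cases j <;>
          simp [upper_val, dia_val, weyl_val, Matrix.mul_apply, Fin.sum_univ_two]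
        · field_simp
        · field_simp
          linear_combination -hdet
        · field_simp
      rw [e, map_mul, map_mul, map_mul]
      exact mul_mem (mul_mem (mul_mem (hX _) (hd _)) hw) (hX _)
  exact hle ⟨g, rfl⟩

end CfsgLib.SchurTwisted.D4
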