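import Cfsg.Agent.SchurTwisted.HomLift
import Cfsg.Agent.SchurTwisted.BruhatLift
import Cfsg.Agent.SchurTwisted.D4Homs

/-!
The multiplier of `³D₄(q)` at primes different from the characteristic: lifts of the two rank-one
subgroups, and the braid relation in the extension.
-/

set_option autoImplicit false

namespace CfsgLib.SchurTwisted.D4

open Cfsg.Lie CfsgLib.Chevalley CfsgLib.Chevalley.SL2Rel CfsgLib.TwistedLie CfsgLib.TwistedLie.D4
open CfsgLib.SchurClassical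
open scoped MatrixGroups

universe u

local notation "S" => sysD4

theorem pElt_eq {Γ A : Type*} [Group Γ] [Group A] {p r : ℕ} (hp : p.Prime) (hr : r.Prime)
    (hne : r ≠ p) {π : Γ →* A} (hc : π.ker ≤ Subgroup.center Γ) (hA : IsPGroup r π.ker) {a b : Γ}
    (ha : a ∈ pElts p Γ) (hb : b ∈ pElts p Γ) (e : π a = π b) : a = b := by
  have hz : b⁻¹ * a ∈ π.ker := by rw [MonoidHom.mem_ker, map_mul, map_inv, e, inv_mul_cancel]
  obtain ⟨k, hk⟩ := hA ⟨_, hz⟩
  have hcom : Commute b a := by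
    have h := Subgroup.mem_center_iff.1 (hc hz) b
    rw [mul_inv_cancel_left] at h
    show b * a = a * b
    calc b * a = b * (b * (b⁻¹ * a)) := by rw [mul_inv_cancel_left]
      _ = b * (b⁻¹ * a * b) := by rw [Subgroup.mem_center_iff.1 (hc hz) b]
      _ = a * b := by group
  obtain ⟨i, hi⟩ := ha
  obtain ⟨j, hj⟩ := hb
  have h2 : (b⁻¹ * a) ^ p ^ (i + j) = 1 := by
    rw [hcom.inv_left.mul_pow, inv_pow, pow_add, pow_mul a, hi, one_pow, mul_comm, pow_mul b, hj,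
      one_pow, inv_one, one_mul]
  exact (inv_mul_eq_one.1 (eq_one_of_pow_prime_pow (congrArg Subtype.val hk) h2
    (((Nat.coprime_primes hr hp).2 hne).pow_right (i + j)))).symm

theorem braid_of {G : Type*} [Group G] {a b : G} (ha : a * a = 1) (hb : b * b = 1)
    (h : a * b * a * b * a * b * a = a * (a * b * a * b * a * b)) :
    b * a * b * a * b * a = a * b * a * b * a * b := by
  have h1 : a * b * a * b * a * b * a = b * a * b * a * b := by
    rw [h]
    simp only [← mul_assoc, ha, one_mul]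
  have h2 : a * b * a * b * a * b = b * a * b * a * b * a := by
    rw [← h1]
    simp only [mul_assoc, ha, mul_one]
  exact h2.symm

/-- Left multiplication on the list of normal forms. -/
theorem normal_step {G : Type*} [Group G] (g : Fin 2 → G) (hsq : ∀ i, g i * g i = 1)
    (hbr : g 1 * g 0 * g 1 * g 0 * g 1 * g 0 = g 0 * g 1 * g 0 * g 1 * g 0 * g 1) (i : Fin 2)
    (k : Fin weylWords.length) (k' : Fin weylWords.length)
    (h : ∀ m : Fin chevD4.rank, wL chevD4 (wdN (i :: weylWords.get k)) (chevD4.simple m) =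
      wL chevD4 (wdN (weylWords.get k')) (chevD4.simple m)) :
    ((i :: weylWords.get k).map g).prod = ((weylWords.get k').map g).prod := by
  have key : ∀ (i : Fin 2) (k k' : Fin weylWords.length), (∀ m : Fin chevD4.rank,
        wL chevD4 (wdN (i :: weylWords.get k)) (chevD4.simple m) =
          wL chevD4 (wdN (weylWords.get k')) (chevD4.simple m)) → (i, (k : ℕ), (k' : ℕ)) ∈
        [((0 : Fin 2), 0, 1), (0, 1, 0), (0, 2, 3), (0, 3, 2), (0, 4, 5), (0, 5, 4), (0, 6, 7),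
          (0, 7, 6), (0, 8, 9), (0, 9, 8), (0, 10, 11), (0, 11, 10), (1, 0, 2), (1, 1, 4), (1, 2, 0),
          (1, 3, 6), (1, 4, 1), (1, 5, 8), (1, 6, 3), (1, 7, 10), (1, 8, 5), (1, 9, 11), (1, 10, 7),
          (1, 11, 9)] := by
    decide +kernel
  have hmem := key i k k' h
  have a0 : ∀ x, g 0 * (g 0 * x) = x := fun x => by rw [← mul_assoc, hsq, one_mul]
  have a1 : ∀ x, g 1 * (g 1 * x) = x := fun x => by rw [← mul_assoc, hsq, one_mul]
  simp only [mul_assoc] at hbr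
  obtain ⟨k, hk⟩ := k
  obtain ⟨k', hk'⟩ := k'
  simp only [List.mem_cons, Prod.mk.injEq, List.not_mem_nil, or_false] at hmem
  rcases hmem with ⟨rfl, rfl, rfl⟩ | ⟨rfl, rfl, rfl⟩ | ⟨rfl, rfl, rfl⟩ | ⟨rfl, rfl, rfl⟩ |
    ⟨rfl, rfl, rfl⟩ | ⟨rfl, rfl, rfl⟩ | ⟨rfl, rfl, rfl⟩ | ⟨rfl, rfl, rfl⟩ | ⟨rfl, rfl, rfl⟩ |
    ⟨rfl, rfl, rfl⟩ | ⟨rfl, rfl, rfl⟩ | ⟨rfl, rfl, rfl⟩ | ⟨rfl, rfl, rfl⟩ | ⟨rfl, rfl, rfl⟩ |
    ⟨rfl, rfl, rfl⟩ | ⟨rfl, rfl, rfl⟩ | ⟨rfl, rfl, rfl⟩ | ⟨rfl, rfl, rfl⟩ | ⟨rfl, rfl, rfl⟩ |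
    ⟨rfl, rfl, rfl⟩ | ⟨rfl, rfl, rfl⟩ | ⟨rfl, rfl, rfl⟩ | ⟨rfl, rfl, rfl⟩ | ⟨rfl, rfl, rfl⟩
  all_goals simp [weylWords, a0, a1, hsq]
  · exact hbr
  · rw [← hbr, a1]

variable {K : Type u} [Field K] [Fintype K] {q : ℕ} (hq : IsPrimePow q)
  (hK : Fintype.card K = q ^ 3) {Γ : Type u} [Group Γ] {π : Γ →* GL chevD4.Idx K}

include hq hK

omit [Fintype K] hq hK in
theorem upper_pElt {F : Type*} [Field F] {p : ℕ} [CharP F p] (t : F) :
    (upper t : SL(2, F)) ∈ pElts p SL(2, F) := by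
  refine ⟨1, ?_⟩
  have h : ∀ n : ℕ, (upper t : SL(2, F)) ^ n = upper ((n : F) * t) := by
    intro n
    induction n with
    | zero =>
      apply Subtype.ext
      simp [upper_val, Matrix.one_fin_two]
    | succ n ih => rw [pow_succ, ih, ← upper_add, Nat.cast_succ, add_one_mul]
  rw [h, pow_one, CharP.cast_eq_zero, zero_mul]
  apply Subtype.ext
  simp [upper_val, Matrix.one_fin_two]

omit [Fintype K] hq hK in
theorem lower_pElt {F : Type*} [Field F] {p : ℕ} [CharP F p] (t : F) :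
    (lower t : SL(2, F)) ∈ pElts p SL(2, F) := by
  obtain ⟨k, hk⟩ := upper_pElt (p := p) (-t)
  exact ⟨k, by rw [lower_eq, conj_pow, hk, mul_one, mul_inv_cancel]⟩

/-- The lifted torus acts on a lifted rank-one group by scaling. -/
theorem conj_nEl {p r : ℕ} (hp : p.Prime) (hr : r.Prime) (hne : r ≠ p)
    (hc : π.ker ≤ Subgroup.center Γ) (hA : IsPGroup r π.ker) {F : Type u} [Field F] [CharP F p]
    {φ : SL(2, F) →* GL chevD4.Idx K} {ψ : SL(2, F) →* Γ} (hψ : ∀ l, π (ψ l) = φ l)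
    (hψp : ∀ l ∈ pElts p SL(2, F), ψ l ∈ pElts p Γ) {g : Γ} (e : Fˣ)
    (hu : ∀ t : F, π g * φ (upper t) * (π g)⁻¹ = φ (upper ((e : F) * t)))
    (hl : ∀ t : F, π g * φ (lower t) * (π g)⁻¹ = φ (lower ((e : F)⁻¹ * t))) (b : Fˣ) :
    g * ψ (nEl (b : F)) * g⁻¹ = ψ (nEl ((e * b : Fˣ) : F)) := by
  have h1 : ∀ t : F, g * ψ (upper t) * g⁻¹ = ψ (upper ((e : F) * t)) := fun t =>
    pElt_eq hp hr hne hc hA (conj_mem_pElts (hψp _ (upper_pElt t)) g) (hψp _ (upper_pElt _))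
      (by rw [map_mul, map_mul, map_inv, hψ, hψ, hu])
  have h2 : ∀ t : F, g * ψ (lower t) * g⁻¹ = ψ (lower ((e : F)⁻¹ * t)) := fun t =>
    pElt_eq hp hr hne hc hA (conj_mem_pElts (hψp _ (lower_pElt t)) g) (hψp _ (lower_pElt _))
      (by rw [map_mul, map_mul, map_inv, hψ, hψ, hl])
  rw [nEl, nEl, map_mul, map_mul, map_mul, map_mul, ← conj_mul, ← conj_mul, h1, h2, Units.val_mul,
    mul_inv, mul_neg]

theorem conj_weyl {p r : ℕ} (hp : p.Prime) (hr : r.Prime) (hne : r ≠ p)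
    (hc : π.ker ≤ Subgroup.center Γ) (hA : IsPGroup r π.ker) {F : Type u} [Field F] [CharP F p]
    {φ : SL(2, F) →* GL chevD4.Idx K} {ψ : SL(2, F) →* Γ} (hψ : ∀ l, π (ψ l) = φ l)
    (hψp : ∀ l ∈ pElts p SL(2, F), ψ l ∈ pElts p Γ) {g : Γ} (e : Fˣ)
    (hu : ∀ t : F, π g * φ (upper t) * (π g)⁻¹ = φ (upper ((e : F) * t)))
    (hl : ∀ t : F, π g * φ (lower t) * (π g)⁻¹ = φ (lower ((e : F)⁻¹ * t))) :
    g * ψ weyl * g⁻¹ = ψ (dia e) * ψ weyl ∧ ∀ a : Fˣ, g * ψ (dia a) * g⁻¹ = ψ (dia a) := by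
  have h := conj_nEl hq hK hp hr hne hc hA hψ hψp e hu hl
  have e1 : nEl ((1 : Fˣ) : F) = (weyl : SL(2, F)) := by rw [nEl_eq, dia_one, one_mul]
  have hw : g * ψ weyl * g⁻¹ = ψ (dia e) * ψ weyl := by
    rw [← e1, h, mul_one, nEl_eq, map_mul, e1]
  refine ⟨hw, fun a => ?_⟩
  have ha := h a
  rw [nEl_eq, nEl_eq, map_mul, map_mul, ← conj_mul, hw, dia_mul, map_mul, ← mul_assoc] at ha
  have h3 := mul_right_cancel ha
  have hcm : ψ (dia e) * ψ (dia a) = ψ (dia a) * ψ (dia e) := by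
    rw [← map_mul, ← map_mul, ← dia_mul, ← dia_mul, mul_comm]
  exact mul_right_cancel (h3.trans hcm)

section

variable [Finite Γ] {p r : ℕ} [CharP K p] (hp : p.Prime) (hr : r.Prime) (hne : r ≠ p)
  (hrange : π.range = (tw hq hK).G) (hc : π.ker ≤ Subgroup.center Γ) (hA : IsPGroup r π.ker)
include hp hr hne hrange hc hA

/-- The lifts exist. -/
theorem exists_lifts : ∃ P : Lifts (tw hq hK) π, π.ker ⊓ P.Th = ⊥ := by
  classical
  haveI := Fact.mk hp
  haveI : Fintype (kFix hq hK) := Fintype.ofFinite _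
  haveI : CharP (kFix hq hK) p := (RingHom.charP_iff (algebraMap (kFix hq hK) K)
    (algebraMap (kFix hq hK) K).injective p).2 inferInstance
  obtain ⟨ψ0, h0, h0p⟩ := exists_hom_lift hp hr hne hc hA (noMult_sl2 hp hr hne)
    (closure_pElts_sl2 p) (phi0 hq hK) fun l => hrange ▸ phi0_mem hq hK l
  obtain ⟨ψ1, h1, h1p⟩ := exists_hom_lift hp hr hne hc hA (noMult_sl2 hp hr hne)
    (closure_pElts_sl2 p) (phi1 hq hK) fun l => hrange ▸ phi1_mem hq hK l
  have hUp : IsPGroup p ↥(chevD4.posUnipotent K ⊓ (tw hq hK).G) := by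
    obtain ⟨n, hn⟩ : ∃ n, q = p ^ n := by
      obtain ⟨p', hp', hc', n, e⟩ := exists_char_pow hq three_ne_zero hK
      exact ⟨n, by rw [e, CharP.eq K hc' ‹CharP K p›]⟩
    exact IsPGroup.of_card (n := n * 12) (by rw [card_U hq hK, hn, pow_mul])
  obtain ⟨M, hM, hMk, hMmap⟩ := exists_complement hp hr hne hc hA hUp
    (by rw [hrange]; exact inf_le_right)
  -- the torus
  have cfix : ∀ z : (kFix hq hK)ˣ, Pi.mulSingle 1 (Units.map ((kFix hq hK).subtype :
      kFix hq hK →* K) z) ∈ Cset K q := fun z => by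
    refine ⟨?_, by simp, by simp, by simp⟩
    rw [Pi.mulSingle_eq_same]
    exact Units.ext (by rw [Units.val_pow_eq_pow_val]; exact (mem_kFix hq hK).1 (z : kFix hq hK).2)
  have act0 : ∀ c ∈ Cset K q, ∀ g : Γ, π g = tor chevD4 K c →
      g * ψ0 weyl * g⁻¹ = ψ0 (dia (torusVal chevD4 c 18)) * ψ0 weyl ∧
        ∀ a : Kˣ, g * ψ0 (dia a) * g⁻¹ = ψ0 (dia a) := fun c hc' g hg =>
    conj_weyl hq hK hp hr hne hc hA h0 h0p _
      (fun t => by rw [hg, phi0_upper, tor_conj_P hq hK hc', phi0_upper])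
      (fun t => by rw [hg, phi0_lower, tor_conj_N hq hK hc', phi0_lower])
  have act1 : ∀ c ∈ Cset K q, ∀ g : Γ, π g = tor chevD4 K c →
      ∃ e : (kFix hq hK)ˣ, g * ψ1 weyl * g⁻¹ = ψ1 (dia e) * ψ1 weyl ∧
        ∀ a, g * ψ1 (dia a) * g⁻¹ = ψ1 (dia a) := fun c hc' g hg => by
    let e : (kFix hq hK)ˣ := Units.mk0 ⟨_, cval14_fixed hq hK hc'⟩ fun h =>
      (torusVal chevD4 c 14).ne_zero (congrArg Subtype.val h)
    refine ⟨e, conj_weyl hq hK hp hr hne hc hA h1 h1p e (fun t => ?_) fun t => ?_⟩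
    · rw [hg, phi1_upper, Sys.tor_conj S K c (show 14 < chevD4.nroots by decide), phi1_upper]
      rfl
    · rw [hg, phi1_lower, Sys.tor_conj S K c (show 9 < chevD4.nroots by decide), phi1_lower,
        (torusVal_neg4 c).2.2.2, Units.val_inv_eq_inv_val]
      rfl
  let f0 : Kˣ →* Γ := ψ0.comp diaHom
  let f1 : (kFix hq hK)ˣ →* Γ := ψ1.comp diaHom
  have hf0 : ∀ a, π (f0 a) = tor chevD4 K (cJ q a) := fun a => by
    show π (ψ0 (dia a)) = _
    rw [h0, phi0_dia]
  have hf1 : ∀ z, π (f1 z) = tor chevD4 K (Pi.mulSingle 1 (Units.map ((kFix hq hK).subtype :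
      kFix hq hK →* K) z)) := fun z => by
    show π (ψ1 (dia z)) = _
    rw [h1, phi1_dia]
  have hf : ∀ a z, Commute (f0 a) (f1 z) := fun a z => by
    have h := (act0 _ (cfix z) (f1 z) (hf1 z)).2 a
    exact (mul_inv_eq_iff_eq_mul.1 h).symm
  let fT : Kˣ × (kFix hq hK)ˣ →* Γ := f0.noncommCoprod f1 hf
  have fT_apply : ∀ a z, fT (a, z) = f0 a * f1 z := fun a z => rfl
  have hfT : ∀ a z, π (fT (a, z)) = tor chevD4 K (cJ q a * Pi.mulSingle 1
      (Units.map ((kFix hq hK).subtype : kFix hq hK →* K) z)) := fun a z => by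
    rw [fT_apply, map_mul, hf0, hf1, map_mul]
  have mem_T : ∀ a z, fT (a, z) ∈ fT.range := fun a z => ⟨_, rfl⟩
  have mem_T0 : ∀ a, ψ0 (dia a) ∈ fT.range := fun a => ⟨(a, 1), by
    rw [fT_apply, map_one, mul_one]; rfl⟩
  have mem_T1 : ∀ z, ψ1 (dia z) ∈ fT.range := fun z => ⟨(1, z), by
    rw [fT_apply, map_one, one_mul]; rfl⟩
  have hTmap : fT.range.map π = TT K q := by
    refine le_antisymm ?_ ?_
    · rintro _ ⟨_, ⟨⟨a, z⟩, rfl⟩, rfl⟩
      exact ⟨_, mul_mem (cJ_mem_Cset hq hK a) (cfix z), (hfT a z).symm⟩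
    · rintro _ ⟨c, hc', rfl⟩
      obtain ⟨e1, e2, e3, -⟩ := hc'
      let z : (kFix hq hK)ˣ := Units.mk0 ⟨(c 1 : K), (mem_kFix hq hK).2 (by
        rw [← Units.val_pow_eq_pow_val, e1])⟩ fun h => (c 1).ne_zero (congrArg Subtype.val h)
      refine ⟨fT (c 0, z), mem_T _ _, ?_⟩
      rw [hfT]
      refine tor_congr4 fun j hj => ?_
      have hz : Units.map ((kFix hq hK).subtype : kFix hq hK →* K) z = c 1 := Units.ext rfl
      interval_cases j
      · simp [cJ]
      · simp [cJ, hz]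
      · simp [cJ, e2]
      · simp [cJ, e3, e2, sq, pow_mul]
  have hTinj : π.ker ⊓ fT.range = ⊥ := by
    rw [eq_bot_iff]
    rintro _ ⟨hk, ⟨a, z⟩, rfl⟩
    have hk' : π (fT (a, z)) = 1 := hk
    rw [hfT] at hk'
    have hd : ∀ r (hr : r < chevD4.nroots), torusVal chevD4 (cJ q a * Pi.mulSingle 1
        (Units.map ((kFix hq hK).subtype : kFix hq hK →* K) z)) r = 1 := fun r hr =>
      Units.ext ((Sys.torusVal_eq_one_of_commute S K _ hr (one_ne_zero (α := K))
        (by simp [hk'])).trans Units.val_one.symm)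
    have h18 := hd 18 (by decide)
    have h14 := hd 14 (by decide)
    rw [tv18] at h18
    rw [tv14] at h14
    set z' : Kˣ := Units.map ((kFix hq hK).subtype : kFix hq hK →* K) z with hz'
    simp only [cJ, Pi.mul_apply] at h18 h14
    simp at h18 h14
    have e1 : a ^ 2 = z' := by rw [mul_inv_eq_one] at h18; exact h18
    have e2 : z' ^ 2 = a * a ^ q * a ^ q ^ 2 := by
      rw [mul_comm a⁻¹, mul_assoc, mul_assoc, ← mul_inv, ← mul_inv, mul_inv_eq_one] at h14
      rw [h14, mul_assoc]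
    have hzq : z' ^ q = z' := Units.ext (by
      rw [Units.val_pow_eq_pow_val]; exact (mem_kFix hq hK).1 (z : kFix hq hK).2)
    have e3 : z' ^ 4 = z' ^ 3 := by
      calc z' ^ 4 = (z' ^ 2) ^ 2 := by rw [← pow_mul]
        _ = (a * a ^ q * a ^ q ^ 2) ^ 2 := by rw [e2]
        _ = a ^ 2 * (a ^ 2) ^ q * ((a ^ 2) ^ q) ^ q := by
          simp only [mul_pow, ← pow_mul]
          ring_nf
        _ = z' ^ 3 := by rw [e1, hzq, hzq]; simp [pow_succ]
    have hz1 : z' = 1 := by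
      rwa [show z' ^ 4 = z' ^ 3 * z' from pow_succ z' 3, mul_eq_left] at e3
    have hz : z = 1 := Units.map_injective (kFix hq hK).subtype.injective ((hz'.symm.trans hz1).trans (map_one _).symm)
    rw [hz1] at e1 e2
    have ha : a = 1 := by
      obtain ha | ha : (a : K) = 1 ∨ (a : K) = -1 := by
        refine sq_eq_one_iff.1 ?_
        rw [← Units.val_pow_eq_pow_val, e1, Units.val_one]
      · exact Units.ext ha
      · have e2' := congrArg Units.val e2
        rw [Units.val_mul, Units.val_mul, Units.val_pow_eq_pow_val, Units.val_pow_eq_pow_val,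
          Units.val_pow_eq_pow_val, ha, negq hq hK, negq2 hq hK] at e2'
        simp at e2'
        refine Units.ext ?_
        rw [ha]
        simpa using e2'.symm
    rw [Subgroup.mem_bot, ha, hz]
    exact map_one fT
  -- the reflections
  let n : Fin 2 → Γ := ![ψ0 weyl, ψ1 weyl]
  have hπn : ∀ i, π (n i) = (Sys.wN S K ((tw hq hK).blk i) : GL chevD4.Idx K) :=
    Fin.forall_fin_two.mpr ⟨(h0 _).trans (phi0_weyl hq hK), (h1 _).trans (phi1_weyl hq hK)⟩
  have nsq : ∀ i, n i * n i ∈ fT.range := Fin.forall_fin_two.mpr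
    ⟨by show ψ0 weyl * ψ0 weyl ∈ _; rw [← map_mul, weyl_sq]; exact mem_T0 _,
      by show ψ1 weyl * ψ1 weyl ∈ _; rw [← map_mul, weyl_sq]; exact mem_T1 _⟩
  have conj_rule : ∀ {x y e : Γ}, x * y * x⁻¹ = e * y → y * x * y⁻¹ = e⁻¹ * x := by
    intro x y e h
    rw [mul_inv_eq_iff_eq_mul] at h ⊢
    rw [mul_assoc e⁻¹, h, mul_assoc e, inv_mul_cancel_left]
  have nconj : ∀ i, ∀ t ∈ fT.range, n i * t * (n i)⁻¹ ∈ fT.range := by
    have key : ∀ i, (∀ a, n i * f0 a * (n i)⁻¹ ∈ fT.range) ∧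
        (∀ z, n i * f1 z * (n i)⁻¹ ∈ fT.range) := Fin.forall_fin_two.mpr
      ⟨⟨fun a => by
          show ψ0 weyl * ψ0 (dia a) * (ψ0 weyl)⁻¹ ∈ _
          rw [← map_inv, ← map_mul, ← map_mul, weyl_dia, mul_inv_cancel_right]
          exact mem_T0 _,
        fun z => by
          show ψ0 weyl * f1 z * (ψ0 weyl)⁻¹ ∈ _
          rw [conj_rule (act0 _ (cfix z) (f1 z) (hf1 z)).1]
          exact mul_mem (inv_mem (mem_T0 _)) (mem_T1 _)⟩,
       ⟨fun a => by
          show ψ1 weyl * f0 a * (ψ1 weyl)⁻¹ ∈ _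
          obtain ⟨e, he, -⟩ := act1 _ (cJ_mem_Cset hq hK a) (f0 a) (hf0 a)
          rw [conj_rule he]
          exact mul_mem (inv_mem (mem_T1 _)) (mem_T0 _),
        fun z => by
          show ψ1 weyl * ψ1 (dia z) * (ψ1 weyl)⁻¹ ∈ _
          rw [← map_inv, ← map_mul, ← map_mul, weyl_dia, mul_inv_cancel_right]
          exact mem_T1 _⟩⟩
    rintro i _ ⟨⟨a, z⟩, rfl⟩
    rw [fT_apply, ← conj_mul]
    exact mul_mem ((key i).1 a) ((key i).2 z)
  have hMuniq : ∀ g, ∀ m ∈ M, π (g * m * g⁻¹) ∈ chevD4.posUnipotent K ⊓ (tw hq hK).G →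
      g * m * g⁻¹ ∈ M := fun g m hm h => (hM _).2 ⟨conj_mem_pElts ((hM m).1 hm).1 g, h⟩
  -- the braid relation
  set ν : Γ := n 0 * n 1 * n 0 * n 1 * n 0 * n 1 with hν
  have hπν : π ν = ((tw hq hK).nW [0, 1, 0, 1, 0, 1] : GL chevD4.Idx K) := by
    simp only [hν, map_mul, hπn, Tw.nW_cons, Tw.nW_nil, Subgroup.coe_mul, Subgroup.coe_one, mul_one,
      mul_assoc]
  set w : ↥(chevD4.monomialSubgroup K) := (tw hq hK).nW [0, 1, 0, 1, 0, 1] with hwdef
  -- conjugation by `ν` exchanges the two root subgroups of the first orbit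
  have hswap : ∀ t, ∃ s, (w : GL chevD4.Idx K) * P q t * (w : GL chevD4.Idx K)⁻¹ = N q s := by
    intro t
    set v : ↥(chevD4.monomialSubgroup K) := (Sys.wN S K (blkF 0))⁻¹ * w with hv
    have hperm : ∀ r ∈ ([18, 13, 12] : List ℕ), ∀ h : r < chevD4.nroots,
        ∃ a ∈ blkF 0, chevD4.simple a = ((Sys.perm S K v ⟨r, h⟩ : Fin chevD4.nroots) : ℕ) := by
      intro r hr h
      have e : Sys.perm S K v = Sys.wperm S (blkF 0) * (tw hq hK).wW [0, 1, 0, 1, 0, 1] := by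
        rw [hv, map_mul, map_inv, Sys.perm_wN, hwdef, Tw.perm_nW]
        rw [show (Sys.wperm S (blkF 0))⁻¹ = Sys.wperm S (blkF 0) from (tw hq hK).wperm_blk_inv 0]
      have e2 : ((Sys.perm S K v ⟨r, h⟩ : Fin chevD4.nroots) : ℕ) =
          wL chevD4 (wdN [0, 0, 1, 0, 1, 0, 1]) r := by
        rw [e, show Sys.wperm S (blkF 0) = Sys.wperm S ((tw hq hK).blk 0) from rfl, ← Tw.wW_cons]
        exact wperm_flat _ _
      rw [e2]
      exact (by decide +kernel : ∀ r ∈ ([18, 13, 12] : List ℕ), ∃ a ∈ blkF 0,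
        chevD4.simple a = wL chevD4 (wdN [0, 0, 1, 0, 1, 0, 1]) r) r hr
    have hx : ∀ r ∈ ([18, 13, 12] : List ℕ), ∀ u : K, (v : GL chevD4.Idx K) * Sys.xG S K r u *
        (v : GL chevD4.Idx K)⁻¹ ∈ uSub chevD4 K ((tw hq hK).cls 0) := by
      intro r hr u
      have h : r < chevD4.nroots := (by decide : ∀ r ∈ ([18, 13, 12] : List ℕ), r < chevD4.nroots) r hr
      obtain ⟨c, -, hcr⟩ := Sys.conj_root S K v ⟨r, h⟩
      rw [(hcr u).1]
      obtain ⟨a, ha, hae⟩ := hperm r hr h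
      exact Sys.xG_mem_uSub S K (P := (tw hq hK).cls 0)
        (show ∃ a ∈ blkF 0, chevD4.simple a = _ from ⟨a, ha, hae⟩)
        (hae ▸ Sys.simple_pos S a a.isLt) (Fin.isLt _) _
    have hv' : (v : GL chevD4.Idx K) * P q t * (v : GL chevD4.Idx K)⁻¹ ∈ (tw hq hK).X 0 := by
      refine (tw hq hK).X_full 0 _ ?_ ?_
      · simp only [P, conj_mul.symm]
        exact mul_mem (mul_mem (hx 18 (by simp) _) (hx 13 (by simp) _)) (hx 12 (by simp) _)
      · refine (tw hq hK).σ_mem (mul_mem (mul_mem ?_ (P_mem t)) (inv_mem ?_))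
        all_goals
          rw [hv, Subgroup.coe_mul, Subgroup.coe_inv]
          exact mul_mem (inv_mem ((tw hq hK).n_mem 0)) ((tw hq hK).nW_mem _)
    obtain ⟨s, hs⟩ := (mem_XX0 hq hK).mp hv'
    refine ⟨-s, ?_⟩
    rw [← n0_conj_P hq hK, ← hs, hv, Subgroup.coe_mul, Subgroup.coe_inv]
    group
  choose sw hsw using hswap
  have hswinj : Function.Injective sw := fun a b h => P_inj hq hK (by
    have := hsw a
    rw [h, ← hsw b] at this
    exact mul_left_cancel (mul_right_cancel this))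
  have hnu_up : ∀ t, ν * ψ0 (upper t) * ν⁻¹ = ψ0 (lower (sw t)) := fun t =>
    pElt_eq hp hr hne hc hA (conj_mem_pElts (h0p _ (upper_pElt t)) ν) (h0p _ (lower_pElt _))
      (by rw [map_mul, map_mul, map_inv, hπν, h0, h0, phi0_upper, hsw, phi0_lower])
  have hnu_low : ∀ t, ∃ s, ν * ψ0 (lower t) * ν⁻¹ = ψ0 (upper s) := by
    intro t
    obtain ⟨t', rfl⟩ := (Finite.injective_iff_surjective.1 hswinj) t
    have hw2 : (w : GL chevD4.Idx K) * w ∈ (tw hq hK).T := by
      rw [← Subgroup.coe_mul, hwdef, ← Tw.nW_append]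
      refine (tw hq hK).nW_mem_T ?_
      rw [← (tw hq hK).wW_nil]
      exact wW_eq_of hq hK (by decide +kernel)
    obtain ⟨c, hc', hce⟩ := hw2
    refine ⟨(torusVal chevD4 c 18 : K) * t', pElt_eq hp hr hne hc hA
      (conj_mem_pElts (h0p _ (lower_pElt _)) ν) (h0p _ (upper_pElt _)) ?_⟩
    rw [map_mul, map_mul, map_inv, hπν, h0, h0, phi0_lower, ← hsw, phi0_upper, ← tor_conj_P hq hK hc',
      hce]
    group
  have hnu : ∀ s, ∃ s', ν * ψ0 s * ν⁻¹ = ψ0 s' := by
    have hle : (⊤ : Subgroup SL(2, K)) ≤ (ψ0.range.comap (MulAut.conj ν).toMonoidHom).comap ψ0 := by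
      rintro g -
      set L := (ψ0.range.comap (MulAut.conj ν).toMonoidHom).comap ψ0
      have hu : ∀ t, upper t ∈ L := fun t => ⟨lower (sw t), (hnu_up t).symm⟩
      have hl : ∀ t, lower t ∈ L := fun t => by
        obtain ⟨s, hs⟩ := hnu_low t
        exact ⟨upper s, hs.symm⟩
      have hw : (weyl : SL(2, K)) ∈ L := by
        rw [show (weyl : SL(2, K)) = nEl ((1 : Kˣ) : K) by rw [nEl_eq, dia_one, one_mul], nEl]
        exact mul_mem (mul_mem (hu _) (hl _)) (hu _)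
      have hd : ∀ a : Kˣ, dia a ∈ L := fun a => by
        rw [← mul_inv_eq_iff_eq_mul.2 (nEl_eq a), nEl]
        exact mul_mem (mul_mem (mul_mem (hu _) (hl _)) (hu _)) (inv_mem hw)
      by_cases hcz : g.1 1 0 = 0
      · obtain ⟨a, b, rfl⟩ := eq_dia_mul_upper g hcz
        exact mul_mem (hd a) (hu b)
      · have hdet := SL2Rel.det_eq g
        have e : g = upper (g.1 0 0 / g.1 1 0) *
            dia (Units.mk0 (-(g.1 1 0)⁻¹) (neg_ne_zero.mpr (inv_ne_zero hcz))) * weyl *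
            upper (g.1 1 1 / g.1 1 0) := by
          apply Matrix.SpecialLinearGroup.ext
          intro i j
          fin_cases i <;> fin_cases j <;>
            simp [upper_val, dia_val, weyl_val, Matrix.mul_apply, Fin.sum_univ_two]
          · field_simp
          · field_simp
            linear_combination -hdet
          · field_simp
        rw [e]
        exact mul_mem (mul_mem (mul_mem (hu _) (hd _)) hw) (hu _)
    intro s
    obtain ⟨s', h⟩ := hle (Subgroup.mem_top s)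
    exact ⟨s', h.symm⟩
  have hbraid : (n 0)⁻¹ * (ν * n 0 * ν⁻¹) ∈ fT.range := by
    obtain ⟨s', hs'⟩ := hnu weyl
    show (ψ0 weyl)⁻¹ * (ν * ψ0 weyl * ν⁻¹) ∈ _
    rw [hs', ← map_inv, ← map_mul]
    obtain ⟨s, hs⟩ : ∃ s, s = weyl⁻¹ * s' := ⟨_, rfl⟩
    rw [← hs]
    have hdiag : phi0 hq hK s ∈ chevD4.diagonalSubgroup K := by
      have e : phi0 hq hK s = (((Sys.wN S K (blkF 0))⁻¹ * (w * Sys.wN S K (blkF 0) * w⁻¹) :
          ↥(chevD4.monomialSubgroup K)) : GL chevD4.Idx K) := by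
        rw [hs, map_mul, map_inv, phi0_weyl, ← h0 s', ← hs', map_mul, map_mul, map_inv, hπν, h0,
          phi0_weyl]
        simp only [Subgroup.coe_mul, Subgroup.coe_inv]
      rw [e, ← Subgroup.mem_subgroupOf]
      refine (Sys.perm_eq_iff S K).1 ?_
      rw [map_mul, map_mul, map_inv, Sys.perm_wN, hwdef, Tw.perm_nW,
        eq_mul_inv_iff_mul_eq]
      show Sys.wperm S ((tw hq hK).blk 0) * (tw hq hK).wW [0, 1, 0, 1, 0, 1] =
        (tw hq hK).wW [0, 1, 0, 1, 0, 1] * Sys.wperm S ((tw hq hK).blk 0)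
      rw [← Tw.wW_single, ← Tw.wW_append, ← Tw.wW_append]
      exact wW_eq_of hq hK (by decide +kernel)
    have hcz : s.1 1 0 = 0 := by
      by_contra hcz
      rw [Sys.diagonal_eq S] at hdiag
      obtain ⟨c, hc'⟩ := hdiag
      have hU : ∀ t, phi0 hq hK (upper t) ∈ chevD4.borelSubgroup K := fun t => by
        rw [phi0_upper]
        exact Subgroup.mem_sup_left (uSub_le_posUnipotent K _ (X_le' hq hK 0 ((mem_XX0 hq hK).mpr ⟨t, rfl⟩)))
      have hD : phi0 hq hK s ∈ chevD4.borelSubgroup K :=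
        Subgroup.mem_sup_right (by rw [Sys.diagonal_eq S]; exact ⟨c, hc'⟩)
      have hlow : phi0 hq hK (lower (-(s.1 1 0) ^ 2)) ∈ chevD4.borelSubgroup K := by
        have h2 := mul_mem (mul_mem (inv_mem (hU (s.1 0 0 / s.1 1 0)))
          (mul_mem (mul_mem hD (hU 1)) (inv_mem hD))) (inv_mem (hU (-(s.1 0 0) / s.1 1 0)))
        rw [← map_inv, ← map_inv, ← map_inv, ← map_mul, ← map_mul, conj_upper_eq s hcz,
          ← map_mul, ← map_mul] at h2
        simpa [mul_assoc] using h2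
      have hne0 : (s.1 1 0) ^ 2 ≠ 0 := pow_ne_zero _ hcz
      have hB : phi0 hq hK weyl ∈ chevD4.borelSubgroup K := by
        have hb := nEl_eq (Units.mk0 _ (inv_ne_zero hne0))
        have h3 : phi0 hq hK (nEl (((s.1 1 0) ^ 2)⁻¹)) ∈ chevD4.borelSubgroup K := by
          rw [nEl, inv_inv, map_mul, map_mul]
          exact mul_mem (mul_mem (hU _) hlow) (hU _)
        rw [show (((s.1 1 0) ^ 2)⁻¹) = ((Units.mk0 _ (inv_ne_zero hne0) : Kˣ) : K) from rfl, hb, map_mul,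
          phi0_dia] at h3
        have h4 : tor chevD4 K (cJ q (Units.mk0 _ (inv_ne_zero hne0))) ∈ chevD4.borelSubgroup K :=
          Subgroup.mem_sup_right (by rw [Sys.diagonal_eq S]; exact ⟨_, rfl⟩)
        simpa using mul_mem (inv_mem h4) h3
      rw [phi0_weyl] at hB
      have hd : (Sys.wN S K (blkF 0) : GL chevD4.Idx K) ∈ chevD4.diagonalSubgroup K := by
        rw [← Sys.borel_inf_monomial S K]
        exact ⟨hB, SetLike.coe_mem _⟩
      have hp1 := Sys.perm_of_mem_hSub S K (g := Sys.wN S K (blkF 0)) hd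
      rw [Sys.perm_wN] at hp1
      have hpos := (tw hq hK).blk_inv_pos 0
      rw [show Sys.wperm S ((tw hq hK).blk 0) = 1 from hp1, Finset.card_pos] at hpos
      obtain ⟨x, hx⟩ := hpos
      have := (mem_invSet.mp hx)
      simp only [Equiv.Perm.one_apply] at this
      omega
    obtain ⟨a, b, hab⟩ := eq_dia_mul_upper s hcz
    have hb0 : b = 0 := by
      rw [hab, map_mul, phi0_upper] at hdiag
      have hd0 : phi0 hq hK (dia a) ∈ chevD4.diagonalSubgroup K := by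
        rw [phi0_dia, Sys.diagonal_eq S]; exact ⟨_, rfl⟩
      have hP : P q b ∈ chevD4.posUnipotent K ⊓ chevD4.diagonalSubgroup K :=
        ⟨uSub_le_posUnipotent K _ (X_le' hq hK 0 ((mem_XX0 hq hK).mpr ⟨b, rfl⟩)),
          by simpa using mul_mem (inv_mem hd0) hdiag⟩
      rw [Sys.posUnipotent_inf_diagonal S K, Subgroup.mem_bot, ← P_zero hq hK] at hP
      exact P_inj hq hK hP
    rw [hab, hb0, show (upper (0 : K) : SL(2, K)) = 1 from by
      apply Subtype.ext; simp [upper_val, Matrix.one_fin_two], mul_one]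
    exact mem_T0 a
  -- the words
  have hrel : ∀ L : List (Fin 2), (tw hq hK).wW L = 1 → (L.map n).prod ∈ fT.range := by
    let Nn : Subgroup Γ := Subgroup.normalizer (fT.range : Set Γ)
    haveI : (fT.range.subgroupOf Nn).Normal := Subgroup.normal_subgroupOf_of_le_normalizer le_rfl
    have hnN : ∀ i, n i ∈ Nn := fun i => Subgroup.mem_normalizer_iff.2 fun t =>
      ⟨fun ht => nconj i t ht, fun ht => by
        have h := mul_mem (mul_mem (inv_mem (nsq i)) (nconj i _ ht)) (nsq i)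
        have e : (n i * n i)⁻¹ * (n i * (n i * t * (n i)⁻¹) * (n i)⁻¹) * (n i * n i) = t := by group
        rwa [e] at h⟩
    let g : Fin 2 → ↥Nn ⧸ fT.range.subgroupOf Nn := fun i => ((⟨n i, hnN i⟩ : Nn) : _ ⧸ _)
    have hg1 : ∀ x : Nn, ((x : ↥Nn ⧸ fT.range.subgroupOf Nn) = 1) ↔ (x : Γ) ∈ fT.range := fun x => by
      rw [QuotientGroup.eq_one_iff, Subgroup.mem_subgroupOf]
    have hsqg : ∀ i, g i * g i = 1 := fun i => (hg1 _).2 (nsq i)
    have hbr : g 1 * g 0 * g 1 * g 0 * g 1 * g 0 = g 0 * g 1 * g 0 * g 1 * g 0 * g 1 := by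
      refine braid_of (hsqg 0) (hsqg 1) ?_
      have h2 : (g 0)⁻¹ * ((g 0 * g 1 * g 0 * g 1 * g 0 * g 1) * g 0 *
          (g 0 * g 1 * g 0 * g 1 * g 0 * g 1)⁻¹) = 1 := (hg1 _).2 hbraid
      rw [inv_mul_eq_one] at h2
      exact mul_inv_eq_iff_eq_mul.1 h2.symm
    have hnf : ∀ L : List (Fin 2), ∃ k : Fin weylWords.length,
        (L.map g).prod = ((weylWords.get k).map g).prod ∧
          (tw hq hK).wW L = (tw hq hK).wW (weylWords.get k) := by
      intro L
      induction L with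
      | nil => exact ⟨⟨0, by decide⟩, rfl, rfl⟩
      | cons i L ih =>
        obtain ⟨k, hk, hkW⟩ := ih
        obtain ⟨k', hk'⟩ := (by decide +kernel : ∀ (i : Fin 2) (k : Fin weylWords.length),
          ∃ k' : Fin weylWords.length, ∀ m : Fin chevD4.rank,
            wL chevD4 (wdN (i :: weylWords.get k)) (chevD4.simple m) =
              wL chevD4 (wdN (weylWords.get k')) (chevD4.simple m)) i k
        refine ⟨k', ?_, ?_⟩
        · rw [← normal_step g hsqg hbr i k k' hk']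
          simp only [List.map_cons, List.prod_cons, hk]
        · rw [Tw.wW_cons, hkW, ← Tw.wW_cons]
          exact wW_eq_of hq hK hk'
    intro L hL
    obtain ⟨k, hk, hkW⟩ := hnf L
    have hk0 : k = ⟨0, by decide⟩ := weyl_inj hq hK k ⟨0, by decide⟩
      (by rw [← hkW, hL]; exact (tw hq hK).wW_nil.symm)
    rw [hk0] at hk
    have hk1 : (L.map g).prod = 1 := hk
    let L' : List Nn := L.map fun i => ⟨n i, hnN i⟩
    have e : ((L'.prod : Nn) : Γ) = (L.map n).prod := by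
      rw [← Subgroup.coe_subtype, map_list_prod, List.map_map]; rfl
    have e' : (L.map g).prod = ((L'.prod : Nn) : ↥Nn ⧸ fT.range.subgroupOf Nn) := by
      rw [← QuotientGroup.mk'_apply, map_list_prod, List.map_map]; rfl
    rw [← e]
    exact (hg1 _).1 (e'.symm.trans hk1)
  -- rank one
  have hrone : ∀ i, ∀ m ∈ M, π m ∈ (tw hq hK).X i → m ≠ 1 → ∃ m' ∈ M, ∃ t ∈ fT.range,
      ∃ m'' ∈ M, π m'' ∈ (tw hq hK).X i ∧ n i * m * (n i)⁻¹ = m' * n i * t * m'' := by
    have hMψ : ∀ {F : Type u} [Field F] [CharP F p] (φ : SL(2, F) →* GL chevD4.Idx K)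
        (ψ : SL(2, F) →* Γ), (∀ l, π (ψ l) = φ l) → (∀ l ∈ pElts p SL(2, F), ψ l ∈ pElts p Γ) →
        ∀ t, φ (upper t) ∈ chevD4.posUnipotent K ⊓ (tw hq hK).G → ψ (upper t) ∈ M :=
      fun φ ψ hψ hψp t ht => (hM _).2 ⟨hψp _ (upper_pElt t), by rwa [hψ]⟩
    have key : ∀ {F : Type u} [Field F] (ψ : SL(2, F) →* Γ) (t : Fˣ),
        ψ weyl * ψ (upper (t : F)) * (ψ weyl)⁻¹ =
          ψ (upper (-(t : F)⁻¹)) * ψ weyl * ψ (dia t) * ψ (upper (-(t : F)⁻¹)) := fun ψ t => by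
      rw [← map_inv, ← map_mul, ← map_mul, weyl_upper, map_mul, map_mul, map_mul]
    refine Fin.forall_fin_two.mpr ⟨fun m hm hx h1 => ?_, fun m hm hx h1' => ?_⟩
    · obtain ⟨t, ht⟩ := (mem_XX0 hq hK).mp hx
      have hU : ∀ s, phi0 hq hK (upper s) ∈ chevD4.posUnipotent K ⊓ (tw hq hK).G := fun s => by
        rw [phi0_upper]
        exact (tw hq hK).X_le_U 0 ((mem_XX0 hq hK).mpr ⟨s, rfl⟩)
      have hm' : m = ψ0 (upper t) := pElt_eq hp hr hne hc hA ((hM m).1 hm).1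
        (h0p _ (upper_pElt t)) (by rw [ht, h0, phi0_upper])
      subst hm'
      have ht0 : t ≠ 0 := fun e => h1 (by
        rw [e, show (upper (0 : K) : SL(2, K)) = 1 from by
          apply Subtype.ext; simp [upper_val, Matrix.one_fin_two], map_one])
      exact ⟨_, hMψ _ ψ0 h0 h0p _ (hU _), _, mem_T0 _, _, hMψ _ ψ0 h0 h0p _ (hU _),
        by rw [h0, phi0_upper]; exact (mem_XX0 hq hK).mpr ⟨_, rfl⟩, key ψ0 (Units.mk0 t ht0)⟩
    · obtain ⟨t, htq, ht⟩ := (mem_XX1 hq hK).mp hx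
      have hU : ∀ s, phi1 hq hK (upper s) ∈ (tw hq hK).X 1 := fun s => by
        rw [phi1_upper]
        exact (mem_XX1 hq hK).mpr ⟨s, (mem_kFix hq hK).1 s.2, rfl⟩
      let t' : kFix hq hK := ⟨t, (mem_kFix hq hK).2 htq⟩
      have hm' : m = ψ1 (upper t') := pElt_eq hp hr hne hc hA ((hM m).1 hm).1
        (h1p _ (upper_pElt t')) (by rw [ht, h1, phi1_upper])
      subst hm'
      have ht0 : t' ≠ 0 := fun e => h1' (by
        rw [e, show (upper (0 : kFix hq hK) : SL(2, kFix hq hK)) = 1 from by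
          apply Subtype.ext; simp [upper_val, Matrix.one_fin_two], map_one])
      exact ⟨_, hMψ _ ψ1 h1 h1p _ ((tw hq hK).X_le_U 1 (hU _)), _, mem_T1 _, _,
        hMψ _ ψ1 h1 h1p _ ((tw hq hK).X_le_U 1 (hU _)), by rw [h1]; exact hU _,
        key ψ1 (Units.mk0 t' ht0)⟩
  exact ⟨{ M := M, Th := fT.range, n := n, M_map := hMmap, M_inj := hMk, M_conj := hMuniq,
           Th_map := hTmap, π_n := hπn, n_sq := nsq, n_conj := nconj, rel := hrel,
           rank_one := hrone }, hTinj⟩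

end

/-- The multiplier has no `r`-part for `r` different from the characteristic. -/
theorem noMult_cross {p r : ℕ} [CharP K p] (hp : p.Prime) (hr : r.Prime) (hne : r ≠ p) :
    NoMult r ↥(tw hq hK).G := by
  intro Δ _ _ σ hs hc hA
  let π' : Δ →* GL chevD4.Idx K := (tw hq hK).G.subtype.comp σ
  have hk : π'.ker = σ.ker :=
    MonoidHom.ker_comp_of_injective σ _ (Subgroup.subtype_injective _)
  have hrange : π'.range = (tw hq hK).G := by
    rw [MonoidHom.range_comp, MonoidHom.range_eq_top.2 hs, ← MonoidHom.range_eq_map,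
      Subgroup.range_subtype]
  obtain ⟨P, hT⟩ := exists_lifts hq hK (π := π') hp hr hne hrange (hk ▸ hc) (hk ▸ hA)
  rw [← hk]
  exact P.ker_inf_commutator (hk ▸ hc) hrange hT

end CfsgLib.SchurTwisted.D4
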