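import Cfsg.Agent.SchurTwisted.D4Two
import Cfsg.Agent.SchurTwisted.D4Cross
import Cfsg.Agent.SchurMult.Multiplier

/-!
The multiplier of `³D₄(q)` is trivial.
-/

set_option autoImplicit false

namespace CfsgLib.SchurTwisted.D4

open Cfsg.Lie CfsgLib.Chevalley CfsgLib.TwistedLie CfsgLib.TwistedLie.D4
open CfsgLib.SchurClassical

universe u

variable {K : Type u} [Field K] [Fintype K] {q : ℕ} (hq : IsPrimePow q) (hK : Fintype.card K = q ^ 3)

include hq hK

/-- The multiplier has no part at the characteristic. -/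
theorem noMult_defining {p : ℕ} [CharP K p] (hp : p.Prime) : NoMult p ↥(tw hq hK).G := by
  intro Γ _ _ σ hs hc hA
  let π : Γ →* GL chevD4.Idx K := (tw hq hK).G.subtype.comp σ
  have hk : π.ker = σ.ker := MonoidHom.ker_comp_of_injective σ _ (Subgroup.subtype_injective _)
  have hrange : π.range = (tw hq hK).G := by
    rw [MonoidHom.range_comp, MonoidHom.range_eq_top.2 hs, ← MonoidHom.range_eq_map,
      Subgroup.range_subtype]
  refine ker_inf_commutator_of_index hp hs hc hA ((tw hq hK).B1.subgroupOf (tw hq hK).G)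
    (not_dvd_index hq hK hp) ?_
  rw [Subgroup.subgroupOf, Subgroup.comap_comap, ← hk]
  have hex : ∃ M, Compl π (tw hq hK).B1 (NN hq hK 0) M := by
    by_cases hq3 : 3 ≤ q
    · exact exists_compl hq hK hrange (hk ▸ hc) hq3 0 (by norm_num)
    · have hq2 : q = 2 := by have := hq.one_lt; omega
      obtain rfl : p = 2 := by
        obtain ⟨p', hp', hc', n, e⟩ := exists_char_pow hq three_ne_zero hK
        obtain rfl := CharP.eq K hc' ‹CharP K p›
        exact ((Nat.prime_dvd_prime_iff_eq hp Nat.prime_two).1 (hq2 ▸ e ▸ dvd_pow_self p' fun h => by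
          rw [h, pow_zero] at e; exact hq.ne_one e))
      exact exists_compl_two hq hK hrange (hk ▸ hc) (hk ▸ hA) hq2
  obtain ⟨M, hM⟩ := hex
  exact ker_inf_of_compl hq hK hp hrange (hk ▸ hc) (hk ▸ hA) hM

/-- The Schur multiplier of `³D₄(q)` is trivial. -/
theorem hasCyclicSchurMultiplier_twistedD4 :
    Cfsg.HasCyclicSchurMultiplier ↥(twistedD4 K q) 1 := by
  obtain ⟨p, hp, hcp, -⟩ := exists_char_pow hq three_ne_zero hK
  haveI := hcp
  show Cfsg.HasCyclicSchurMultiplier ↥(tw hq hK).G 1
  rw [CfsgLib.SchurMult.hasCyclicSchurMultiplier_one_iff]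
  intro Γ _ _ σ hσ
  refine stem_ker_eq_bot (fun r hr => ?_) hσ
  by_cases hrp : r = p
  · subst hrp; exact noMult_defining hq hK hp
  · exact noMult_cross hq hK hp hr hrp

end CfsgLib.SchurTwisted.D4
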