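import Cfsg.Agent.SchurTwisted.HomLift
import Cfsg.Agent.SchurTwisted.BruhatLift
import Cfsg.Agent.SchurTwisted.SL2Facts
import Cfsg.Agent.TwistedLie.CoxeterW

/-!
The multiplier of a twisted group at primes different from the characteristic, from rank-one
homomorphisms of its orbits: the part of the kernel inside the derived group is bounded by the
kernel of the map from the abstract torus.
-/

set_option autoImplicit false

namespace CfsgLib.SchurTwisted

open Cfsg.Lie CfsgLib.Chevalley CfsgLib.Chevalley.SL2Rel CfsgLib.TwistedLie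
open CfsgLib.SchurClassical
open scoped MatrixGroups

universe u

theorem upper_zero' {F : Type*} [Field F] : (upper (0 : F) : SL(2, F)) = 1 := by
  apply Subtype.ext
  simp [upper_val, Matrix.one_fin_two]

theorem upper_mem_pElts {F : Type*} [Field F] {p : ℕ} [CharP F p] (t : F) :
    (upper t : SL(2, F)) ∈ pElts p SL(2, F) := by
  refine ⟨1, ?_⟩
  have h : ∀ n : ℕ, (upper t : SL(2, F)) ^ n = upper ((n : F) * t) := by
    intro n
    induction n with
    | zero => rw [pow_zero, Nat.cast_zero, zero_mul, upper_zero']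
    | succ n ih => rw [pow_succ, ih, ← upper_add, Nat.cast_succ, add_one_mul]
  rw [h, pow_one, CharP.cast_eq_zero, zero_mul, upper_zero']

theorem lower_mem_pElts {F : Type*} [Field F] {p : ℕ} [CharP F p] (t : F) :
    (lower t : SL(2, F)) ∈ pElts p SL(2, F) := by
  obtain ⟨k, hk⟩ := upper_mem_pElts (p := p) (-t)
  exact ⟨k, by rw [lower_eq, conj_pow, hk, mul_one, mul_inv_cancel]⟩

theorem pElt_uniq {Γ A : Type*} [Group Γ] [Group A] {p r : ℕ} (hp : p.Prime) (hr : r.Prime)
    (hne : r ≠ p) {π : Γ →* A} (hc : π.ker ≤ Subgroup.center Γ) (hA : IsPGroup r π.ker) {a b : Γ}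
    (ha : a ∈ pElts p Γ) (hb : b ∈ pElts p Γ) (e : π a = π b) : a = b := by
  have hz : b⁻¹ * a ∈ π.ker := by rw [MonoidHom.mem_ker, map_mul, map_inv, e, inv_mul_cancel]
  obtain ⟨k, hk⟩ := hA ⟨_, hz⟩
  have hcom : Commute b a := by
    show b * a = a * b
    calc b * a = b * (b * (b⁻¹ * a)) := by rw [mul_inv_cancel_left]
      _ = b * (b⁻¹ * a * b) := by rw [Subgroup.mem_center_iff.1 (hc hz) b]
      _ = a * b := by group
  obtain ⟨i, hi⟩ := ha
  obtain ⟨j, hj⟩ := hb
  have h2 : (b⁻¹ * a) ^ p ^ (i + j) = 1 := by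
    rw [hcom.inv_left.mul_pow, inv_pow, pow_add, pow_mul a, hi, one_pow, mul_comm, pow_mul b, hj,
      one_pow, inv_one, one_mul]
  exact (inv_mul_eq_one.1 (eq_one_of_pow_prime_pow (congrArg Subtype.val hk) h2
    (((Nat.coprime_primes hr hp).2 hne).pow_right (i + j)))).symm

/-- Every element of `SL₂` lies in a subgroup containing the standard generators. -/
theorem sl2_mem {F : Type*} [Field F] {L : Subgroup SL(2, F)} (hu : ∀ t, upper t ∈ L)
    (hd : ∀ a : Fˣ, dia a ∈ L) (hw : weyl ∈ L) (g : SL(2, F)) : g ∈ L := by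
  by_cases hc : g.1 1 0 = 0
  · obtain ⟨a, b, rfl⟩ := eq_dia_mul_upper g hc
    exact mul_mem (hd a) (hu b)
  · have hdet := SL2Rel.det_eq g
    have e : g = upper (g.1 0 0 / g.1 1 0) *
        dia (Units.mk0 (-(g.1 1 0)⁻¹) (neg_ne_zero.mpr (inv_ne_zero hc))) * weyl *
        upper (g.1 1 1 / g.1 1 0) := by
      apply Matrix.SpecialLinearGroup.ext
      intro i j
      fin_cases i <;> fin_cases j <;>
        simp [upper_val, dia_val, weyl_val, Matrix.mul_apply, Fin.sum_univ_two]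
      · field_simp
      · field_simp
        linear_combination -hdet
      · field_simp
    rw [e]
    exact mul_mem (mul_mem (mul_mem (hu _) (hd _)) hw) (hu _)

/-- Upper, diagonal, Weyl, upper form of an element outside the Borel subgroup. -/
theorem sl2_bruhat {F : Type*} [Field F] (g : SL(2, F)) (hc : g.1 1 0 ≠ 0) :
    ∃ (x y : F) (a : Fˣ), g = upper x * dia a * weyl * upper y := by
  refine ⟨g.1 0 0 / g.1 1 0, g.1 1 1 / g.1 1 0,
    Units.mk0 (-(g.1 1 0)⁻¹) (neg_ne_zero.mpr (inv_ne_zero hc)), ?_⟩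
  have hdet := SL2Rel.det_eq g
  apply Matrix.SpecialLinearGroup.ext
  intro i j
  fin_cases i <;> fin_cases j <;>
    simp [upper_val, dia_val, weyl_val, Matrix.mul_apply, Fin.sum_univ_two]
  · field_simp
  · field_simp
    linear_combination -hdet
  · field_simp

variable {D : ChevalleyDatum} {S : Sys D} {K : Type u} [Field K] {ι : Type}

/-- A rank-one homomorphism of an orbit. -/
structure RankOne (E : Tw S K ι) (p : ℕ) (i : ι) where
  F : Type u
  [fld : Field F]
  [fin : Fintype F]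
  [chr : CharP F p]
  φ : SL(2, F) →* GL D.Idx K
  upper_mem : ∀ t, φ (upper t) ∈ E.X i
  onto : ∀ x ∈ E.X i, ∃ t, φ (upper t) = x
  inj : ∀ t, φ (upper t) = 1 → t = 0
  map_weyl : φ weyl = (S.wN K (E.blk i) : GL D.Idx K)
  dia_mem : ∀ a : Fˣ, φ (dia a) ∈ E.T
  scale : ∀ τ ∈ E.T, ∃ e : Fˣ, ∀ t : F, τ * φ (upper t) * τ⁻¹ = φ (upper ((e : F) * t)) ∧
    τ * φ (lower t) * τ⁻¹ = φ (lower ((e : F)⁻¹ * t))

attribute [instance] RankOne.fld RankOne.fin RankOne.chr

namespace RankOne

variable {E : Tw S K ι} {p : ℕ} {i : ι} (R : RankOne E p i)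

theorem mem_G (g : SL(2, R.F)) : R.φ g ∈ E.G := by
  show g ∈ E.G.comap R.φ
  refine sl2_mem (fun t => E.X_mem i (R.upper_mem t)) (fun a => E.T_mem (R.dia_mem a)) ?_ g
  show R.φ weyl ∈ E.G
  rw [R.map_weyl]
  exact E.n_mem i

theorem wN_not_mem_borel (E : Tw S K ι) (i : ι) :
    (S.wN K (E.blk i) : GL D.Idx K) ∉ D.borelSubgroup K := by
  intro hB
  have hd : (S.wN K (E.blk i) : GL D.Idx K) ∈ D.diagonalSubgroup K := by
    rw [← S.borel_inf_monomial K]
    exact ⟨hB, SetLike.coe_mem _⟩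
  have hp1 := S.perm_of_mem_hSub K (g := S.wN K (E.blk i)) hd
  rw [S.perm_wN] at hp1
  obtain ⟨a, ha⟩ := List.exists_mem_of_ne_nil _ (E.blk_ne i)
  have hp := S.simple_pos a a.isLt
  have h := (E.blk_neg i (S.simpleF a) hp).mpr (E.cls_simple i a ha)
  rw [hp1, Equiv.Perm.one_apply] at h
  exact absurd h (not_lt.2 hp)

/-- Only diagonal elements map into the torus. -/
theorem exists_dia {g : SL(2, R.F)} (hg : R.φ g ∈ E.T) : ∃ a : R.Fˣ, g = dia a := by
  have hT : ∀ {x}, x ∈ E.T → x ∈ D.borelSubgroup K := fun hx => Subgroup.mem_sup_right (E.T_le hx)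
  have hU : ∀ t, R.φ (upper t) ∈ D.borelSubgroup K := fun t =>
    Subgroup.mem_sup_left (E.X_le_U i (R.upper_mem t)).1
  by_cases hc : g.1 1 0 = 0
  · obtain ⟨a, b, rfl⟩ := eq_dia_mul_upper g hc
    refine ⟨a, ?_⟩
    rw [map_mul] at hg
    have h1 : R.φ (upper b) ∈ D.posUnipotent K ⊓ D.diagonalSubgroup K :=
      ⟨(E.X_le_U i (R.upper_mem b)).1,
        by simpa using mul_mem (inv_mem (E.T_le (R.dia_mem a))) (E.T_le hg)⟩
    rw [S.posUnipotent_inf_diagonal K, Subgroup.mem_bot] at h1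
    rw [R.inj b h1, upper_zero', mul_one]
  · obtain ⟨x, y, a, rfl⟩ := sl2_bruhat g hc
    refine absurd ?_ (wN_not_mem_borel E i)
    rw [map_mul, map_mul, map_mul, R.map_weyl] at hg
    have h2 := mul_mem (mul_mem (inv_mem (mul_mem (hU x) (hT (R.dia_mem a)))) (hT hg))
      (inv_mem (hU y))
    simpa [mul_assoc] using h2

end RankOne

section

variable [Fintype ι] {E : Tw S K ι} {p r : ℕ} (R : ∀ i, RankOne E p i)
  (hT : E.T ≤ ⨆ i, ((R i).φ.comp diaHom).range) (hU : IsPGroup p ↥(D.posUnipotent K ⊓ E.G))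
  {bl : ι → List ℕ} (hbl : ∀ i, (E.blk i).map (fun a : Fin D.rank => (a : ℕ)) = bl i)
  (m : ι → ι → ℕ) (hM : Tw.CoxOK D bl m)
  (hbraid : ∀ i j, i ≠ j → ∃ (a : ι) (ν : List ι),
    (List.replicate (m i j) [i, j]).flatten = i :: ν ++ a :: ν.reverse ∧
      ∀ c ∈ E.blk a, (E.wW ν (S.simpleF c) : ℕ) ∈ E.cls i)
  (hcls : ∀ i, ∀ r ∈ E.cls i, ∀ h : r < D.nroots, ∃ c ∈ E.blk i, D.simple (c : ℕ) = r)
  {Γ : Type u} [Group Γ] [Finite Γ] {π : Γ →* GL D.Idx K} (hp : p.Prime) (hr : r.Prime)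
  (hne : r ≠ p) (hrange : π.range = E.G) (hc : π.ker ≤ Subgroup.center Γ) (hA : IsPGroup r π.ker)
include R hT hU hbl hM hbraid hcls hp hr hne hrange hc hA

/-- The part of the kernel inside the derived group and the torus fit into the abstract torus. -/
theorem card_ker_inf_commutator :
    Nat.card ↥(π.ker ⊓ commutator Γ) * Nat.card E.T ∣ ∏ i, Nat.card (R i).Fˣ := by
  classical
  haveI := Fact.mk hp
  choose ψ hψ hψp using fun i => exists_hom_lift hp hr hne hc hA
    (noMult_sl2 (F := (R i).F) hp hr hne) (closure_pElts_sl2 p) (R i).φ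
    fun l => hrange ▸ (R i).mem_G l
  have hpi : ∀ {g h : Γ}, g ∈ pElts p Γ → h ∈ pElts p Γ → π g = π h → g = h :=
    fun {g h} => pElt_uniq hp hr hne hc hA
  have hup : ∀ i t, ψ i (upper t) ∈ pElts p Γ := fun i t => hψp i _ (upper_mem_pElts t)
  have hlo : ∀ i t, ψ i (lower t) ∈ pElts p Γ := fun i t => hψp i _ (lower_mem_pElts t)
  -- elements over the torus act on the rank-one lifts
  have hact : ∀ i (g : Γ), π g ∈ E.T → ∃ e : (R i).Fˣ,
      g * ψ i weyl * g⁻¹ = ψ i (dia e) * ψ i weyl ∧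
        ∀ a, g * ψ i (dia a) * g⁻¹ = ψ i (dia a) := by
    intro i g hg
    obtain ⟨e, he⟩ := (R i).scale _ hg
    have h1 : ∀ t, g * ψ i (upper t) * g⁻¹ = ψ i (upper ((e : (R i).F) * t)) := fun t =>
      hpi (conj_mem_pElts (hup i t) g) (hup i _)
        (by rw [map_mul, map_mul, map_inv, hψ, hψ, (he t).1])
    have h2 : ∀ t, g * ψ i (lower t) * g⁻¹ = ψ i (lower ((e : (R i).F)⁻¹ * t)) := fun t =>
      hpi (conj_mem_pElts (hlo i t) g) (hlo i _)
        (by rw [map_mul, map_mul, map_inv, hψ, hψ, (he t).2])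
    have h3 : ∀ b : (R i).Fˣ, g * ψ i (dia b * weyl) * g⁻¹ = ψ i (dia (e * b) * weyl) := by
      intro b
      rw [← nEl_eq, ← nEl_eq, nEl, nEl, map_mul, map_mul, map_mul, map_mul, ← conj_mul, ← conj_mul,
        h1, h2, Units.val_mul, mul_inv, mul_neg]
    have hw : g * ψ i weyl * g⁻¹ = ψ i (dia e) * ψ i weyl := by
      have := h3 1
      rwa [dia_one, one_mul, mul_one, map_mul] at this
    refine ⟨e, hw, fun a => ?_⟩
    have ha := h3 a
    rw [map_mul, map_mul, ← conj_mul, hw, mul_comm e, dia_mul, map_mul, ← mul_assoc] at ha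
    exact mul_right_cancel (mul_right_cancel ha)
  -- the lifted torus
  let f : ∀ i, (R i).Fˣ →* Γ := fun i => (ψ i).comp diaHom
  have hfT : ∀ i a, π (f i a) ∈ E.T := fun i a => by
    show π (ψ i (dia a)) ∈ _
    rw [hψ]
    exact (R i).dia_mem a
  have hcomm : Pairwise fun i j => ∀ (x : (R i).Fˣ) (y : (R j).Fˣ), Commute (f i x) (f j y) := by
    intro i j _ x y
    obtain ⟨e, -, h⟩ := hact i (f j y) (hfT j y)
    exact (mul_inv_eq_iff_eq_mul.1 (h x)).symm
  let Ψ : (∀ i, (R i).Fˣ) →* Γ := MonoidHom.noncommPiCoprod f hcomm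
  set Th := Ψ.range with hTh
  have hThsup : Th = ⨆ i, (f i).range := MonoidHom.noncommPiCoprod_range f
  have hmemT : ∀ i a, ψ i (dia a) ∈ Th := fun i a =>
    hThsup ▸ Subgroup.mem_iSup_of_mem i ⟨a, rfl⟩
  have hTmap : Th.map π = E.T := by
    have hfr : ∀ i, π.comp (f i) = (R i).φ.comp diaHom := fun i =>
      MonoidHom.ext fun a => hψ i (dia a)
    rw [hThsup, Subgroup.map_iSup]
    simp_rw [MonoidHom.map_range, hfr]
    exact le_antisymm (iSup_le fun i => by rintro _ ⟨a, rfl⟩; exact (R i).dia_mem a) hT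
  have hπT : ∀ {t}, t ∈ Th → π t ∈ E.T := fun ht => hTmap ▸ Subgroup.mem_map_of_mem π ht
  -- the complement over the unipotent group
  obtain ⟨M, hMmem, hMk, hMmap⟩ := exists_complement hp hr hne hc hA hU
    (by rw [hrange]; exact inf_le_right)
  let n : ι → Γ := fun i => ψ i weyl
  have hπn : ∀ i, π (n i) = (S.wN K (E.blk i) : GL D.Idx K) := fun i => by
    rw [hψ, (R i).map_weyl]
  have hnsq : ∀ i, n i * n i ∈ Th := fun i => by
    show ψ i weyl * ψ i weyl ∈ Th
    rw [← map_mul, weyl_sq]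
    exact hmemT i _
  have hnconj : ∀ i, ∀ t ∈ Th, n i * t * (n i)⁻¹ ∈ Th := by
    intro i t ht
    obtain ⟨e, he, -⟩ := hact i t (hπT ht)
    have e1 : t = ψ i (dia e) * (n i * t * (n i)⁻¹) := by
      show t = ψ i (dia e) * (ψ i weyl * t * (ψ i weyl)⁻¹)
      rw [← mul_assoc, ← mul_assoc, ← he]
      group
    rw [eq_inv_mul_iff_mul_eq.2 e1.symm]
    exact mul_mem (inv_mem (hmemT i e)) ht
  -- words
  have hπW : ∀ L : List ι, π (L.map n).prod = (E.nW L : GL D.Idx K) := by
    intro L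
    induction L with
    | nil => simp [Tw.nW_nil]
    | cons i L ih => rw [List.map_cons, List.prod_cons, map_mul, ih, hπn, E.nW_cons, Subgroup.coe_mul]
  have hWinv : ∀ L : List ι, (E.nW L : GL D.Idx K)⁻¹ * (E.nW L : GL D.Idx K) = 1 := fun L =>
    inv_mul_cancel _
  -- conjugation along a word carrying one orbit to another
  have hmove : ∀ (a b : ι) (L : List ι), (∀ c ∈ E.blk a, (E.wW L (S.simpleF c) : ℕ) ∈ E.cls b) →
      ∀ x ∈ E.X a, (E.nW L : GL D.Idx K) * x * (E.nW L : GL D.Idx K)⁻¹ ∈ E.X b := by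
    intro a b L hL x hx
    refine E.X_full b _ ?_ (E.σ_mem (mul_mem (mul_mem (E.nW_mem L) (E.X_mem a hx))
      (inv_mem (E.nW_mem L))))
    have hle : uSub D K (E.cls a) ≤ (uSub D K (E.cls b)).comap
        (MulAut.conj (E.nW L : GL D.Idx K)).toMonoidHom := by
      refine S.uSub_le K fun k hk h1 h2 t => ?_
      rw [Subgroup.mem_comap, MulEquiv.coe_toMonoidHom, MulAut.conj_apply]
      obtain ⟨c, hcb, hcs⟩ := hcls a k hk h2
      obtain ⟨κ, -, hκ⟩ := S.conj_root K (E.nW L) (S.simpleF c)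
      have e := (hκ t).1
      rw [show ((S.simpleF c : Fin D.nroots) : ℕ) = k from hcs, E.perm_nW] at e
      rw [e]
      have hb := hL c hcb
      obtain ⟨d, hd, hds⟩ := hcls b _ hb (Fin.isLt _)
      exact S.xG_mem_uSub K hb (hds ▸ S.simple_pos d d.isLt) (Fin.isLt _) _
    exact hle (E.X_le a hx)
  -- the braid relations
  have hbr : ∀ (a b : ι) (ν : List ι), (∀ c ∈ E.blk a, (E.wW ν (S.simpleF c) : ℕ) ∈ E.cls b) →
      E.wW (b :: ν ++ a :: ν.reverse) = 1 →
      (n b)⁻¹ * ((ν.map n).prod * n a * ((ν.map n).prod)⁻¹) ∈ Th := by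
    intro a b ν hν hW
    set v := (ν.map n).prod with hv
    set w := (E.nW ν : GL D.Idx K) with hw
    have hvw : π v = w := hπW ν
    choose s hs using fun t => (R b).onto _ (hmove a b ν hν _ ((R a).upper_mem t))
    -- the product lies in the torus
    have hy : π ((n b)⁻¹ * (v * n a * v⁻¹)) ∈ E.T := by
      rw [map_mul, map_mul, map_mul, map_inv, map_inv, hvw, hπn, hπn, ← E.diag_inf]
      refine Subgroup.mem_inf.2 ⟨?_, mul_mem (inv_mem (E.n_mem b)) (mul_mem (mul_mem (E.nW_mem ν) (E.n_mem a))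
        (inv_mem (E.nW_mem ν)))⟩
      let y : ↥(D.monomialSubgroup K) :=
        (S.wN K (E.blk b))⁻¹ * (E.nW ν * S.wN K (E.blk a) * (E.nW ν)⁻¹)
      show (y : GL D.Idx K) ∈ D.diagonalSubgroup K
      have hy1 : S.perm K y = 1 := by
        rw [E.wW_append, E.wW_cons, E.wW_cons, E.wW_reverse] at hW
        simp only [y, map_mul, map_inv, S.perm_wN, E.perm_nW, E.wperm_blk_inv]
        simpa [mul_assoc] using hW
      have hy2 : y ∈ hSub D K := by rw [← S.ker_perm K]; exact hy1
      exact hy2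
    -- lower elements go to lower elements
    obtain ⟨e, he⟩ := (R b).scale _ hy
    have hlow : ∀ t, ∃ s', v * ψ a (lower t) * v⁻¹ = ψ b (lower s') := by
      intro t
      refine ⟨-((e : (R b).F) * s (-t)),
        hpi (conj_mem_pElts (hlo a t) v) (hlo b _) ?_⟩
      rw [map_mul, map_mul, map_inv, hvw, hψ, hψ, lower_eq, lower_eq, map_mul, map_mul, map_inv,
        map_mul, map_mul, map_inv, (R a).map_weyl, (R b).map_weyl, neg_neg, ← (he _).1, hs,
        map_mul, map_mul, map_mul, map_inv, map_inv, hvw, hπn, hπn, hw]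
      group
    -- so the reflection goes to an element of the lifted rank-one group
    obtain ⟨s₁, hs₁⟩ := hlow (-1)
    have hup' : ∀ t, v * ψ a (upper t) * v⁻¹ = ψ b (upper (s t)) := fun t =>
      hpi (conj_mem_pElts (hup a t) v) (hup b _)
        (by rw [map_mul, map_mul, map_inv, hvw, hψ, hψ, hs])
    have hweyl : (weyl : SL(2, (R a).F)) = upper 1 * lower (-1) * upper 1 := by
      have := nEl_eq (1 : (R a).Fˣ)
      rw [dia_one, one_mul, nEl, Units.val_one, inv_one] at this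
      exact this.symm
    have hin : (n b)⁻¹ * (v * n a * v⁻¹) =
        ψ b (weyl⁻¹ * (upper (s 1) * lower s₁ * upper (s 1))) := by
      show (ψ b weyl)⁻¹ * (v * ψ a weyl * v⁻¹) = _
      rw [map_mul, map_inv, map_mul, map_mul, ← hup', ← hs₁, hweyl, map_mul, map_mul]
      group
    rw [hin] at hy ⊢
    rw [hψ] at hy
    obtain ⟨c, hc'⟩ := (R b).exists_dia hy
    rw [hc']
    exact hmemT b c
  have hrel : ∀ L : List ι, E.wW L = 1 → (L.map n).prod ∈ Th := by
    let Nn : Subgroup Γ := Subgroup.normalizer (Th : Set Γ)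
    haveI : (Th.subgroupOf Nn).Normal := Subgroup.normal_subgroupOf_of_le_normalizer le_rfl
    have hnN : ∀ i, n i ∈ Nn := fun i => Subgroup.mem_normalizer_iff.2 fun t =>
      ⟨fun ht => hnconj i t ht, fun ht => by
        have h := mul_mem (mul_mem (inv_mem (hnsq i)) (hnconj i _ ht)) (hnsq i)
        have e : (n i * n i)⁻¹ * (n i * (n i * t * (n i)⁻¹) * (n i)⁻¹) * (n i * n i) = t := by group
        rwa [e] at h⟩
    let g : ι → ↥Nn ⧸ Th.subgroupOf Nn := fun i => QuotientGroup.mk ⟨n i, hnN i⟩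
    have hg1 : ∀ x : Nn, ((x : ↥Nn ⧸ Th.subgroupOf Nn) = 1) ↔ (x : Γ) ∈ Th := fun x => by
      rw [QuotientGroup.eq_one_iff, Subgroup.mem_subgroupOf]
    let nn : List ι → ↥Nn := fun L => (L.map fun i => (⟨n i, hnN i⟩ : Nn)).prod
    have hnn : ∀ L, (nn L : Γ) = (L.map n).prod := fun L => by
      rw [← Subgroup.coe_subtype, map_list_prod, List.map_map]; rfl
    have hgL : ∀ L, (L.map g).prod = (nn L : ↥Nn ⧸ Th.subgroupOf Nn) := fun L => by
      rw [← QuotientGroup.mk'_apply, map_list_prod, List.map_map]; rfl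
    have hsqg : ∀ i, g i * g i = 1 := fun i => (hg1 _).2 (hnsq i)
    have hginv : ∀ i, (g i)⁻¹ = g i := fun i => inv_eq_of_mul_eq_one_right (hsqg i)
    have hrev : ∀ L : List ι, (L.reverse.map g).prod = ((L.map g).prod)⁻¹ := by
      intro L
      induction L with
      | nil => simp
      | cons i L ih => simp [List.reverse_cons, ih, hginv, ← List.map_reverse]
    have hii : ∀ i, m i i = 1 := by
      intro i
      obtain ⟨h0, h⟩ := hM i i
      by_contra h1
      have hsame : SameW D bl (List.replicate 1 [i, i]).flatten [] := by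
        rw [← E.wW_eq_one_iff hbl]
        simp [Tw.wW_cons, Tw.wW_nil, E.wperm_blk_sq i]
      exact h1 ((h 1 (by omega) one_pos).1 hsame).symm
    have hlift : ∀ i j, (g i * g j) ^ m i j = 1 := by
      intro i j
      by_cases hij : i = j
      · subst hij; rw [hii, pow_one, hsqg]
      obtain ⟨a, ν, hword, hν⟩ := hbraid i j hij
      have e : (g i * g j) ^ m i j = ((List.replicate (m i j) [i, j]).flatten.map g).prod := by
        rw [List.map_flatten, List.map_replicate, List.prod_flatten, List.map_replicate,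
          List.prod_replicate]
        simp
      have hW : E.wW (i :: ν ++ a :: ν.reverse) = 1 := by
        rw [← hword, E.wW_eq_one_iff hbl]
        exact ((hM i j).2 _ (Nat.lt_succ_self _) (hM i j).1).mpr rfl
      have h1 := hbr a i ν hν hW
      rw [e, hword]
      simp only [List.map_append, List.map_cons, List.prod_append, List.prod_cons, hrev]
      have h2 : (g i)⁻¹ * ((ν.map g).prod * g a * ((ν.map g).prod)⁻¹) = 1 := by
        rw [hgL, ← QuotientGroup.mk_inv, ← QuotientGroup.mk_inv, ← QuotientGroup.mk_mul,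
          ← QuotientGroup.mk_mul, ← QuotientGroup.mk_mul, hg1]
        simpa [hnn] using h1
      rw [hginv] at h2
      simpa [mul_assoc] using h2
    let eqv := Equiv.ofBijective _ E.sElem_bijective
    let Mx : CoxeterMatrix ι := (CfsgLib.BNPair.coxMatrix E.bnPair).reindex eqv.symm
    have hMx : ∀ i j, CfsgLib.BNPair.coxMatrix E.bnPair (E.sElem i) (E.sElem j) = m i j := by
      intro i j
      rw [CfsgLib.BNPair.coxMatrix_apply, ← E.wCls_single, ← E.wCls_single, ← E.wCls_append]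
      obtain ⟨h0, h⟩ := hM i j
      rw [orderOf_eq_iff h0]
      refine ⟨?_, fun k hk hk0 => ?_⟩
      · rw [← E.wCls_pow, E.wCls_eq_one_iff, E.wW_eq_one_iff hbl]
        exact (h _ (Nat.lt_succ_self _) h0).mpr rfl
      · rw [← E.wCls_pow, ne_eq, E.wCls_eq_one_iff, E.wW_eq_one_iff hbl, List.singleton_append,
          h k (by omega) hk0]
        omega
    have hlift' : (CfsgLib.BNPair.coxMatrix E.bnPair).IsLiftable fun s => g (eqv.symm s) := by
      intro s t
      obtain ⟨i, rfl⟩ := E.sElem_bijective.2 s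
      obtain ⟨j, rfl⟩ := E.sElem_bijective.2 t
      rw [hMx]
      simp only [eqv, Equiv.ofBijective_symm_apply_apply]
      exact hlift i j
    let h := (CfsgLib.BNPair.coxSystem E.bnPair).lift ⟨_, hlift'⟩
    have hh : ∀ L, h (E.wCls L) = (L.map g).prod := by
      intro L
      induction L with
      | nil => rw [(E.wCls_eq_one_iff []).2 E.wW_nil, map_one, List.map_nil, List.prod_nil]
      | cons i L ih =>
        rw [show i :: L = [i] ++ L from rfl, E.wCls_append, map_mul, ih, E.wCls_single,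
          ← CfsgLib.BNPair.coxSystem_simple]
        simp [h, CoxeterSystem.lift_apply_simple, eqv]
    intro L hL
    have h1 := hh L
    rw [(E.wCls_eq_one_iff L).2 hL, map_one, hgL, eq_comm, hg1, hnn] at h1
    exact h1
  have hMu : ∀ g, ∀ x ∈ M, π (g * x * g⁻¹) ∈ D.posUnipotent K ⊓ E.G → g * x * g⁻¹ ∈ M :=
    fun g x hx h => (hMmem _).2 ⟨conj_mem_pElts ((hMmem x).1 hx).1 g, h⟩
  have hrone : ∀ i, ∀ x ∈ M, π x ∈ E.X i → x ≠ 1 → ∃ x' ∈ M, ∃ t ∈ Th, ∃ x'' ∈ M,
      π x'' ∈ E.X i ∧ n i * x * (n i)⁻¹ = x' * n i * t * x'' := by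
    intro i x hx hxX h1
    obtain ⟨t, ht⟩ := (R i).onto _ hxX
    obtain rfl : x = ψ i (upper t) := hpi ((hMmem x).1 hx).1 (hup i t) (by rw [hψ, ht])
    have hX : ∀ s, π (ψ i (upper s)) ∈ E.X i := fun s => by rw [hψ]; exact (R i).upper_mem s
    have hM' : ∀ s, ψ i (upper s) ∈ M := fun s =>
      (hMmem _).2 ⟨hup i s, E.X_le_U i (hX s)⟩
    have ht0 : t ≠ 0 := fun e => h1 (by rw [e, upper_zero', map_one])
    refine ⟨_, hM' (-t⁻¹), _, hmemT i (Units.mk0 t ht0), _, hM' (-t⁻¹), hX _, ?_⟩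
    show ψ i weyl * ψ i (upper t) * (ψ i weyl)⁻¹ = _
    rw [← map_inv, ← map_mul, ← map_mul, ← map_mul, ← map_mul, ← map_mul]
    exact congrArg (ψ i) (weyl_upper (Units.mk0 t ht0))
  let P : Lifts E π :=
    { M := M, Th := Th, n := n, M_map := hMmap, M_inj := hMk, M_conj := hMu, Th_map := hTmap,
      π_n := hπn, n_sq := hnsq, n_conj := hnconj, rel := hrel, rank_one := hrone }
  have h1 : Nat.card ↥(π.ker ⊓ commutator Γ) ∣ Nat.card ↥(π.ker ⊓ Th) :=
    Subgroup.card_dvd_of_le (P.ker_inf_commutator_le hc hrange)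
  have h2 : Nat.card ↥(π.ker ⊓ Th) * Nat.card E.T = Nat.card Th := by
    have h := Subgroup.card_eq_card_quotient_mul_card_subgroup (π.ker.subgroupOf Th)
    rw [h, mul_comm]
    congr 1
    · let f : Th →* GL D.Idx K := π.comp Th.subtype
      have hk : f.ker = π.ker.subgroupOf Th := rfl
      rw [← hk, Nat.card_congr (QuotientGroup.quotientKerEquivRange f).toEquiv,
        MonoidHom.range_comp, Subgroup.range_subtype, hTmap]
    · rw [Nat.card_congr (Subgroup.subgroupOfEquivOfLe inf_le_right).toEquiv.symm]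
      rw [Subgroup.inf_subgroupOf_right]
  have h3 : Nat.card Th ∣ ∏ i, Nat.card (R i).Fˣ := by
    rw [← Nat.card_pi]
    exact Subgroup.card_range_dvd Ψ
  exact ((mul_dvd_mul_right h1 _).trans (dvd_of_eq h2)).trans h3

end

end CfsgLib.SchurTwisted
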