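import Cfsg.Agent.SchurTwisted.D4Flag

/-!
Elements of the torus of `³D₄(q)` separating the layers, for `q ≥ 3`.
-/

set_option autoImplicit false

namespace CfsgLib.SchurTwisted.D4

open Cfsg.Lie CfsgLib.Chevalley CfsgLib.TwistedLie CfsgLib.TwistedLie.D4

local notation "S" => sysD4

variable {K : Type*} [Field K] [Fintype K] {q : ℕ} (hq : IsPrimePow q) (hK : Fintype.card K = q ^ 3)

/-- The norm to the fixed field. -/
def nm (q : ℕ) (u : Kˣ) : Kˣ := u * u ^ q * u ^ (q ^ 2)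

/-- The torus parameters with given values on the two orbits. -/
noncomputable def cT (q : ℕ) (u z : Kˣ) : ℕ → Kˣ := cJ q u * Pi.mulSingle 1 z

omit [Fintype K] in
theorem nm_mul (u v : Kˣ) : nm q (u * v) = nm q u * nm q v := by
  simp only [nm, mul_pow]; ac_rfl

omit [Fintype K] in
theorem nm_pow (u : Kˣ) (n : ℕ) : nm q (u ^ n) = nm q u ^ n := by
  induction n with
  | zero => simp [nm]
  | succ n ih => rw [pow_succ, pow_succ, nm_mul, ih]

omit [Fintype K] in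
theorem nm_inv (u : Kˣ) : nm q u⁻¹ = (nm q u)⁻¹ := by
  simp only [nm, inv_pow, mul_inv]

omit [Fintype K] in
theorem nm_eq_pow (u : Kˣ) : nm q u = u ^ (1 + q + q ^ 2) := by
  rw [nm, pow_add, pow_add, pow_one]

omit [Fintype K] in
theorem nm_fixed_elt {w : Kˣ} (hw : w ^ q = w) : nm q w = w ^ 3 := by
  rw [nm, sq q, pow_mul, hw, hw]
  simp [pow_succ]

theorem cT_vals (u z : Kˣ) :
    torusVal chevD4 (cT q u z) 14 = z ^ 2 * (nm q u)⁻¹ ∧
    torusVal chevD4 (cT q u z) 18 = u ^ 2 * z⁻¹ ∧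
    torusVal chevD4 (cT q u z) 19 = u ^ 2 * z * (nm q u)⁻¹ ∧
    torusVal chevD4 (cT q u z) 17 = nm q u * (u ^ 2)⁻¹ ∧
    torusVal chevD4 (cT q u z) 22 = nm q u * z⁻¹ ∧
    torusVal chevD4 (cT q u z) 23 = z := by
  have e0 : cT q u z 0 = u := by simp [cT, cJ]
  have e1 : cT q u z 1 = z := by simp [cT, cJ]
  have e2 : cT q u z 2 = u ^ q := by simp [cT, cJ]
  have e3 : cT q u z 3 = u ^ q ^ 2 := by simp [cT, cJ]
  refine ⟨?_, ?_, ?_, ?_, ?_, ?_⟩
  · rw [tv14, e0, e1, e2, e3, zpow_two, nm, mul_inv, mul_inv, pow_two z]; ac_rfl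
  · rw [tv18, e0, e1, zpow_two, pow_two]
  · rw [torusVal4 (cT q u z) 19 1 1 (-1) (-1) (by decide +kernel) (by decide +kernel)
      (by decide +kernel) (by decide +kernel), e0, e1, e2, e3]
    simp only [zpow_one, zpow_neg, nm, mul_inv, pow_two u]
    calc u * z * (u ^ q)⁻¹ * (u ^ q ^ 2)⁻¹
        = u * (u * u⁻¹) * z * (u ^ q)⁻¹ * (u ^ q ^ 2)⁻¹ := by rw [mul_inv_cancel, mul_one]
      _ = _ := by ac_rfl
  · rw [torusVal4 (cT q u z) 17 (-1) 0 1 1 (by decide +kernel) (by decide +kernel)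
      (by decide +kernel) (by decide +kernel), e0, e1, e2, e3]
    simp only [zpow_one, zpow_neg, zpow_zero, mul_one, nm, mul_inv, pow_two u]
    calc u⁻¹ * u ^ q * u ^ q ^ 2 = u⁻¹ * (u⁻¹ * u) * u ^ q * u ^ q ^ 2 := by
          rw [inv_mul_cancel, mul_one]
      _ = _ := by ac_rfl
  · rw [torusVal4 (cT q u z) 22 1 (-1) 1 1 (by decide +kernel) (by decide +kernel)
      (by decide +kernel) (by decide +kernel), e0, e1, e2, e3]
    simp only [zpow_one, zpow_neg, nm]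
    ac_rfl
  · rw [torusVal4 (cT q u z) 23 0 1 0 0 (by decide +kernel) (by decide +kernel)
      (by decide +kernel) (by decide +kernel), e1]
    simp

include hq hK

theorem nm_fixed (u : Kˣ) : nm q u ^ q = nm q u := by
  have h3 : u ^ (q ^ 3) = u := by
    have := FiniteField.pow_card (u : K)
    rw [hK] at this
    exact Units.ext (by rw [Units.val_pow_eq_pow_val, this])
  rw [nm, mul_pow, mul_pow, ← pow_mul, ← pow_mul, ← pow_succ q 2, h3, sq q]
  ac_rfl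

theorem cT_mem {u z : Kˣ} (hz : z ^ q = z) : cT q u z ∈ Cset K q := by
  refine mul_mem (cJ_mem_Cset hq hK u) ⟨?_, by simp, by simp, by simp⟩
  rw [Pi.mulSingle_eq_same, hz]

/-- Every unit is a fixed one times a fourth power. -/
theorem exists_fixed_mul_pow_four (y : Kˣ) : ∃ w v : Kˣ, w ^ q = w ∧ y = w * v ^ 4 := by
  have hodd : (q ^ 2 + q + 1) % 2 = 1 := by
    rcases Nat.even_or_odd q with h | h
    · obtain ⟨k, rfl⟩ := h
      rw [Nat.add_mod, Nat.add_mod ((k + k) ^ 2), Nat.pow_mod]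
      simp [← two_mul, Nat.mul_mod_right]
    · obtain ⟨k, rfl⟩ := h
      rw [Nat.add_mod, Nat.add_mod ((2 * k + 1) ^ 2), Nat.pow_mod]
      simp [Nat.add_mod, Nat.mul_mod_right]
  have hco : Nat.gcd (1 + q + q ^ 2) 4 = 1 := by
    refine Nat.Coprime.pow_right 2 (m := 2) ?_
    rw [Nat.coprime_two_right, Nat.odd_iff]
    omega
  have hb := Nat.gcd_eq_gcd_ab (1 + q + q ^ 2) 4
  rw [hco] at hb
  set i := Nat.gcdA (1 + q + q ^ 2) 4
  set j := Nat.gcdB (1 + q + q ^ 2) 4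
  refine ⟨nm q y ^ i, y ^ j, ?_, ?_⟩
  · rw [← zpow_natCast, ← zpow_mul, mul_comm, zpow_mul, zpow_natCast, nm_fixed hq hK]
  · rw [nm_eq_pow]
    simp only [← zpow_natCast, ← zpow_mul, ← zpow_add]
    rw [mul_comm j]
    exact (zpow_one y).symm.trans (congrArg (y ^ ·) hb)

/-- On a layer of three roots the torus induces all scalars. -/
theorem exists_scalar {k : Fin 6} (hk : isShort k = true) (y : Kˣ) :
    ∃ c ∈ Cset K q, torusVal chevD4 c (rep k) = y := by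
  obtain ⟨w, v, hw, rfl⟩ := exists_fixed_mul_pow_four hq hK y
  have hwi : w⁻¹ ^ q = w⁻¹ := by rw [inv_pow, hw]
  have hnf := nm_fixed hq hK
  rcases (by decide : ∀ k : Fin 6, isShort k = true → k = 1 ∨ k = 2 ∨ k = 3) k hk with rfl | rfl | rfl
  · refine ⟨cT q (v ^ 2) w⁻¹, cT_mem hq hK hwi, ?_⟩
    show torusVal chevD4 _ 18 = _
    rw [(cT_vals _ _).2.1, inv_inv, ← pow_mul, mul_comm]
  · refine ⟨cT q (v ^ 2) (w * nm q (v ^ 2)), cT_mem hq hK (by rw [mul_pow, hw, hnf]), ?_⟩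
    show torusVal chevD4 _ 19 = _
    rw [(cT_vals _ _).2.2.1, ← pow_mul]
    calc v ^ (2 * 2) * (w * nm q (v ^ 2)) * (nm q (v ^ 2))⁻¹
        = v ^ (2 * 2) * w * (nm q (v ^ 2) * (nm q (v ^ 2))⁻¹) := by ac_rfl
      _ = _ := by rw [mul_inv_cancel, mul_one, mul_comm]
  · obtain ⟨l, hl⟩ : ∃ l, l = w * nm q (v ^ 2) := ⟨_, rfl⟩
    have hlf : l ^ q = l := by rw [hl, mul_pow, hw, hnf]
    refine ⟨cT q (l * (v ^ 2)⁻¹) 1, cT_mem hq hK (one_pow q), ?_⟩
    show torusVal chevD4 _ 17 = _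
    rw [(cT_vals _ _).2.2.2.1, nm_mul, nm_fixed_elt hlf, nm_inv, mul_pow, inv_pow, ← pow_mul,
      mul_inv, inv_inv]
    calc l ^ 3 * (nm q (v ^ 2))⁻¹ * ((l ^ 2)⁻¹ * v ^ (2 * 2))
        = (l ^ 3 * (l ^ 2)⁻¹) * (nm q (v ^ 2))⁻¹ * v ^ (2 * 2) := by ac_rfl
      _ = l * (nm q (v ^ 2))⁻¹ * v ^ 4 := by
          rw [pow_succ' l 2, mul_inv_cancel_right]
      _ = _ := by rw [hl, mul_inv_cancel_right]

/-- An element of norm one not of order two. -/
theorem exists_norm_one : ∃ u : Kˣ, nm q u = 1 ∧ u ^ 2 ≠ 1 := by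
  classical
  obtain ⟨g, hg⟩ := IsCyclic.exists_generator (α := Kˣ)
  have hord : orderOf g = q ^ 3 - 1 := by
    rw [orderOf_eq_card_of_forall_mem_zpowers hg, Nat.card_eq_fintype_card, Fintype.card_units, hK]
  have hq2 := hq.two_le
  refine ⟨g ^ (q - 1), ?_, ?_⟩
  · rw [nm_eq_pow, ← pow_mul, ← orderOf_dvd_iff_pow_eq_one, hord]
    refine dvd_of_eq ?_
    zify [Nat.one_le_pow 3 q (by omega), show 1 ≤ q by omega]
    ring
  · intro h
    rw [← pow_mul, ← orderOf_dvd_iff_pow_eq_one, hord] at h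
    have h1 := Nat.le_of_dvd (by omega) h
    have h2 : 4 * q ≤ q ^ 3 := by
      calc 4 * q ≤ (q * q) * q := Nat.mul_le_mul_right q (Nat.mul_le_mul hq2 hq2)
        _ = q ^ 3 := by ring
    omega

/-- An element of norm different from one. -/
theorem exists_norm_ne (hq3 : 3 ≤ q) : ∃ g : Kˣ, nm q g ≠ 1 := by
  classical
  obtain ⟨g, hg⟩ := IsCyclic.exists_generator (α := Kˣ)
  have hord : orderOf g = q ^ 3 - 1 := by
    rw [orderOf_eq_card_of_forall_mem_zpowers hg, Nat.card_eq_fintype_card, Fintype.card_units, hK]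
  refine ⟨g, fun h => ?_⟩
  rw [nm_eq_pow, ← orderOf_dvd_iff_pow_eq_one, hord] at h
  have h1 := Nat.le_of_dvd (by positivity) h
  have h2 : 3 * (q * q) ≤ q ^ 3 := by
    rw [show q ^ 3 = q * (q * q) by ring]; exact Nat.mul_le_mul_right _ hq3
  nlinarith [Nat.sub_add_cancel (Nat.one_le_pow 3 q (by omega)), sq q]

/-- An element fixed-point free on a given layer. -/
theorem exists_fpf (hq3 : 3 ≤ q) (k : Fin 6) :
    ∃ c ∈ Cset K q, (torusVal chevD4 c (rep k) : K) ≠ 1 := by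
  obtain ⟨g, hg⟩ := exists_norm_ne hq hK hq3
  obtain ⟨u, hu1, hu2⟩ := exists_norm_one hq hK
  have hz := nm_fixed hq hK g
  simp only [ne_eq, Units.val_eq_one]
  fin_cases k
  · refine ⟨cT q g 1, cT_mem hq hK (one_pow q), ?_⟩
    show ¬ torusVal chevD4 _ 14 = 1
    rw [(cT_vals _ _).1, one_pow, one_mul, inv_eq_one]
    exact hg
  · refine ⟨cT q u 1, cT_mem hq hK (one_pow q), ?_⟩
    show ¬ torusVal chevD4 _ 18 = 1
    rw [(cT_vals _ _).2.1]
    simpa using hu2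
  · refine ⟨cT q u 1, cT_mem hq hK (one_pow q), ?_⟩
    show ¬ torusVal chevD4 _ 19 = 1
    rw [(cT_vals _ _).2.2.1, hu1]
    simpa using hu2
  · refine ⟨cT q u 1, cT_mem hq hK (one_pow q), ?_⟩
    show ¬ torusVal chevD4 _ 17 = 1
    rw [(cT_vals _ _).2.2.2.1, hu1]
    simpa using hu2
  · refine ⟨cT q 1 (nm q g), cT_mem hq hK hz, ?_⟩
    show ¬ torusVal chevD4 _ 22 = 1
    rw [(cT_vals _ _).2.2.2.2.1, show nm q (1 : Kˣ) = 1 by simp [nm], one_mul, inv_eq_one]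
    exact hg
  · refine ⟨cT q 1 (nm q g), cT_mem hq hK hz, ?_⟩
    show ¬ torusVal chevD4 _ 23 = 1
    rw [(cT_vals _ _).2.2.2.2.2]
    exact hg

/-- Two different layers are separated by the torus. -/
theorem exists_separating (hq3 : 3 ≤ q) (j k : Fin 6) (hjk : j ≠ k) :
    ∃ c ∈ Cset K q, (torusVal chevD4 c (rep j) = 1 ∧ torusVal chevD4 c (rep k) ≠ 1) ∨
      (torusVal chevD4 c (rep k) = 1 ∧ torusVal chevD4 c (rep j) ≠ 1) := by
  wlog hlt : j < k generalizing j k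
  · obtain ⟨c, hc, h⟩ := this k j hjk.symm (lt_of_le_of_ne (not_lt.mp hlt) hjk.symm)
    exact ⟨c, hc, h.symm⟩
  obtain ⟨g, hg⟩ := exists_norm_ne hq hK hq3
  obtain ⟨u, hu1, hu2⟩ := exists_norm_one hq hK
  set z := nm q g with hz'
  have hz : z ^ q = z := nm_fixed hq hK g
  have hnz : nm q z = z ^ 3 := nm_fixed_elt hz
  -- the five kinds of elements
  have hB : ∀ r s, rep j = r → rep k = s → (r = 14 ∨ r = 22 ∨ r = 23) ∧ (s = 18 ∨ s = 19 ∨ s = 17) ∨
      (s = 14 ∨ s = 22 ∨ s = 23) ∧ (r = 18 ∨ r = 19 ∨ r = 17) →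
      ∃ c ∈ Cset K q, (torusVal chevD4 c (rep j) = 1 ∧ torusVal chevD4 c (rep k) ≠ 1) ∨
      (torusVal chevD4 c (rep k) = 1 ∧ torusVal chevD4 c (rep j) ≠ 1) := by
    intro r s hr hs h
    obtain ⟨v14, v18, v19, v17, v22, v23⟩ := cT_vals (q := q) u (1 : Kˣ)
    have hl : ∀ r, r = 14 ∨ r = 22 ∨ r = 23 → torusVal chevD4 (cT q u 1) r = 1 := by
      rintro r (rfl | rfl | rfl) <;> simp [v14, v22, v23, hu1]
    have hsh : ∀ r, r = 18 ∨ r = 19 ∨ r = 17 → torusVal chevD4 (cT q u 1) r ≠ 1 := by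
      rintro r (rfl | rfl | rfl) <;> simp [v18, v19, v17, hu1, hu2]
    refine ⟨cT q u 1, cT_mem hq hK (one_pow q), ?_⟩
    rw [hr, hs]
    rcases h with ⟨a, b⟩ | ⟨a, b⟩
    · exact Or.inl ⟨hl r a, hsh s b⟩
    · exact Or.inr ⟨hl s a, hsh r b⟩
  fin_cases j <;> fin_cases k <;> first
    | exact absurd hlt (by decide)
    | (refine hB _ _ rfl rfl ?_; decide)
    | skip
  · -- `a`, `a + 3b`
    refine ⟨cT q (g ^ 2) z, cT_mem hq hK hz, Or.inl ?_⟩
    show torusVal chevD4 _ 14 = 1 ∧ torusVal chevD4 _ 22 ≠ 1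
    obtain ⟨v14, -, -, -, v22, -⟩ := cT_vals (q := q) (g ^ 2) z
    rw [v14, v22, nm_pow, ← hz']
    exact ⟨mul_inv_cancel _, by rw [pow_two, mul_inv_cancel_right]; exact hg⟩
  · refine ⟨cT q (g ^ 2) z, cT_mem hq hK hz, Or.inl ?_⟩
    show torusVal chevD4 _ 14 = 1 ∧ torusVal chevD4 _ 23 ≠ 1
    obtain ⟨v14, -, -, -, -, v23⟩ := cT_vals (q := q) (g ^ 2) z
    rw [v14, v23, nm_pow, ← hz']
    exact ⟨mul_inv_cancel _, hg⟩
  · refine ⟨cT q z (z ^ 2), cT_mem hq hK (by rw [← pow_mul, mul_comm, pow_mul, hz]), Or.inl ?_⟩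
    show torusVal chevD4 _ 18 = 1 ∧ torusVal chevD4 _ 19 ≠ 1
    obtain ⟨-, v18, v19, -⟩ := cT_vals (q := q) z (z ^ 2)
    rw [v18, v19, hnz]
    refine ⟨mul_inv_cancel _, ?_⟩
    rw [← pow_add, show 2 + 2 = 3 + 1 from rfl, pow_add, mul_comm (z ^ 3), mul_inv_cancel_right,
      pow_one]
    exact hg
  · refine ⟨cT q 1 z, cT_mem hq hK hz, Or.inr ?_⟩
    show torusVal chevD4 _ 17 = 1 ∧ torusVal chevD4 _ 18 ≠ 1
    obtain ⟨-, v18, -, v17, -⟩ := cT_vals (q := q) 1 z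
    rw [v18, v17]
    exact ⟨by simp [nm], by simpa using hg⟩
  · refine ⟨cT q 1 z, cT_mem hq hK hz, Or.inr ?_⟩
    show torusVal chevD4 _ 17 = 1 ∧ torusVal chevD4 _ 19 ≠ 1
    obtain ⟨-, -, v19, v17, -⟩ := cT_vals (q := q) 1 z
    rw [v19, v17]
    exact ⟨by simp [nm], by simpa [nm] using hg⟩
  · refine ⟨cT q g z, cT_mem hq hK hz, Or.inl ?_⟩
    show torusVal chevD4 _ 22 = 1 ∧ torusVal chevD4 _ 23 ≠ 1
    obtain ⟨-, -, -, -, v22, v23⟩ := cT_vals (q := q) g z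
    rw [v22, v23, ← hz']
    exact ⟨mul_inv_cancel _, hg⟩

/-- A scalar avoiding the exceptional values. -/
theorem exists_good_scalar : ∃ s : K, s ≠ 0 ∧ 1 + s ≠ 0 ∧ s * s + s + 1 ≠ 0 := by
  classical
  have h5 : 4 < Fintype.card K := by
    rw [hK]
    calc 4 < 2 ^ 3 := by norm_num
      _ ≤ q ^ 3 := Nat.pow_le_pow_left hq.two_le 3
  by_cases h : ∃ r : K, r * r + r + 1 = 0
  · obtain ⟨r, hr⟩ := h
    have hlt : ({0, -1, r, -1 - r} : Finset K).card < (Finset.univ : Finset K).card :=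
      lt_of_le_of_lt Finset.card_le_four (by rwa [Finset.card_univ])
    obtain ⟨s, -, hs⟩ := Finset.exists_mem_notMem_of_card_lt_card hlt
    simp only [Finset.mem_insert, Finset.mem_singleton, not_or] at hs
    refine ⟨s, hs.1, fun e => hs.2.1 (by linear_combination e), fun e => ?_⟩
    have : (s - r) * (s - (-1 - r)) = 0 := by linear_combination e - hr
    rcases mul_eq_zero.1 this with e' | e'
    · exact hs.2.2.1 (sub_eq_zero.1 e')
    · exact hs.2.2.2 (sub_eq_zero.1 e')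
  · push Not at h
    obtain ⟨s, -, hs⟩ := Finset.exists_mem_notMem_of_card_lt_card
      (show ({0, -1} : Finset K).card < (Finset.univ : Finset K).card from
        lt_of_le_of_lt Finset.card_le_two (by rw [Finset.card_univ]; omega))
    simp only [Finset.mem_insert, Finset.mem_singleton, not_or] at hs
    exact ⟨s, hs.1, fun e => hs.2 (by linear_combination e), h s⟩

end CfsgLib.SchurTwisted.D4
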