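import Cfsg.Agent.SchurTwisted.Flag
import Cfsg.Agent.SchurTwisted.D4Torus

/-!
The multiplier of `³D₄(q)`, `q ≥ 3`, at the characteristic: an invariant complement over the Borel
subgroup along the six layers.
-/

set_option autoImplicit false

namespace CfsgLib.SchurTwisted.D4

open Cfsg.Lie CfsgLib.Chevalley CfsgLib.TwistedLie CfsgLib.TwistedLie.D4
open CfsgLib.SchurClassical
open scoped commutatorElement

universe u

local notation "S" => sysD4

variable {K : Type u} [Field K] [Fintype K] {q : ℕ} (hq : IsPrimePow q) (hK : Fintype.card K = q ^ 3)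

include hq hK

/-- The parameter of a root element of a fixed root in the group is fixed. -/
theorem fixed_of_mem {r : ℕ} (hr : r ∈ ([14, 22, 23, 1, 9] : List ℕ)) {s : K}
    (h : Sys.xG S K r s ∈ (tw hq hK).G) : s ^ q = s := by
  obtain ⟨hlt, he, hp⟩ := (by decide +kernel : ∀ r ∈ ([14, 22, 23, 1, 9] : List ℕ),
    r < chevD4.nroots ∧ symE 2785620 r = 1 ∧ pA r = r) r hr
  have h1 : sigma hq hK (Sys.xG S K r s) = Sys.xG S K r s := (tw hq hK).σ_mem h
  rw [sigma_x hq hK hlt he, hp] at h1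
  exact xG_inj S K hlt h1

/-- A root element of a fixed root is a conjugate of one of the fundamental ones. -/
theorem root_conj {r r0 : ℕ} {L : List (Fin 2)} (h0 : r0 = 14 ∨ r0 = 9)
    (hL : wL chevD4 (wdN L) r0 = r) (hr : r ∈ ([14, 22, 23, 1, 9] : List ℕ)) :
    ∃ κ : K, κ ^ q = κ ∧ κ ≠ 0 ∧ ∀ t : K,
      ((tw hq hK).nW L : GL chevD4.Idx K) * Sys.xG S K r0 t * ((tw hq hK).nW L : GL chevD4.Idx K)⁻¹ =
        Sys.xG S K r (κ * t) := by
  have hr0 : r0 < chevD4.nroots := by rcases h0 with rfl | rfl <;> decide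
  obtain ⟨κ, hκ, hc⟩ := Sys.conj_root S K ((tw hq hK).nW L) ⟨r0, hr0⟩
  have e : ((Sys.perm S K ((tw hq hK).nW L) ⟨r0, hr0⟩ : Fin chevD4.nroots) : ℕ) = r := by
    rw [Tw.perm_nW, ← hL]; exact wperm_flat _ _
  refine ⟨κ, ?_, hκ, fun t => by rw [(hc t).1, e]⟩
  have hm : Sys.xG S K r (κ * 1) ∈ (tw hq hK).G := by
    rw [← e, ← (hc 1).1]
    exact mul_mem (mul_mem ((tw hq hK).nW_mem _) (fix_mem h0 (one_pow q))) (inv_mem ((tw hq hK).nW_mem _))
  simpa using fixed_of_mem hq hK hr hm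

theorem root_mem {r : ℕ} (hr : r ∈ ([14, 22, 23, 1, 9] : List ℕ)) {s : K} (hs : s ^ q = s) :
    Sys.xG S K r s ∈ (tw hq hK).G := by
  obtain ⟨r0, L, h0, hL⟩ : ∃ r0 L, (r0 = 14 ∨ r0 = 9) ∧ wL chevD4 (wdN L) r0 = r := by
    simp only [List.mem_cons, List.not_mem_nil, or_false] at hr
    rcases hr with rfl | rfl | rfl | rfl | rfl
    exacts [⟨14, [], Or.inl rfl, by decide +kernel⟩, ⟨14, [0], Or.inl rfl, by decide +kernel⟩,
      ⟨14, [1, 0], Or.inl rfl, by decide +kernel⟩, ⟨9, [0], Or.inr rfl, by decide +kernel⟩,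
      ⟨9, [], Or.inr rfl, by decide +kernel⟩]
  obtain ⟨κ, hκq, hκ, hc⟩ := root_conj hq hK h0 hL hr
  rw [show s = κ * (κ⁻¹ * s) by rw [mul_inv_cancel_left₀ hκ], ← hc]
  exact mul_mem (mul_mem ((tw hq hK).nW_mem _)
    (fix_mem h0 (by rw [mul_pow, inv_pow, hκq, hs]))) (inv_mem ((tw hq hK).nW_mem _))

theorem ee_long {k : Fin 6} (hk : isShort k = false) {t : K} (ht : Dom q k t) :
    ∃ s : K, s ^ q = s ∧ ee hq hK k t = Sys.xG S K (rep k) s := by
  obtain ⟨hL, hr⟩ := (by decide +kernel : ∀ k : Fin 6, isShort k = false →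
    wL chevD4 (wdN (layW k)) 14 = rep k ∧ rep k ∈ ([14, 22, 23, 1, 9] : List ℕ)) k hk
  obtain ⟨κ, hκq, -, hc⟩ := root_conj hq hK (Or.inl rfl) hL hr
  exact ⟨κ * t, by rw [mul_pow, hκq, ht hk], by
    rw [ee, base, hk, if_neg (by simp)]; exact hc t⟩

theorem NN_le_B1 (n : ℕ) : NN hq hK n ≤ (tw hq hK).B1 :=
  (inf_le_inf_right _ (uSub_le_posUnipotent K _)).trans (tw hq hK).U_le_B1

omit [Fintype K] hq hK in
theorem tor_conj_mul {A : Type*} [Group A] {t e e' w : A} (h : t * e * t⁻¹ = e') :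
    t * (e * w) * t⁻¹ * (e * w)⁻¹ = e' * e⁻¹ * (e * (t * w * t⁻¹ * w⁻¹) * e⁻¹) := by
  rw [← h]; group

/-- A torus element moving the coordinate of a layer fixes nothing on it. -/
theorem fpf_of_ne (k : Fin 6) {c : ℕ → Kˣ} (hc' : c ∈ Cset K q)
    (hne : (torusVal chevD4 c (rep k) : K) ≠ 1) :
    FPF (tor chevD4 K c) (NN hq hK k) (NN hq hK ((k : ℕ) + 1)) := by
  intro u hu htu
  obtain ⟨s, hs, hsu⟩ := exists_coord hq hK hu
  obtain ⟨w, hw, rfl⟩ : ∃ w, w ∈ NN hq hK ((k : ℕ) + 1) ∧ u = ee hq hK k s * w :=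
    ⟨_, hsu, (mul_inv_cancel_left _ _).symm⟩
  have htor : tor chevD4 K c ∈ (tw hq hK).B1 := (tw hq hK).T_le_B1 ⟨c, hc', rfl⟩
  have h1 : ee hq hK k s ∈ (tw hq hK).B1 := NN_le_B1 hq hK _ (ee_mem_NN hq hK hs)
  rw [tor_conj_mul (tor_conj_ee hq hK hc' k s), ee_inv, ee_add] at htu
  have h2 : ee hq hK k s * (tor chevD4 K c * w * (tor chevD4 K c)⁻¹ * w⁻¹) * ee hq hK k (-s) ∈
      NN hq hK ((k : ℕ) + 1) := by
    rw [← ee_inv]
    exact NN_conj hq hK (by omega) h1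
      (mul_mem (NN_conj hq hK (by omega) htor hw) (inv_mem hw))
  have h5 := mul_mem htu (inv_mem h2)
  rw [mul_inv_cancel_right] at h5
  have h3 := eq_zero_of_mem hq hK h5
  have h4 : ((torusVal chevD4 c (rep k) : K) - 1) * s = 0 := by
    rw [← h3]; ring
  rcases mul_eq_zero.1 h4 with h4 | h4
  · exact absurd (sub_eq_zero.1 h4) hne
  · rw [h4, ee_zero, one_mul]; exact hw

/-- A torus element fixing the coordinate of a layer fixes it. -/
theorem fixesLayer_of_eq (k : Fin 6) {c : ℕ → Kˣ} (hc' : c ∈ Cset K q)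
    (h1 : torusVal chevD4 c (rep k) = 1) :
    FixesLayer (tor chevD4 K c) (NN hq hK k) (NN hq hK ((k : ℕ) + 1)) := by
  intro u hu
  obtain ⟨s, hs, hsu⟩ := exists_coord hq hK hu
  obtain ⟨w, hw, rfl⟩ : ∃ w, w ∈ NN hq hK ((k : ℕ) + 1) ∧ u = ee hq hK k s * w :=
    ⟨_, hsu, (mul_inv_cancel_left _ _).symm⟩
  have htor : tor chevD4 K c ∈ (tw hq hK).B1 := (tw hq hK).T_le_B1 ⟨c, hc', rfl⟩
  have h2 := tor_conj_ee hq hK hc' k s
  rw [h1, Units.val_one, one_mul] at h2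
  rw [tor_conj_mul h2, mul_inv_cancel, one_mul]
  exact NN_conj hq hK (by omega) (NN_le_B1 hq hK _ (ee_mem_NN hq hK hs))
    (mul_mem (NN_conj hq hK (by omega) htor hw) (inv_mem hw))

variable {Γ : Type u} [Group Γ] {π : Γ →* GL chevD4.Idx K}
  (hrange : π.range = (tw hq hK).G) (hc : π.ker ≤ Subgroup.center Γ)

include hrange hc

/-- Lifts of the elements of a long root subgroup commute. -/
theorem long_commute {k : Fin 6} (hk : isShort k = false) {X Y : Γ} {t u : K}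
    (hu : Dom q k u) (ht : Dom q k t) (hX : π X = ee hq hK k t) (hY : π Y = ee hq hK k u) :
    X * Y = Y * X := by
  obtain ⟨a, b, hab⟩ : ∃ a b, (a ∈ ([14, 22, 23, 1, 9] : List ℕ) ∧ b ∈ ([14, 22, 23, 1, 9] : List ℕ)) ∧
      (a < chevD4.nroots ∧ b < chevD4.nroots ∧ b ≠ a ∧ b ≠ chevD4.neg a) ∧
      chevD4.commTerms a b = [(rep k, 1, 1, 1)] ∧ orthB chevD4 a (rep k) = true ∧
      orthB chevD4 b (rep k) = true := by
    rcases (by decide : ∀ k : Fin 6, isShort k = false → k = 0 ∨ k = 4 ∨ k = 5) k hk with rfl | rfl | rfl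
    exacts [⟨23, 1, by decide +kernel⟩, ⟨9, 23, by decide +kernel⟩, ⟨14, 22, by decide +kernel⟩]
  obtain ⟨⟨ha, hb⟩, ⟨ha', hb', hne, hneg⟩, hterms, oa, ob⟩ := hab
  obtain ⟨s, -, hXs⟩ := ee_long hq hK hk ht
  obtain ⟨w, hw, hYw⟩ := ee_long hq hK hk hu
  obtain ⟨A, hA⟩ : Sys.xG S K a w ∈ π.range := hrange ▸ root_mem hq hK ha hw
  obtain ⟨B, hB⟩ : (Sys.xG S K b 1)⁻¹ ∈ π.range :=
    hrange ▸ inv_mem (root_mem hq hK hb (one_pow q))
  refine commute_of_comm hc (A₁ := B) (B₁ := A) ?_ ?_ ?_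
  · rw [hY, hYw, map_commutatorElement, hA, hB, commutatorElement_def, inv_inv]
    have h := Sys.xG_comm S K ha' hb' hne hneg (-w) (1 : K)
    have hword : Sys.wG S K (chevD4.commWord K a b (-w) 1) = Sys.xG S K (rep k) w := by
      simp only [ChevalleyDatum.commWord, hterms, List.map_cons, List.map_nil, pow_one, neg_neg]
      rw [wG_single]
      simp
    rw [hword, Sys.xG_inv, neg_neg] at h
    rw [Sys.xG_inv S K a w]
    calc Sys.xG S K (rep k) w
        = (Sys.xG S K b 1)⁻¹ * (Sys.xG S K b 1 * Sys.xG S K (rep k) w) := by rw [inv_mul_cancel_left]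
      _ = _ := by rw [← h]; group
  · rw [hX, hXs, hB, Sys.xG_inv]
    exact (orth_commute S K ob _ _).eq.symm
  · rw [hX, hXs, hA]
    exact (orth_commute S K oa _ _).eq.symm

/-- Lifts of a long layer commute modulo the complement below. -/
theorem long_comm_mod {k : Fin 6} (hk : isShort k = false) {M' : Subgroup Γ}
    (hM' : Compl π (tw hq hK).B1 (NN hq hK ((k : ℕ) + 1)) M') (a b : Γ)
    (ha : π a ∈ NN hq hK k) (hb : π b ∈ NN hq hK k) : ⁅a, b⁆ ∈ M' := by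
  have hB : ∀ {n : ℕ}, n ≤ 6 → NN hq hK n ≤ (tw hq hK).B1 := fun hn => fun x hx =>
    (tw hq hK).U_le_B1 ⟨uSub_le_posUnipotent K _ (Subgroup.mem_inf.1 hx).1, (Subgroup.mem_inf.1 hx).2⟩
  have hzero : ∀ n g : Γ, π n ∈ NN hq hK ((k : ℕ) + 1) → π g ∈ NN hq hK k → ⁅n, g⁆ ∈ M' := by
    intro n g hn hg
    obtain ⟨z, hz, m, hm, hz1, rfl⟩ := hM'.split hc hn
    rw [comm_congr hc (g' := m) (a' := g) (by rw [map_mul, hz1, one_mul]) rfl,
      show ⁅m, g⁆ = m * (g * m⁻¹ * g⁻¹) by simp only [commutatorElement_def]; group]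
    exact mul_mem hm (hM'.conj g (hB (by omega) hg) _ (inv_mem hm))
  obtain ⟨t, ht, hat⟩ := exists_coord hq hK ha
  obtain ⟨u, hu, hbu⟩ := exists_coord hq hK hb
  obtain ⟨X, hX⟩ : ee hq hK k t ∈ π.range := hrange ▸ ee_mem_G hq hK ht
  obtain ⟨Y, hY⟩ : ee hq hK k u ∈ π.range := hrange ▸ ee_mem_G hq hK hu
  have hn1 : π (X⁻¹ * a) ∈ NN hq hK ((k : ℕ) + 1) := by rwa [map_mul, map_inv, hX]
  have hn2 : π (Y⁻¹ * b) ∈ NN hq hK ((k : ℕ) + 1) := by rwa [map_mul, map_inv, hY]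
  have hXY : ⁅X, Y⁆ = 1 := commutatorElement_eq_one_iff_mul_comm.2
    (long_commute hq hK hrange hc hk hu ht hX hY)
  have hconj : ∀ g m, π g ∈ NN hq hK k → m ∈ M' → g * m * g⁻¹ ∈ M' := fun g m hg hm =>
    hM'.conj g (hB (by omega) hg) m hm
  have hXN : π X ∈ NN hq hK k := hX ▸ ee_mem_NN hq hK ht
  have hYN : π Y ∈ NN hq hK k := hY ▸ ee_mem_NN hq hK hu
  have h1 : ⁅X⁻¹ * a, b⁆ ∈ M' := hzero _ _ hn1 hb
  have h2 : ⁅Y⁻¹ * b, X⁆ ∈ M' := hzero _ _ hn2 hXN
  have e : ⁅a, b⁆ = X * ⁅X⁻¹ * a, b⁆ * X⁻¹ * (⁅X, Y⁆ * (Y * ⁅Y⁻¹ * b, X⁆⁻¹ * Y⁻¹)) := by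
    simp only [commutatorElement_def]; group
  rw [e, hXY, one_mul]
  exact mul_mem (hconj X _ hXN h1) (hconj Y _ hYN (inv_mem h2))

variable [Finite Γ]

/-- The invariant complement over the unipotent subgroup, for `q ≥ 3`. -/
theorem exists_compl (hq3 : 3 ≤ q) : ∀ n, n ≤ 6 →
    ∃ M, Compl π (tw hq hK).B1 (NN hq hK n) M := by
  set E := tw hq hK with hE
  have hB1 : E.B1 ≤ π.range := by rw [hrange]; exact E.B1_le.trans inf_le_right
  have hUB : chevD4.posUnipotent K ⊓ E.G ≤ E.B1 := E.U_le_B1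
  have hTB : E.T ≤ E.B1 := E.T_le_B1
  have hNU : ∀ n, NN hq hK n ≤ chevD4.posUnipotent K ⊓ E.G := fun n =>
    inf_le_inf_right _ (uSub_le_posUnipotent K _)
  have hTT : ∀ a ∈ E.T, ∀ b ∈ E.T, a * b = b * a := by
    rintro _ ⟨c, -, rfl⟩ _ ⟨d, -, rfl⟩
    rw [← map_mul, ← map_mul, mul_comm]
  intro n hn
  induction h : 6 - n generalizing n with
  | zero =>
    obtain rfl : n = 6 := by omega
    rw [NN_six]
    exact ⟨⊥, compl_bot _⟩
  | succ m ih =>
    obtain ⟨M', hM'⟩ := ih (n + 1) (by omega) (by omega)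
    obtain ⟨k, rfl⟩ : ∃ k : Fin 6, (k : ℕ) = n := ⟨⟨n, by omega⟩, rfl⟩
    have hnorm : ∀ j : ℕ, j < 7 → ∀ g ∈ E.B1, ∀ u ∈ NN hq hK j, g * u * g⁻¹ ∈ NN hq hK j :=
      fun j hj g hg u hu => NN_conj hq hK hj hg hu
    have hNB : NN hq hK k ≤ E.B1 := (hNU _).trans hUB
    have hab : ∀ a b : Γ, π a ∈ NN hq hK k → π b ∈ NN hq hK k → ⁅a, b⁆ ∈ M' := by
      cases hk : isShort k with
      | false => exact long_comm_mod hq hK hrange hc hk hM'
      | true =>
        have hd : ∀ x : K, Dom q k x := fun x h' => absurd (hk.symm.trans h') (by simp)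
        refine comm_of_scalar hc hM' (NN_le hq hK k) hNB hTB hB1 (hnorm _ (by omega)) (ee hq hK k)
          (fun x => ee_mem_NN hq hK (hd x)) (fun x y => ?_) (fun u hu => ?_) (fun v hv => ?_)
          (exists_good_scalar hq hK)
        · rw [← ee_add, inv_mul_cancel]; exact one_mem _
        · obtain ⟨t, -, ht⟩ := exists_coord hq hK hu
          exact ⟨t, ht⟩
        · obtain ⟨c, hc', hcv⟩ := exists_scalar hq hK hk (Units.mk0 v hv)
          refine ⟨tor chevD4 K c, ⟨c, hc', rfl⟩, fun x => ?_⟩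
          rw [tor_conj_ee hq hK hc', hcv, Units.val_mk0, inv_mul_cancel]
          exact one_mem _
    have hfpf : ∀ c ∈ Cset K q, (torusVal chevD4 c (rep k) : K) ≠ 1 →
        FPF (tor chevD4 K c) (NN hq hK k) (NN hq hK ((k : ℕ) + 1)) :=
      fun c hc' hne => fpf_of_ne hq hK k hc' hne
    have hfix : ∀ c ∈ Cset K q, torusVal chevD4 c (rep k) = 1 →
        FixesLayer (tor chevD4 K c) (NN hq hK k) (NN hq hK ((k : ℕ) + 1)) :=
      fun c hc' h1 => fixesLayer_of_eq hq hK k hc' h1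
    obtain ⟨c₀, hc₀, hne₀⟩ := exists_fpf hq hK hq3 k
    let Y : Set (GL chevD4.Idx K) := {x | ∃ j : Fin 6, j < k ∧ ∃ t, Dom q j t ∧ x = ee hq hK j t}
    have hYB : Y ⊆ E.B1 := by
      rintro _ ⟨j, -, t, ht, rfl⟩
      exact hUB (hNU _ (ee_mem_NN hq hK ht))
    have hgen : E.B1 ≤ Subgroup.closure ((E.T : Set (GL chevD4.Idx K)) ∪ NN hq hK k ∪ Y) := by
      refine sup_le ?_ fun x hx => Subgroup.subset_closure (Or.inl (Or.inl hx))
      rw [← NN_zero]
      refine (NN_gen hq hK 0 (by omega)).trans ((Subgroup.closure_le _).2 ?_)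
      rintro _ ⟨j, -, t, ht, rfl⟩
      by_cases hjk : j < k
      · exact Subgroup.subset_closure (Or.inr ⟨j, hjk, t, ht, rfl⟩)
      · refine Subgroup.subset_closure (Or.inl (Or.inr (Subgroup.mem_inf.2 ⟨?_, ee_mem_G hq hK ht⟩)))
        refine uSub_mono (fun r hr => ?_) (ee_mem_lay hq hK j t)
        exact (by decide +kernel : ∀ j k : Fin 6, k ≤ j → ∀ r ∈ layR j, r ∈ upR k) j k
          (not_lt.mp hjk) r hr
    obtain ⟨M, hM, -⟩ := exists_compl_step hc hM' (U := chevD4.posUnipotent K ⊓ E.G) (T := E.T)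
      (NN_le hq hK k) hNB hTB hUB (hnorm _ (by omega)) (hnorm _ (by omega)) hB1 hTT hab
      (t₀ := tor chevD4 K c₀) ⟨c₀, hc₀, rfl⟩ (hfpf c₀ hc₀ hne₀) hYB hgen (by
        rintro _ ⟨j, hjk, t, ht, rfl⟩
        obtain ⟨c, hc', ⟨hj, hk'⟩ | ⟨hk', hj⟩⟩ := exists_separating hq hK hq3 j k hjk.ne
        · refine Or.inl ⟨_, ⟨c, hc', rfl⟩, ?_, hfpf c hc' (by simpa using hk')⟩
          have h2 := tor_conj_ee hq hK hc' j t
          rw [hj, Units.val_one, one_mul, mul_inv_eq_iff_eq_mul] at h2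
          exact h2
        · set χ := (torusVal chevD4 c (rep j) : K) with hχ
          have hχ1 : χ - 1 ≠ 0 := sub_ne_zero.2 (by rw [hχ]; simpa using hj)
          refine Or.inr ⟨_, ⟨c, hc', rfl⟩, ee hq hK j (t / (χ - 1)), hNU _ (ee_mem_NN hq hK ?_),
            hfix c hc' hk', ?_⟩
          · intro hlong
            have hχq : χ ^ q = χ := by
              obtain ⟨s, -, hs⟩ := ee_long hq hK hlong (t := (1 : K)) fun _ => one_pow q
              have hm : tor chevD4 K c * ee hq hK j 1 * (tor chevD4 K c)⁻¹ ∈ E.G :=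
                mul_mem (mul_mem (E.T_mem ⟨c, hc', rfl⟩) (ee_mem_G hq hK fun _ => one_pow q))
                  (inv_mem (E.T_mem ⟨c, hc', rfl⟩))
              rw [hs, Sys.tor_conj S K c ((by decide : ∀ j : Fin 6, rep j < chevD4.nroots) j)] at hm
              have hr := (by decide +kernel : ∀ k : Fin 6, isShort k = false →
                rep k ∈ ([14, 22, 23, 1, 9] : List ℕ)) j hlong
              have h3 := fixed_of_mem hq hK hr hm
              obtain ⟨s', hs', hs''⟩ := ee_long hq hK hlong (t := (1 : K)) fun _ => one_pow q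
              obtain rfl : s = s' := xG_inj S K ((by decide : ∀ j : Fin 6, rep j < chevD4.nroots) j)
                (hs.symm.trans hs'')
              rw [mul_pow, hs'] at h3
              refine mul_right_cancel₀ (fun h0 => one_ne_zero (α := K) (ee_inj hq hK j ?_)) h3
              rw [hs, h0, Sys.xG_zero, ee_zero]
            rw [div_pow, ht hlong, show (χ - 1) ^ q = χ - 1 by
              rw [sub_eq_add_neg, addq hq hK, negq hq hK, one_pow, hχq]]
          · rw [tor_conj_ee hq hK hc', ← hχ, ee_inv, ee_add]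
            congr 1
            field_simp
            ring)
    exact ⟨M, hM⟩

omit hrange hc

/-- The kernel meets the derived group of the preimage of the Borel subgroup trivially. -/
theorem ker_inf_of_compl {p : ℕ} [CharP K p] (hp : p.Prime) (hrange : π.range = (tw hq hK).G)
    (hc : π.ker ≤ Subgroup.center Γ) (hA : IsPGroup p π.ker) {M : Subgroup Γ}
    (hM : Compl π (tw hq hK).B1 (NN hq hK 0) M) :
    π.ker ⊓ ⁅(tw hq hK).B1.comap π, (tw hq hK).B1.comap π⁆ = ⊥ := by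
  haveI := Fact.mk hp
  rw [NN_zero] at hM
  refine ker_inf_commutator_of_compl hc hA hM (by rw [hrange]; exact (tw hq hK).B1_le.trans inf_le_right)
    (tw hq hK).U_le_B1 (tw hq hK).T_le_B1 (fun g hg => (tw hq hK).mem_B1.mp hg) ?_ ?_
  · rintro _ ⟨c, -, rfl⟩ _ ⟨d, -, rfl⟩
    rw [← map_mul, ← map_mul, mul_comm]
  · rintro _ ⟨c, -, rfl⟩
    refine ⟨q ^ 3 - 1, ?_, ?_⟩
    · obtain ⟨n, hn⟩ : ∃ n, q = p ^ n := by
        obtain ⟨p', hp', hc', n, e⟩ := exists_char_pow hq three_ne_zero hK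
        exact ⟨n, by rw [e, CharP.eq K hc' ‹CharP K p›]⟩
      have h1 : 1 ≤ q ^ 3 := Nat.one_le_pow _ _ hq.pos
      have hn0 : n ≠ 0 := fun h0 => hq.ne_one (by rw [hn, h0, pow_zero])
      refine (hp.coprime_iff_not_dvd).2 fun hd => hp.not_dvd_one ?_
      have h2 : p ∣ q ^ 3 := dvd_pow (hn ▸ dvd_pow_self p hn0) three_ne_zero
      exact (Nat.dvd_add_right hd).1 (by rwa [Nat.sub_add_cancel h1])
    · classical
      rw [← map_pow]
      have hc1 : c ^ (q ^ 3 - 1) = 1 := funext fun j => by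
        rw [Pi.pow_apply, Pi.one_apply]
        refine Units.ext ?_
        rw [Units.val_pow_eq_pow_val, Units.val_one, ← hK]
        exact FiniteField.pow_card_sub_one_eq_one _ (c j).ne_zero
      rw [hc1, map_one]

omit [Finite Γ] in
/-- The index of the Borel subgroup is prime to `p`. -/
theorem not_dvd_index {p : ℕ} [CharP K p] (hp : p.Prime) :
    ¬ p ∣ ((tw hq hK).B1.subgroupOf (tw hq hK).G).index := by
  intro hd
  have hBG : (tw hq hK).B1 ≤ (tw hq hK).G := (tw hq hK).B1_le.trans inf_le_right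
  have hmul := Subgroup.card_mul_index ((tw hq hK).B1.subgroupOf (tw hq hK).G)
  rw [Nat.card_congr (Subgroup.subgroupOfEquivOfLe hBG).toEquiv, Tw.card_B1, card_U hq hK,
    card_group hq hK, mul_assoc, mul_assoc (q ^ 12), mul_assoc (q ^ 12)] at hmul
  have h := Nat.eq_of_mul_eq_mul_left (pow_pos hq.pos 12) hmul
  have hp' : p ∣ (q ^ 2 - 1) * (q ^ 6 - 1) * (q ^ 8 + q ^ 4 + 1) :=
    h ▸ dvd_mul_of_dvd_right hd _
  haveI := Fact.mk hp
  rw [← CharP.cast_eq_zero_iff (ZMod p) p] at hp'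
  · obtain ⟨n, hn⟩ : ∃ n, q = p ^ n := by
      obtain ⟨p', hp', hc', n, e⟩ := exists_char_pow hq three_ne_zero hK
      exact ⟨n, by rw [e, CharP.eq K hc' ‹CharP K p›]⟩
    have hn0 : n ≠ 0 := fun h0 => hq.ne_one (by rw [hn, h0, pow_zero])
    have hq0 : (q : ZMod p) = 0 := by
      rw [hn, Nat.cast_pow, ZMod.natCast_self, zero_pow hn0]
    rw [Nat.cast_mul, Nat.cast_mul, Nat.cast_sub (Nat.one_le_pow _ _ hq.pos),
      Nat.cast_sub (Nat.one_le_pow _ _ hq.pos)] at hp'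
    simp [hq0] at hp'

end CfsgLib.SchurTwisted.D4
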