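import Cfsg.Agent.SchurTwisted.D4Layers

/-!
The flag of the unipotent subgroup of `³D₄(q)`: coordinates, uniqueness and the action of the torus.
-/

set_option autoImplicit false

namespace CfsgLib.SchurTwisted.D4

open Cfsg.Lie CfsgLib.Chevalley CfsgLib.TwistedLie CfsgLib.TwistedLie.D4

set_option synthInstance.maxSize 1024
set_option synthInstance.maxHeartbeats 100000

local notation "S" => sysD4

/-- The layers from `n` on form an ideal of the positive roots. -/
theorem chkUp : ((List.range 7).all fun n => (List.range 24).all fun r => (List.range 24).all fun s =>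
    decide (r < 12) || decide (s < 12) || decide (s ∉ upR n) ||
      (chevD4.commTerms r s).all fun c => decide (c.1 ∈ upR n ∧ 12 ≤ c.1)) = true := by decide +kernel

theorem chkUp_spec {n r s : ℕ} (hn : n < 7) (hr : r < 24) (hs : s < 24) (h1 : 12 ≤ r) (h2 : 12 ≤ s)
    (hsu : s ∈ upR n) {c : ℕ × ℤ × ℕ × ℕ} (hc : c ∈ chevD4.commTerms r s) :
    c.1 ∈ upR n ∧ 12 ≤ c.1 := by
  have h := chkUp
  simp only [List.all_eq_true, List.mem_range, Bool.or_eq_true, decide_eq_true_eq] at h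
  rcases h n hn r hr s hs with ((h | h) | h) | h
  · omega
  · omega
  · exact absurd hsu h
  · exact h c hc

variable {K : Type*} [Field K] [Fintype K] {q : ℕ} (hq : IsPrimePow q) (hK : Fintype.card K = q ^ 3)

/-- The orbit of a layer. -/
def layOrb (k : Fin 6) : Fin 2 := if isShort k then 0 else 1

/-- The root elements of the fundamental orbit of a layer. -/
noncomputable def base (q : ℕ) (k : Fin 6) (t : K) : GL chevD4.Idx K :=
  if isShort k then P q t else Sys.xG S K 14 t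

/-- The parameters of a layer. -/
def Dom (q : ℕ) (k : Fin 6) (t : K) : Prop := isShort k = false → t ^ q = t

include hq hK

/-- The subgroup of the layers from `n` on. -/
noncomputable def NN (n : ℕ) : Subgroup (GL chevD4.Idx K) :=
  uSub chevD4 K {r | r ∈ upR n} ⊓ (tw hq hK).G

/-- The root elements of a layer. -/
noncomputable def ee (k : Fin 6) (t : K) : GL chevD4.Idx K :=
  ((tw hq hK).nW (layW k) : GL chevD4.Idx K) * base q k t * ((tw hq hK).nW (layW k) : GL chevD4.Idx K)⁻¹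

theorem base_mem_X {k : Fin 6} {t : K} (ht : Dom q k t) : base q k t ∈ (tw hq hK).X (layOrb k) := by
  cases h : isShort k with
  | false =>
    rw [base, layOrb, h, if_neg (by simp), if_neg (by simp)]
    exact (mem_XX1 hq hK).mpr ⟨t, ht h, rfl⟩
  | true =>
    rw [base, layOrb, h, if_pos rfl, if_pos rfl]
    exact (mem_XX0 hq hK).mpr ⟨t, rfl⟩

theorem base_add (k : Fin 6) (t u : K) : base q k t * base q k u = base q k (t + u) := by
  simp only [base]
  split_ifs
  · exact P_comm hq hK t u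
  · exact Sys.xG_add S K 14 t u

theorem ee_add (k : Fin 6) (t u : K) : ee hq hK k t * ee hq hK k u = ee hq hK k (t + u) := by
  rw [ee, ee, ee, ← base_add hq hK]; group

theorem ee_zero (k : Fin 6) : ee hq hK k 0 = 1 := by
  have h := ee_add hq hK k 0 0
  rw [add_zero] at h
  exact mul_eq_left.1 h

theorem ee_inv (k : Fin 6) (t : K) : (ee hq hK k t)⁻¹ = ee hq hK k (-t) :=
  inv_eq_of_mul_eq_one_right (by rw [ee_add, add_neg_cancel, ee_zero])

theorem ee_inj (k : Fin 6) : Function.Injective (ee hq hK k) := fun t u h => by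
  simp only [ee, mul_left_inj, mul_right_inj, base] at h
  split_ifs at h
  · exact P_inj hq hK h
  · exact xG_inj S K (by decide) h

theorem ee_mem_G {k : Fin 6} {t : K} (ht : Dom q k t) : ee hq hK k t ∈ (tw hq hK).G :=
  mul_mem (mul_mem ((tw hq hK).nW_mem _) ((tw hq hK).X_mem _ (base_mem_X hq hK ht)))
    (inv_mem ((tw hq hK).nW_mem _))

theorem ee_mem_lay (k : Fin 6) (t : K) : ee hq hK k t ∈ uSub chevD4 K {r | r ∈ layR k} := by
  have hx : ∀ r, (hr : r < chevD4.nroots) → (if isShort k then r ∈ [18, 13, 12] else r = 14) → ∀ u,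
      ((tw hq hK).nW (layW k) : GL chevD4.Idx K) * Sys.xG S K r u *
        ((tw hq hK).nW (layW k) : GL chevD4.Idx K)⁻¹ ∈ uSub chevD4 K {r | r ∈ layR k} := by
    intro r hr hrk u
    obtain ⟨c, -, hcr⟩ := Sys.conj_root S K ((tw hq hK).nW (layW k)) ⟨r, hr⟩
    rw [(hcr u).1]
    have e : ((Sys.perm S K ((tw hq hK).nW (layW k)) ⟨r, hr⟩ : Fin chevD4.nroots) : ℕ) =
        wL chevD4 (wdN (layW k)) r := by
      rw [Tw.perm_nW]; exact wperm_flat _ _
    have hd := (by decide +kernel : ∀ k : Fin 6, ∀ r < 24, (if isShort k then r ∈ [18, 13, 12] else r = 14) →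
      wL chevD4 (wdN (layW k)) r ∈ layR k ∧ 12 ≤ wL chevD4 (wdN (layW k)) r) k r hr hrk
    refine Sys.xG_mem_uSub S K (P := {r | r ∈ layR k}) ?_ ?_ (Fin.isLt _) _
    · show _ ∈ layR k
      rw [e]; exact hd.1
    · rw [e]; exact hd.2
  cases h : isShort k with
  | false =>
    rw [ee, base, h, if_neg (by simp)]
    exact hx 14 (by decide) (by rw [h]; simp) t
  | true =>
    rw [ee, base, h, if_pos rfl, P, ← conj_mul, ← conj_mul]
    exact mul_mem (mul_mem (hx 18 (by decide) (by rw [h]; simp) _) (hx 13 (by decide) (by rw [h]; simp) _))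
      (hx 12 (by decide) (by rw [h]; simp) _)

theorem lay_onto {k : Fin 6} {u : GL chevD4.Idx K} (hu : u ∈ uSub chevD4 K {r | r ∈ layR k})
    (hG : u ∈ (tw hq hK).G) : ∃ t, Dom q k t ∧ u = ee hq hK k t := by
  set n := (tw hq hK).nW (layW k) with hn
  have hv : (n : GL chevD4.Idx K)⁻¹ * u * n ∈ uSub chevD4 K ((tw hq hK).cls (layOrb k)) := by
    have hle : uSub chevD4 K {r | r ∈ layR k} ≤
        (uSub chevD4 K ((tw hq hK).cls (layOrb k))).comap (MulAut.conj (n : GL chevD4.Idx K)⁻¹).toMonoidHom := by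
      refine Sys.uSub_le S K fun r hr h1 h2 t => ?_
      obtain ⟨c, -, hcr⟩ := Sys.conj_root S K n⁻¹ ⟨r, h2⟩
      rw [Subgroup.mem_comap, MulEquiv.coe_toMonoidHom, MulAut.conj_apply, ← Subgroup.coe_inv,
        show Sys.xG S K r t = Sys.xG S K ((⟨r, h2⟩ : Fin chevD4.nroots) : ℕ) t from rfl, (hcr t).1]
      have e : ((Sys.perm S K n⁻¹ ⟨r, h2⟩ : Fin chevD4.nroots) : ℕ) =
          wL chevD4 (wdN (layW k).reverse) r := by
        rw [map_inv, hn, Tw.perm_nW, ← Tw.wW_reverse]; exact wperm_flat _ _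
      obtain ⟨hd, hd'⟩ := (by decide +kernel : ∀ k : Fin 6, ∀ r < 24, r ∈ layR k →
        (∃ a ∈ blkF (layOrb k), chevD4.simple a = wL chevD4 (wdN (layW k).reverse) r) ∧
          12 ≤ wL chevD4 (wdN (layW k).reverse) r) k r h2 hr
      refine Sys.xG_mem_uSub S K (P := (tw hq hK).cls (layOrb k)) ?_ (e ▸ hd') (Fin.isLt _) _
      show ∃ a ∈ blkF (layOrb k), chevD4.simple a = _
      rw [e]; exact hd
    have := hle hu
    rwa [Subgroup.mem_comap, MulEquiv.coe_toMonoidHom, MulAut.conj_apply, inv_inv] at this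
  have hX := (tw hq hK).X_full _ _ hv ((tw hq hK).σ_mem (mul_mem (mul_mem (inv_mem
    ((tw hq hK).nW_mem _)) hG) ((tw hq hK).nW_mem _)))
  have hfin : ∃ t, Dom q k t ∧
      (n : GL chevD4.Idx K)⁻¹ * u * (n : GL chevD4.Idx K) = base q k t := by
    cases h : isShort k with
    | false =>
      rw [layOrb, h, if_neg (by simp)] at hX
      obtain ⟨t, ht, e⟩ := (mem_XX1 hq hK).mp hX
      exact ⟨t, fun _ => ht, by rw [base, h, if_neg (by simp)]; exact e⟩
    | true =>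
      rw [layOrb, h, if_pos rfl] at hX
      obtain ⟨t, e⟩ := (mem_XX0 hq hK).mp hX
      exact ⟨t, fun h' => absurd (h.symm.trans h') (by simp), by rw [base, h, if_pos rfl]; exact e⟩
  obtain ⟨t, ht, e⟩ := hfin
  exact ⟨t, ht, by rw [ee, ← e, ← hn]; group⟩

omit hq hK in
theorem upR_split (k : Fin 6) :
    {r | r ∈ layR k} ∪ {r | r ∈ upR ((k : ℕ) + 1)} = {r | r ∈ upR k} := by
  ext r
  simp only [Set.mem_union, Set.mem_ofPred_eq]
  constructor
  · rintro (h | h)
    · exact (by decide +kernel : ∀ k : Fin 6, ∀ r ∈ layR k, r ∈ upR k) k r h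
    · exact (by decide +kernel : ∀ k : Fin 6, ∀ r ∈ upR ((k : ℕ) + 1), r ∈ upR k) k r h
  · exact (by decide +kernel : ∀ k : Fin 6, ∀ r ∈ upR k, r ∈ layR k ∨ r ∈ upR ((k : ℕ) + 1)) k r

omit hq hK in
theorem lay_inf (k : Fin 6) :
    uSub chevD4 K {r | r ∈ layR k} ⊓ uSub chevD4 K {r | r ∈ upR ((k : ℕ) + 1)} = ⊥ := by
  rw [Sys.uSub_inf S K (closed_lay k) (closed_up (by omega))]
  refine uSub_empty_of fun r hr _ => ?_
  exact absurd hr.2 ((by decide +kernel : ∀ k : Fin 6, ∀ r ∈ layR k, r ∉ upR ((k : ℕ) + 1)) k r hr.1)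

theorem σ_up {n : ℕ} (hn : n < 7) {u : GL chevD4.Idx K} (hu : u ∈ uSub chevD4 K {r | r ∈ upR n}) :
    (tw hq hK).σ u ∈ uSub chevD4 K {r | r ∈ upR n} :=
  (tw hq hK).σ_uSub (fun s hs _ => (by decide +kernel : ∀ n < 7, ∀ s : Fin chevD4.nroots,
    (s : ℕ) ∈ upR n → (rho s : ℕ) ∈ upR n) n hn s hs) hu

theorem σ_lay (k : Fin 6) {u : GL chevD4.Idx K} (hu : u ∈ uSub chevD4 K {r | r ∈ layR k}) :
    (tw hq hK).σ u ∈ uSub chevD4 K {r | r ∈ layR k} :=
  (tw hq hK).σ_uSub (fun s hs _ => (by decide +kernel : ∀ k : Fin 6, ∀ s : Fin chevD4.nroots,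
    (s : ℕ) ∈ layR k → (rho s : ℕ) ∈ layR k) k s hs) hu

theorem NN_le (k : Fin 6) : NN hq hK ((k : ℕ) + 1) ≤ NN hq hK k :=
  inf_le_inf_right _ (uSub_mono fun r hr => by rw [← upR_split k]; exact Or.inr hr)

theorem ee_mem_NN {k : Fin 6} {t : K} (ht : Dom q k t) : ee hq hK k t ∈ NN hq hK k :=
  Subgroup.mem_inf.2 ⟨uSub_mono (fun r hr => by rw [← upR_split k]; exact Or.inl hr)
    (ee_mem_lay hq hK k t), ee_mem_G hq hK ht⟩

theorem exists_coord {k : Fin 6} {u : GL chevD4.Idx K} (hu : u ∈ NN hq hK k) :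
    ∃ t, Dom q k t ∧ (ee hq hK k t)⁻¹ * u ∈ NN hq hK ((k : ℕ) + 1) := by
  obtain ⟨hu1, huG⟩ := Subgroup.mem_inf.1 hu
  rw [← upR_split k] at hu1
  obtain ⟨p, hp, x, hx, e⟩ := Sys.uSub_union_mul S K (closed_lay k) (closed_up (by omega))
    (by rw [upR_split k]; exact closed_up (by omega)) hu1
  set E := tw hq hK with hE
  have h1 : E.σ p * E.σ x = p * x := by
    rw [← E.σ_mul p (E.uSub_mem_group hp) x (E.uSub_mem_group hx), ← e, E.σ_mem huG]
  have hkey : p⁻¹ * E.σ p = x * (E.σ x)⁻¹ := by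
    rw [inv_mul_eq_iff_eq_mul, ← mul_assoc, ← h1, mul_inv_cancel_right]
  have hb : p⁻¹ * E.σ p ∈ uSub chevD4 K {r | r ∈ layR k} ⊓
      uSub chevD4 K {r | r ∈ upR ((k : ℕ) + 1)} :=
    Subgroup.mem_inf.mpr ⟨mul_mem (inv_mem hp) (σ_lay hq hK k hp),
      hkey ▸ mul_mem hx (inv_mem (σ_up hq hK (by omega) hx))⟩
  rw [lay_inf k, Subgroup.mem_bot, inv_mul_eq_one] at hb
  have hpG : p ∈ E.G := by
    have hle : E.flipFix [0, 1, 0, 1, 0, 1] ≤ E.G := E.flipFix_le_G _
    refine hle ((E.mem_flipFix).2 ⟨?_, hb.symm⟩)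
    have hp' : p ∈ chevD4.posUnipotent K := uSub_le_posUnipotent K _ hp
    rw [← uSub_univ] at hp'
    refine Sys.uSub_le S K (fun r _ h1 h2 t => Sys.xG_mem_uSub S K ?_ h1 h2 t) hp'
    refine ⟨h2, ?_⟩
    rw [E.perm_nW]
    show (Sys.wperm S ([0, 1, 0, 1, 0, 1].flatMap blkF) ⟨r, h2⟩ : ℕ) < _
    rw [wperm_flat]
    exact (by decide +kernel : ∀ s : Fin chevD4.nroots, chevD4.nroots / 2 ≤ (s : ℕ) →
      wL chevD4 (wdN [0, 1, 0, 1, 0, 1]) (s : ℕ) < chevD4.nroots / 2) ⟨r, h2⟩ h1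
  obtain ⟨t, ht, rfl⟩ := lay_onto hq hK hp hpG
  refine ⟨t, ht, ?_⟩
  rw [e, inv_mul_cancel_left]
  refine Subgroup.mem_inf.2 ⟨hx, ?_⟩
  have : x = (ee hq hK k t)⁻¹ * u := by rw [e, inv_mul_cancel_left]
  rw [this]; exact mul_mem (inv_mem hpG) huG

theorem eq_zero_of_mem {k : Fin 6} {t : K} (h : ee hq hK k t ∈ NN hq hK ((k : ℕ) + 1)) : t = 0 := by
  have hb : ee hq hK k t ∈ uSub chevD4 K {r | r ∈ layR k} ⊓
      uSub chevD4 K {r | r ∈ upR ((k : ℕ) + 1)} :=
    ⟨ee_mem_lay hq hK k t, (Subgroup.mem_inf.1 h).1⟩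
  rw [lay_inf k, Subgroup.mem_bot, ← ee_zero hq hK k] at hb
  exact ee_inj hq hK k hb

theorem tor_conj_ee {c : ℕ → Kˣ} (hc : c ∈ Cset K q) (k : Fin 6) (t : K) :
    tor chevD4 K c * ee hq hK k t * (tor chevD4 K c)⁻¹ =
      ee hq hK k ((torusVal chevD4 c (rep k) : K) * t) := by
  set n := (tw hq hK).nW (layW k) with hn
  obtain ⟨c', hc', he⟩ := ((tw hq hK).T_word_conj (layW k) (t := tor chevD4 K c) ⟨c, hc, rfl⟩).2
  rw [← hn] at he
  have hbase : ∀ r, (hr : r < chevD4.nroots) → ∀ (hrk : wL chevD4 (wdN (layW k)) r = rep k),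
      torusVal chevD4 c' r = torusVal chevD4 c (rep k) := by
    intro r hr hrk
    obtain ⟨κ, hκ, hcr⟩ := Sys.conj_root S K n ⟨r, hr⟩
    have e : ((Sys.perm S K n ⟨r, hr⟩ : Fin chevD4.nroots) : ℕ) = rep k := by
      rw [hn, Tw.perm_nW, ← hrk]; exact wperm_flat _ _
    have h1 := (hcr (torusVal chevD4 c' r : K)).1
    have h2 : (n : GL chevD4.Idx K) * Sys.xG S K r (torusVal chevD4 c' r : K) * (n : GL chevD4.Idx K)⁻¹ =
        tor chevD4 K c * ((n : GL chevD4.Idx K) * Sys.xG S K r 1 * (n : GL chevD4.Idx K)⁻¹) *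
          (tor chevD4 K c)⁻¹ := by
      have h3 := Sys.tor_conj S K c' hr (1 : K)
      rw [mul_one, he] at h3
      rw [← h3]; group
    rw [h1, (hcr 1).1, Sys.tor_conj S K c (Fin.isLt _)] at h2
    have h4 := xG_inj S K (Fin.isLt _) h2
    rw [e, mul_one, mul_comm] at h4
    exact Units.ext (mul_right_cancel₀ hκ h4)
  have hconj : tor chevD4 K c' * base q k t * (tor chevD4 K c')⁻¹ =
      base q k ((torusVal chevD4 c (rep k) : K) * t) := by
    cases h : isShort k with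
    | false =>
      rw [base, base, h, if_neg (by simp), if_neg (by simp),
        Sys.tor_conj S K c' (show 14 < chevD4.nroots by decide), hbase 14 (by decide)
          ((by decide +kernel : ∀ k : Fin 6, isShort k = false →
            wL chevD4 (wdN (layW k)) 14 = rep k) k h)]
    | true =>
      rw [base, base, h, if_pos rfl, if_pos rfl, tor_conj_P hq hK hc', hbase 18 (by decide)
          ((by decide +kernel : ∀ k : Fin 6, isShort k = true →
            wL chevD4 (wdN (layW k)) 18 = rep k) k h)]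
  rw [ee, ee, ← hn, ← hconj, he]
  group

theorem NN_conj {n : ℕ} (hn : n < 7) {g : GL chevD4.Idx K} (hg : g ∈ (tw hq hK).B1)
    {u : GL chevD4.Idx K} (hu : u ∈ NN hq hK n) : g * u * g⁻¹ ∈ NN hq hK n := by
  obtain ⟨hu1, huG⟩ := Subgroup.mem_inf.1 hu
  refine Subgroup.mem_inf.2 ⟨?_, mul_mem (mul_mem ((tw hq hK).B1_le hg).2 huG)
    (inv_mem ((tw hq hK).B1_le hg).2)⟩
  obtain ⟨v, hv, t, ht, rfl⟩ := (tw hq hK).mem_B1.mp hg
  set Q := uSub chevD4 K {r | r ∈ upR n}
  have htQ : t * u * t⁻¹ ∈ Q := by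
    obtain ⟨c, -, rfl⟩ := ht
    have hle : Q ≤ Q.comap (MulAut.conj (tor chevD4 K c)).toMonoidHom := by
      refine Sys.uSub_le S K fun r hr h1 h2 s => ?_
      rw [Subgroup.mem_comap, MulEquiv.coe_toMonoidHom, MulAut.conj_apply, Sys.tor_conj S K c h2]
      exact Sys.xG_mem_uSub S K (P := {r | r ∈ upR n}) hr h1 h2 _
    exact hle hu1
  have hv' : v ∈ uSub chevD4 K Set.univ := by rw [uSub_univ]; exact hv.1
  have key : ∀ r, chevD4.nroots / 2 ≤ r → r < chevD4.nroots → ∀ a : K, ∀ w ∈ Q,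
      Sys.xG S K r a * w * (Sys.xG S K r a)⁻¹ ∈ Q := by
    intro r h1 h2 a w hw
    have hle : Q ≤ Q.comap (MulAut.conj (Sys.xG S K r a)).toMonoidHom := by
      refine Sys.uSub_le S K fun s hs g1 g2 b => ?_
      rw [Subgroup.mem_comap, MulEquiv.coe_toMonoidHom, MulAut.conj_apply, Sys.xG_inv]
      by_cases hrs : s = r
      · subst hrs
        rw [Sys.xG_add, Sys.xG_add]
        exact Sys.xG_mem_uSub S K (P := {r | r ∈ upR n}) hs g1 g2 _
      have hneg : s ≠ chevD4.neg r := fun e => by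
        have := (Sys.neg_half S r h2).mpr h1
        omega
      have h := Sys.xG_comm S K h2 g2 hrs hneg (-a) b
      rw [Sys.xG_inv, neg_neg] at h
      rw [h]
      refine mul_mem (Sys.xG_mem_uSub S K (P := {r | r ∈ upR n}) hs g1 g2 _)
        (Sys.wG_commWord_mem S K h2 g2 _ _ fun c hc => ?_)
      exact chkUp_spec hn h2 g2 h1 g1 hs hc
    exact hle hw
  let N' : Subgroup (GL chevD4.Idx K) := Subgroup.normalizer (Q : Set (GL chevD4.Idx K))
  have hN' : uSub chevD4 K Set.univ ≤ N' := by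
    refine Sys.uSub_le S K fun r _ h1 h2 a => Subgroup.mem_normalizer_iff.2 fun w => ⟨key r h1 h2 a w, ?_⟩
    intro hw
    have h := key r h1 h2 (-a) _ hw
    rw [← Sys.xG_inv] at h
    simpa [mul_assoc] using h
  have := (Subgroup.mem_normalizer_iff.mp (hN' hv') _).1 htQ
  rw [show v * t * u * (v * t)⁻¹ = v * (t * u * t⁻¹) * v⁻¹ by group]
  exact this

theorem NN_zero : NN hq hK 0 = chevD4.posUnipotent K ⊓ (tw hq hK).G := by
  refine congrArg (· ⊓ (tw hq hK).G) (le_antisymm (uSub_le_posUnipotent K _) ?_)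
  rw [← uSub_univ]
  exact Sys.uSub_le S K fun r _ h1 h2 t => Sys.xG_mem_uSub S K (P := {r | r ∈ upR 0})
    ((by decide +kernel : ∀ r < 24, 12 ≤ r → r ∈ upR 0) r h2 h1) h1 h2 t

theorem NN_six : NN hq hK 6 = ⊥ :=
  eq_bot_iff.2 (inf_le_left.trans (uSub_empty_of fun r hr _ => absurd hr
    (by rw [show upR 6 = [] by decide +kernel]; simp)).le)

/-- Generation by the root elements of the layers. -/
theorem NN_gen (n : ℕ) : n ≤ 6 → NN hq hK n ≤ Subgroup.closure
    {x | ∃ j : Fin 6, n ≤ (j : ℕ) ∧ ∃ t, Dom q j t ∧ x = ee hq hK j t} := by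
  intro hn
  induction h : 6 - n generalizing n with
  | zero =>
    obtain rfl : n = 6 := by omega
    rw [NN_six]; exact bot_le
  | succ m ih =>
    intro u hu
    obtain ⟨t, ht, hrest⟩ := exists_coord hq hK (k := ⟨n, by omega⟩) hu
    have h1 : ee hq hK ⟨n, by omega⟩ t ∈ Subgroup.closure
        {x | ∃ j : Fin 6, n ≤ (j : ℕ) ∧ ∃ t, Dom q j t ∧ x = ee hq hK j t} :=
      Subgroup.subset_closure ⟨_, le_rfl, t, ht, rfl⟩
    have h2 := Subgroup.closure_mono (k := {x | ∃ j : Fin 6, n ≤ (j : ℕ) ∧ ∃ t, Dom q j t ∧ x = ee hq hK j t})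
      (by rintro x ⟨j, hj, t, ht, e⟩; exact ⟨j, by omega, t, ht, e⟩) (ih (n + 1) (by omega) (by omega) hrest)
    simpa using mul_mem h1 h2

end CfsgLib.SchurTwisted.D4
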