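import Cfsg.Agent.SchurTwisted.D4Homs

/-!
The six layers of the unipotent subgroup of `³D₄(q)` and the action of the torus on them.
-/

set_option autoImplicit false

namespace CfsgLib.SchurTwisted.D4

open Cfsg.Lie CfsgLib.Chevalley CfsgLib.TwistedLie CfsgLib.TwistedLie.D4

local notation "S" => sysD4

/-- The word carrying a fundamental orbit to a layer. -/
def layW : Fin 6 → List (Fin 2) := ![[], [], [1], [0, 1], [0], [1, 0]]

/-- The layers of three roots. -/
def isShort : Fin 6 → Bool := ![false, true, true, true, false, false]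

/-- The roots of a layer. -/
def layR : Fin 6 → List ℕ := ![[14], [18, 13, 12], [19, 16, 15], [17, 20, 21], [22], [23]]

/-- The first root of a layer. -/
def rep : Fin 6 → ℕ := ![14, 18, 19, 17, 22, 23]

/-- The roots of the layers from `n` on. -/
def upR (n : ℕ) : List ℕ := ((List.finRange 6).filter fun j : Fin 6 => decide (n ≤ j.val)).flatMap layR

/-- A linear weight increasing along the layers. -/
def wt (r : ℕ) : ℤ :=
  3 * tabD4.coord 4 0 r + 2 * tabD4.coord 4 1 r + 3 * tabD4.coord 4 2 r + 3 * tabD4.coord 4 3 r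

/-- The weight of a layer. -/
def wLay : ℕ → ℤ
  | 0 => 2
  | 1 => 3
  | 2 => 5
  | 3 => 8
  | 4 => 11
  | 5 => 13
  | _ => 14

theorem wt_add {r s k i j : ℕ}
    (h : ∀ m < chevD4.rank, Sys.vec S m k = i * Sys.vec S m r + j * Sys.vec S m s) :
    wt k = i * wt r + j * wt s := by
  have h0 : tabD4.coord 4 0 k = i * tabD4.coord 4 0 r + j * tabD4.coord 4 0 s := h 0 (by decide)
  have h1 : tabD4.coord 4 1 k = i * tabD4.coord 4 1 r + j * tabD4.coord 4 1 s := h 1 (by decide)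
  have h2 : tabD4.coord 4 2 k = i * tabD4.coord 4 2 r + j * tabD4.coord 4 2 s := h 2 (by decide)
  have h3 : tabD4.coord 4 3 k = i * tabD4.coord 4 3 r + j * tabD4.coord 4 3 s := h 3 (by decide)
  simp only [wt, h0, h1, h2, h3]
  ring

theorem upR_iff : ∀ n < 7, ∀ r < 24, 12 ≤ r → (r ∈ upR n ↔ wLay n ≤ wt r) := by decide +kernel

theorem layR_iff : ∀ k : Fin 6, ∀ r < 24, 12 ≤ r → (r ∈ layR k ↔ wt r = wLay k) := by decide +kernel

theorem wt_pos : ∀ r < 24, 12 ≤ r → 0 < wt r := by decide +kernel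

theorem sum_pos {r s k i j : ℕ} (hrp : chevD4.IsPosRoot r) (hsp : chevD4.IsPosRoot s) (hk : k < chevD4.nroots)
    (hi : 1 ≤ i)
    (hv : ∀ m < chevD4.rank, Sys.vec S m k = i * Sys.vec S m r + j * Sys.vec S m s) :
    12 ≤ k := by
  obtain ⟨h1, h2⟩ := (Sys.pos_iff S r).mp hrp
  obtain ⟨h3, h4⟩ := (Sys.pos_iff S s).mp hsp
  obtain ⟨m, hm, hmr⟩ := Sys.exists_vec_pos S h2 h1
  refine Sys.pos_of_vec S hk hm ?_
  rw [hv m hm]
  have : (0 : ℤ) < i * Sys.vec S m r := mul_pos (by omega) hmr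
  have : (0 : ℤ) ≤ j * Sys.vec S m s := mul_nonneg (by omega) (Sys.vec_pos S s h4 h3 m hm)
  omega

theorem closed_up {n : ℕ} (hn : n < 7) : Sys.Closed S {r | r ∈ upR n} := by
  intro r hr s hs hrp hsp k hk i j hi hj hv
  obtain ⟨h1, h2⟩ := (Sys.pos_iff S r).mp hrp
  obtain ⟨h3, h4⟩ := (Sys.pos_iff S s).mp hsp
  refine (upR_iff n hn k hk (sum_pos hrp hsp hk hi hv)).2 ?_
  have ha := (upR_iff n hn r h2 h1).1 hr
  have hb := wt_pos s h4 h3
  have hc := wt_pos r h2 h1
  rw [wt_add hv]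
  have e1 : wt r ≤ i * wt r := le_mul_of_one_le_left hc.le (by exact_mod_cast hi)
  have e2 : (0 : ℤ) ≤ j * wt s := mul_nonneg (by omega) hb.le
  omega

/-- The coefficient of the long fundamental root. -/
def cA (r : ℕ) : ℤ := tabD4.coord 4 1 r

/-- The coefficient of the short fundamental root. -/
def cB (r : ℕ) : ℤ := tabD4.coord 4 0 r + tabD4.coord 4 2 r + tabD4.coord 4 3 r

/-- The coefficients on the layers. -/
def layAB : Fin 6 → ℤ × ℤ := ![(1, 0), (0, 1), (1, 1), (1, 2), (1, 3), (2, 3)]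

theorem lay_ab : ∀ l : Fin 6, ∀ r < 24, 12 ≤ r → r ∈ layR l → (cA r, cB r) = layAB l := by
  decide +kernel

theorem no_multiple : ∀ l : Fin 6, ∀ k < 24, 12 ≤ k → ∀ n < 4,
    ¬ (2 ≤ n ∧ cA k = (n : ℕ) * (layAB l).1 ∧ cB k = (n : ℕ) * (layAB l).2) := by decide +kernel

theorem ab_bound : ∀ k < 24, 12 ≤ k → cA k ≤ 2 ∧ cB k ≤ 3 := by decide +kernel

theorem layAB_bound : ∀ l : Fin 6, 1 ≤ (layAB l).1 + (layAB l).2 ∧ 0 ≤ (layAB l).1 ∧
    0 ≤ (layAB l).2 := by decide +kernel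

theorem closed_lay (l : Fin 6) : Sys.Closed S {r | r ∈ layR l} := by
  intro r hr s hs hrp hsp k hk i j hi hj hv
  obtain ⟨h1, h2⟩ := (Sys.pos_iff S r).mp hrp
  obtain ⟨h3, h4⟩ := (Sys.pos_iff S s).mp hsp
  have ha := lay_ab l r h2 h1 hr
  have hb := lay_ab l s h4 h3 hs
  have hk' := sum_pos hrp hsp hk hi hv
  have v0 : tabD4.coord 4 0 k = i * tabD4.coord 4 0 r + j * tabD4.coord 4 0 s := hv 0 (by decide)
  have v1 : tabD4.coord 4 1 k = i * tabD4.coord 4 1 r + j * tabD4.coord 4 1 s := hv 1 (by decide)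
  have v2 : tabD4.coord 4 2 k = i * tabD4.coord 4 2 r + j * tabD4.coord 4 2 s := hv 2 (by decide)
  have v3 : tabD4.coord 4 3 k = i * tabD4.coord 4 3 r + j * tabD4.coord 4 3 s := hv 3 (by decide)
  have eA : cA k = ((i + j : ℕ) : ℤ) * (layAB l).1 := by
    rw [← ha] ; simp only [cA]; rw [v1]
    have := congrArg Prod.fst (hb.trans ha.symm)
    simp only [cA] at this
    rw [this]; push_cast; ring
  have eB : cB k = ((i + j : ℕ) : ℤ) * (layAB l).2 := by
    rw [← ha]; simp only [cB]; rw [v0, v2, v3]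
    have := congrArg Prod.snd (hb.trans ha.symm)
    simp only [cB] at this
    push_cast
    linear_combination (j : ℤ) * this
  obtain ⟨b1, b2⟩ := ab_bound k hk hk'
  obtain ⟨l1, l2, l3⟩ := layAB_bound l
  have hn : i + j < 4 := by
    rcases (show 1 ≤ (layAB l).1 ∨ 1 ≤ (layAB l).2 by omega) with h | h
    · have : ((i + j : ℕ) : ℤ) ≤ cA k := by rw [eA]; exact le_mul_of_one_le_right (by positivity) h
      omega
    · have : ((i + j : ℕ) : ℤ) ≤ cB k := by rw [eB]; exact le_mul_of_one_le_right (by positivity) h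
      omega
  exact absurd ⟨by omega, eA, eB⟩ (no_multiple l k hk hk' (i + j) hn)

end CfsgLib.SchurTwisted.D4
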