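import Mathlib

/-!
Bounds on groups generated by involutions whose commutators are one central involution.
-/

set_option autoImplicit false

namespace CfsgLib.SchurTwisted

open scoped commutatorElement

variable {Γ : Type*} [Group Γ]

/-- A product of a subgroup normalising another is bounded by the product of the orders. -/
theorem card_sup_le_mul [Finite Γ] {L H : Subgroup Γ} (h : L ≤ Subgroup.normalizer (H : Set Γ)) :
    Nat.card ↥(L ⊔ H) ≤ Nat.card L * Nat.card H := by
  have e := Subgroup.coe_mul_of_left_le_normalizer_right L H h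
  show Nat.card ↥((L ⊔ H : Subgroup Γ) : Set Γ) ≤ _
  rw [e]
  exact Set.natCard_mul_le

theorem mem_normalizer_closure {X : Set Γ} {g : Γ} (h1 : ∀ s ∈ X, g * s * g⁻¹ ∈ Subgroup.closure X)
    (h2 : ∀ s ∈ X, g⁻¹ * s * g ∈ Subgroup.closure X) :
    g ∈ Subgroup.normalizer (Subgroup.closure X : Set Γ) := by
  have key : ∀ x : Γ, (∀ s ∈ X, x * s * x⁻¹ ∈ Subgroup.closure X) →
      ∀ w ∈ Subgroup.closure X, x * w * x⁻¹ ∈ Subgroup.closure X := by
    intro x hx w hw
    have hle : Subgroup.closure X ≤ (Subgroup.closure X).comap (MulAut.conj x).toMonoidHom :=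
      (Subgroup.closure_le _).2 fun s hs => by simpa using hx s hs
    simpa using hle hw
  refine Subgroup.mem_normalizer_iff.2 fun w => ⟨key g h1 w, fun hw => ?_⟩
  have h := key g⁻¹ (fun s hs => by rw [inv_inv]; exact h2 s hs) _ hw
  rwa [inv_inv, show g⁻¹ * (g * w * g⁻¹) * g = w by group] at h

/-- A group generated by involutions with one commutator. -/
theorem card_closure_le_pow [Finite Γ] {ι : Type*} [Finite ι] {v : ι → Γ} {w : Γ} (hw : w * w = 1)
    (hv : ∀ i, v i * v i = 1) (hwv : ∀ i, v i * w = w * v i)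
    (hvv : ∀ i j, i ≠ j → ⁅v i, v j⁆ = w) :
    Nat.card ↥(Subgroup.closure (Set.range v ∪ {w})) ≤ 2 ^ (Nat.card ι + 1) := by
  classical
  haveI := Fintype.ofFinite ι
  have hord : ∀ g : Γ, g * g = 1 → Nat.card ↥(Subgroup.zpowers g) ≤ 2 := fun g hg => by
    rw [Nat.card_zpowers]
    exact orderOf_le_of_pow_eq_one (by norm_num) (by rw [pow_two]; exact hg)
  suffices h : ∀ F : Finset ι, Nat.card ↥(Subgroup.closure (v '' (F : Set ι) ∪ {w})) ≤ 2 ^ (F.card + 1) by
    have := h Finset.univ
    rwa [Finset.coe_univ, Set.image_univ, Finset.card_univ, ← Nat.card_eq_fintype_card] at this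
  intro F
  induction F using Finset.induction_on with
  | empty =>
    rw [Finset.coe_empty, Set.image_empty, Set.empty_union, ← Subgroup.zpowers_eq_closure]
    simpa using hord w hw
  | @insert a F ha ih =>
    set X := v '' (F : Set ι) ∪ {w} with hX
    have hnorm : v a ∈ Subgroup.normalizer (Subgroup.closure X : Set Γ) := by
      have hinv : (v a)⁻¹ = v a := inv_eq_of_mul_eq_one_right (hv a)
      have hconj : ∀ s ∈ X, v a * s * (v a)⁻¹ ∈ Subgroup.closure X := by
        rintro s (⟨j, hj, rfl⟩ | rfl)
        · have hne : a ≠ j := fun e => ha (e ▸ Finset.mem_coe.1 hj)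
          rw [show v a * v j * (v a)⁻¹ = ⁅v a, v j⁆ * v j by
            simp only [commutatorElement_def]; group, hvv a j hne]
          exact mul_mem (Subgroup.subset_closure (Or.inr rfl))
            (Subgroup.subset_closure (Or.inl ⟨j, hj, rfl⟩))
        · rw [hwv a, mul_inv_cancel_right]
          exact Subgroup.subset_closure (Or.inr rfl)
      refine mem_normalizer_closure hconj fun s hs => ?_
      have := hconj s hs
      rwa [hinv] at this ⊢
    rw [Finset.coe_insert, Set.image_insert_eq, Set.insert_union, Set.insert_eq, Subgroup.closure_union,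
      ← Subgroup.zpowers_eq_closure, Finset.card_insert_of_notMem ha]
    refine (card_sup_le_mul ((Subgroup.zpowers_le).2 hnorm)).trans ?_
    calc Nat.card ↥(Subgroup.zpowers (v a)) * Nat.card ↥(Subgroup.closure X)
        ≤ 2 * 2 ^ (F.card + 1) := Nat.mul_le_mul (hord _ (hv a)) ih
      _ = 2 ^ (F.card + 1 + 1) := (pow_succ' _ _).symm

/-- Three involutions with one commutator commute with it. -/
theorem eq_one_of_triangle {a b c w z : Γ} (hz : ∀ g, g * z = z * g) (hw : w * w = 1)
    (hab : ⁅a, b⁆ = w) (hca : ⁅c, a⁆ = w) (hcb : ⁅c, b⁆ = w) (ha : a * w = z * w * a)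
    (hb : b * w = z * w * b) (hc : c * w = z * w * c) : z = 1 := by
  have hwi : w⁻¹ = w := inv_eq_of_mul_eq_one_right hw
  have e1 : c * a * c⁻¹ = w * a := by rw [← hca, commutatorElement_def]; group
  have e2 : c * b * c⁻¹ = w * b := by rw [← hcb, commutatorElement_def]; group
  have e3 : a * b * a⁻¹ = w * b := by rw [← hab, commutatorElement_def]; group
  have h1 : c * w * c⁻¹ = ⁅w * a, w * b⁆ := by
    rw [← e1, ← e2]
    conv_lhs => rw [← hab]
    simp only [commutatorElement_def]; group
  have h2 : ⁅w * a, w * b⁆ = z * z * w := by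
    rw [commutatorElement_def, mul_inv_rev, mul_inv_rev, hwi]
    calc w * a * (w * b) * (a⁻¹ * w) * (b⁻¹ * w)
        = w * (a * w) * b * a⁻¹ * w * b⁻¹ * w := by group
      _ = w * z * w * (a * b * a⁻¹) * w * b⁻¹ * w := by rw [ha]; group
      _ = w * z * w * (w * (b * w) * b⁻¹ * w) := by rw [e3]; group
      _ = w * z * (w * w) * z * (w * w) := by rw [hb]; group
      _ = w * z * z := by rw [hw]; group
      _ = _ := by rw [hz w, mul_assoc, hz w, ← mul_assoc]
  rw [hc, mul_inv_cancel_right, h2] at h1
  exact (mul_eq_left.1 (mul_right_cancel h1).symm)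

end CfsgLib.SchurTwisted
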