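import Cfsg.Agent.SchurTwisted.D4TwoGen
import Cfsg.Agent.SchurTwisted.Involutions

/-!
`³D₄(2)`: an invariant complement over the unipotent subgroup, generated by the lift of the long
fundamental root element and the canonical lifts of the short fundamental root subgroup.
-/

set_option autoImplicit false

namespace CfsgLib.SchurTwisted.D4

open Cfsg.Lie CfsgLib.Chevalley CfsgLib.TwistedLie CfsgLib.TwistedLie.D4
open CfsgLib.SchurClassical
open scoped commutatorElement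

universe u

local notation "S" => sysD4

variable {K : Type u} [Field K] [CharP K 2]

omit [CharP K 2] in
theorem chkFive : ((List.range 24).all fun s => decide (s < 12) || decide (s ∉ upR 2) ||
    (decide (s ≠ 14 ∧ s ≠ chevD4.neg 14) &&
      (chevD4.commTerms 14 s).all fun c => decide (c.1 ∈ upR 5 ∧ 12 ≤ c.1))) = true := by
  decide +kernel

/-- The long fundamental root element throws the second layer into the last one. -/
theorem bracket_fourteen {z : GL chevD4.Idx K} (hz : z ∈ uSub chevD4 K {r | r ∈ upR 2}) (t : K) :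
    ⁅Sys.xG S K 14 t, z⁆ ∈ uSub chevD4 K {r | r ∈ upR 5} := by
  set R := uSub chevD4 K {r | r ∈ upR 5}
  have hzp : ∀ {w}, w ∈ uSub chevD4 K {r | r ∈ upR 2} → w ∈ chevD4.posUnipotent K :=
    fun hw => uSub_le_posUnipotent K _ hw
  let B : Subgroup (GL chevD4.Idx K) :=
    { carrier := {w | w ∈ uSub chevD4 K {r | r ∈ upR 2} ∧ ⁅Sys.xG S K 14 t, w⁆ ∈ R}
      one_mem' := ⟨one_mem _, by rw [commutatorElement_one_right]; exact one_mem _⟩
      mul_mem' := fun {a b} ha hb => ⟨mul_mem ha.1 hb.1, by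
        rw [show ⁅Sys.xG S K 14 t, a * b⁆ = ⁅Sys.xG S K 14 t, a⁆ * (a * ⁅Sys.xG S K 14 t, b⁆ * a⁻¹) by
          simp only [commutatorElement_def]; group]
        exact mul_mem ha.2 (conj_up (by omega) (hzp ha.1) hb.2)⟩
      inv_mem' := fun {a} ha => ⟨inv_mem ha.1, by
        rw [show ⁅Sys.xG S K 14 t, a⁻¹⁆ = a⁻¹ * ⁅Sys.xG S K 14 t, a⁆⁻¹ * a⁻¹⁻¹ by
          simp only [commutatorElement_def]; group]
        exact conj_up (by omega) (inv_mem (hzp ha.1)) (inv_mem ha.2)⟩ }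
  suffices hB : uSub chevD4 K {r | r ∈ upR 2} ≤ B from (hB hz).2
  refine Sys.uSub_le S K fun s hs g1 g2 v =>
    ⟨Sys.xG_mem_uSub S K (P := {r | r ∈ upR 2}) hs g1 g2 v, ?_⟩
  have hq' := chkFive
  simp only [List.all_eq_true, List.mem_range, Bool.or_eq_true, Bool.and_eq_true,
    decide_eq_true_eq] at hq'
  rcases hq' s g2 with (h | h) | ⟨⟨hne, hneg⟩, hterm⟩
  · exact absurd g1 (by rw [show chevD4.nroots / 2 = 12 from rfl]; omega)
  · exact absurd hs h
  have h := Sys.xG_comm S K (show (14 : ℕ) < chevD4.nroots by decide) g2 hne hneg (-t) v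
  rw [Sys.xG_inv, neg_neg] at h
  rw [commutatorElement_def, Sys.xG_inv S K 14 t, h]
  exact conj_up (by omega) (uSub_le_posUnipotent K Set.univ
    (Sys.xG_mem_uSub S K (Set.mem_univ s) g1 g2 v))
    (Sys.wG_commWord_mem S K (by decide) g2 _ _ hterm)

variable [Fintype K] {q : ℕ} (hq : IsPrimePow q) (hK : Fintype.card K = q ^ 3)

include hq hK

/-- The last layer is central in the unipotent group. -/
theorem five_central {u g : GL chevD4.Idx K} (hu : u ∈ NN hq hK 5) (hg : g ∈ chevD4.posUnipotent K) :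
    g * u = u * g := by
  have h := bracket_up (n := 5) (by norm_num) hg (Subgroup.mem_inf.1 hu).1
  have h6 : uSub chevD4 K {r | r ∈ upR (5 + 1)} ≤ ⊥ := by
    refine Sys.uSub_le S K fun r hr => ?_
    have : upR 6 = [] := by decide
    simp [this] at hr
  exact commutatorElement_eq_one_iff_mul_comm.1 (Subgroup.mem_bot.1 (h6 h))

variable {Γ : Type u} [Group Γ] [Finite Γ] {π : Γ →* GL chevD4.Idx K}
  (hrange : π.range = (tw hq hK).G) (hc : π.ker ≤ Subgroup.center Γ) (hA : IsPGroup 2 π.ker)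

include hrange hc hA

/-- The invariant complement over the unipotent subgroup of `³D₄(2)`. -/
theorem exists_compl_two (hq2 : q = 2) : ∃ M, Compl π (tw hq hK).B1 (NN hq hK 0) M := by
  set E := tw hq hK with hE
  have hG : ∀ {x}, x ∈ E.G → ∃ g, π g = x := fun {x} h => by rwa [← hrange] at h
  have hcard : Nat.card K = 8 := by rw [Nat.card_eq_fintype_card, hK, hq2]; norm_num
  have hone : ∀ x : K, x ^ q = x → x ≠ 0 → x = 1 := fun x hx hx0 => by
    rw [hq2, pow_two] at hx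
    exact mul_right_cancel₀ hx0 (hx.trans (one_mul x).symm)
  have htorG : ∀ c ∈ Cset K q, tor chevD4 K c ∈ E.G := fun c hc' => E.T_mem ⟨c, hc', rfl⟩
  -- lifts of the torus
  have htorc : ∀ c ∈ Cset K q, ∀ σ g : Γ, π σ = tor chevD4 K c →
      tor chevD4 K c * π g = π g * tor chevD4 K c → σ * g = g * σ := by
    intro c _ σ g hσ hcomm
    have hk : ⁅σ, g⁆ ∈ π.ker := by
      rw [MonoidHom.mem_ker, map_commutatorElement, commutatorElement_eq_one_iff_mul_comm, hσ]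
      exact hcomm
    obtain ⟨n, hn⟩ := hA ⟨_, hk⟩
    have hpow : ∀ j : ℕ, ⁅σ ^ j, g⁆ = ⁅σ, g⁆ ^ j := by
      intro j
      induction j with
      | zero => simp
      | succ j ih =>
        rw [show ⁅σ ^ (j + 1), g⁆ = σ * ⁅σ ^ j, g⁆ * σ⁻¹ * ⁅σ, g⁆ by
          rw [pow_succ']; simp only [commutatorElement_def]; group, ih, pow_succ,
          Subgroup.mem_center_iff.1 (pow_mem (hc hk) j) σ, mul_inv_cancel_right]
    haveI := Fact.mk Nat.prime_two
    have h7 : tor chevD4 K c ^ 7 = 1 := by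
      classical
      rw [← map_pow]
      have hc1 : c ^ 7 = 1 := funext fun j => by
        rw [Pi.pow_apply, Pi.one_apply]
        refine Units.ext ?_
        rw [Units.val_pow_eq_pow_val, Units.val_one, show 7 = Fintype.card K - 1 by rw [hK, hq2]; rfl]
        exact FiniteField.pow_card_sub_one_eq_one _ (c j).ne_zero
      rw [hc1, map_one]
    refine commutatorElement_eq_one_iff_mul_comm.1
      (eq_one_of_pow_prime_pow (congrArg Subtype.val hn) ?_ (show Nat.Coprime 2 7 by norm_num))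
    rw [← hpow, comm_congr hc (g' := 1) (a' := g) (by rw [map_pow, hσ, h7, map_one]) rfl,
      commutatorElement_one_left]
  -- the short fundamental root subgroup
  have hP0 : P q (0 : K) = 1 := P_zero hq hK
  have hPadd : ∀ t u : K, P q t * P q u = P q (t + u) := P_comm hq hK
  have hPmem : ∀ t : K, P q t ∈ E.G := fun t => by
    rw [← ee_one_layer hq hK]
    exact ee_mem_G hq hK fun h => absurd h (by decide)
  have hPup : ∀ t : K, P q t ∈ uSub chevD4 K {r | r ∈ upR 1} := fun t => by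
    rw [← ee_one_layer hq hK]
    exact (Subgroup.mem_inf.1 (ee_mem_NN hq hK (k := 1) fun h => absurd h (by decide))).1
  have hPpos : ∀ t : K, P q t ∈ chevD4.posUnipotent K := fun t => uSub_le_posUnipotent K _ (hPup t)
  let N : Subgroup (GL chevD4.Idx K) :=
    { carrier := Set.range (P q)
      one_mem' := ⟨0, hP0⟩
      mul_mem' := by rintro _ _ ⟨t, rfl⟩ ⟨u, rfl⟩; exact ⟨t + u, (hPadd t u).symm⟩
      inv_mem' := by
        rintro _ ⟨t, rfl⟩
        exact ⟨t, eq_inv_of_mul_eq_one_left (by rw [hPadd, CharTwo.add_self_eq_zero, hP0])⟩ }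
  let χ : (ℕ → Kˣ) → K := fun c => (torusVal chevD4 c (rep 1) : K)
  have htorP : ∀ c ∈ Cset K q, ∀ t : K,
      tor chevD4 K c * P q t * (tor chevD4 K c)⁻¹ = P q (χ c * t) := fun c hc' t => by
    have h := tor_conj_ee hq hK hc' 1 t
    rwa [ee_one_layer, ee_one_layer] at h
  have hNcomm : ∀ a b : Γ, π a ∈ N → π b ∈ N → a * b = b * a := by
    intro a b ha hb
    refine commutatorElement_eq_one_iff_mul_comm.1 (Subgroup.mem_bot.1 (comm_of_scalar hc
      (compl_bot E.G) (bot_le : ⊥ ≤ N) (fun x hx => by obtain ⟨t, rfl⟩ := hx; exact hPmem t)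
      (T := E.T) (fun x hx => E.T_mem hx) hrange.ge (fun g _ u hu => by
        rw [Subgroup.mem_bot] at hu ⊢
        rw [hu, mul_one, mul_inv_cancel])
      (P q) (fun t => ⟨t, rfl⟩) (fun t u => ?_) (fun u hu => ?_) (fun v hv => ?_)
      (exists_good_scalar hq hK) a b ha hb))
    · rw [hPadd, inv_mul_cancel]; exact one_mem _
    · obtain ⟨t, rfl⟩ := hu
      exact ⟨t, by rw [inv_mul_cancel]; exact one_mem _⟩
    · obtain ⟨c, hc', hcv⟩ := exists_scalar hq hK (k := 1) rfl (Units.mk0 v hv)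
      refine ⟨tor chevD4 K c, ⟨c, hc', rfl⟩, fun t => ?_⟩
      rw [htorP c hc', show χ c = v by simp [χ, hcv], inv_mul_cancel]
      exact one_mem _
  -- a torus element moving it
  obtain ⟨s₀, hs₀, hs₁, -⟩ := exists_good_scalar hq hK
  have hs₁' : s₀ ≠ 1 := fun h => hs₁ (by rw [h, CharTwo.add_self_eq_zero])
  obtain ⟨c₀, hc₀, hc₀v⟩ := exists_scalar hq hK (k := 1) rfl (Units.mk0 s₀ hs₀)
  have hχ₀ : χ c₀ = s₀ := by simp [χ, hc₀v]
  obtain ⟨τ, hτ⟩ := hG (htorG c₀ hc₀)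
  choose Pl hPl using fun t : K => hG (hPmem t)
  let η : K → Γ := fun t => ⁅τ, Pl (t / (s₀ - 1))⁆
  have hηπ : ∀ t, π (η t) = P q t := fun t => by
    rw [map_commutatorElement, hτ, hPl, commutatorElement_def, htorP c₀ hc₀, hχ₀]
    have hne : s₀ - 1 ≠ 0 := sub_ne_zero.2 hs₁'
    rw [mul_inv_eq_iff_eq_mul, hPadd]
    congr 1
    field_simp
    ring
  have hηN : ∀ t, π (η t) ∈ N := fun t => ⟨t, (hηπ t).symm⟩
  have hηadd : ∀ t u, η t * η u = η (t + u) := fun t u => by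
    show _ = ⁅τ, _⁆
    rw [comm_congr hc (g' := τ) (a' := Pl (t / (s₀ - 1)) * Pl (u / (s₀ - 1))) rfl (by
      rw [map_mul, hPl, hPl, hPl, hPadd, add_div])]
    rw [show ⁅τ, Pl (t / (s₀ - 1)) * Pl (u / (s₀ - 1))⁆ = ⁅τ, Pl (t / (s₀ - 1))⁆ *
        (Pl (t / (s₀ - 1)) * ⁅τ, Pl (u / (s₀ - 1))⁆ * (Pl (t / (s₀ - 1)))⁻¹) by
      simp only [commutatorElement_def]; group]
    rw [hNcomm _ _ ⟨_, (hPl (t / (s₀ - 1))).symm⟩ (hηN u), mul_inv_cancel_right]
  have hη0 : η 0 = 1 := by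
    show ⁅τ, _⁆ = 1
    rw [comm_congr hc (g' := τ) (a' := 1) rfl (by rw [hPl, zero_div, hP0, map_one]),
      commutatorElement_one_right]
  have hηsq : ∀ t, η t * η t = 1 := fun t => by rw [hηadd, CharTwo.add_self_eq_zero, hη0]
  have hηinv : ∀ t, (η t)⁻¹ = η t := fun t => inv_eq_of_mul_eq_one_right (hηsq t)
  have hηequi : ∀ c ∈ Cset K q, ∀ σ : Γ, π σ = tor chevD4 K c → ∀ t, σ * η t * σ⁻¹ = η (χ c * t) := by
    intro c hc' σ hσ t
    show σ * ⁅τ, _⁆ * σ⁻¹ = _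
    rw [show σ * ⁅τ, Pl (t / (s₀ - 1))⁆ * σ⁻¹ = ⁅σ * τ * σ⁻¹, σ * Pl (t / (s₀ - 1)) * σ⁻¹⁆ by
      simp only [commutatorElement_def]; group]
    refine comm_congr hc ?_ ?_
    · rw [map_mul, map_mul, map_inv, hσ, hτ, ← map_mul, mul_comm, map_mul, mul_inv_cancel_right]
    · rw [map_mul, map_mul, map_inv, hσ, hPl, htorP c hc', hPl, mul_div_assoc]
  have hηfix : ∀ g : Γ, tor chevD4 K c₀ * π g = π g * tor chevD4 K c₀ →
      (∀ x, P q x * π g = π g * P q x) → ∀ t, g * η t * g⁻¹ = η t := by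
    intro g h1 h2 t
    show g * ⁅τ, _⁆ * g⁻¹ = _
    rw [show g * ⁅τ, Pl (t / (s₀ - 1))⁆ * g⁻¹ = ⁅g * τ * g⁻¹, g * Pl (t / (s₀ - 1)) * g⁻¹⁆ by
      simp only [commutatorElement_def]; group]
    refine comm_congr hc ?_ ?_
    · rw [map_mul, map_mul, map_inv, hτ, ← h1, mul_inv_cancel_right]
    · rw [map_mul, map_mul, map_inv, hPl, ← h2, mul_inv_cancel_right]
  -- the fixed roots
  have hroot : ∀ r ∈ ([14, 22, 23, 1, 9] : List ℕ), ∀ c ∈ Cset K q, ∀ x : K, x ^ q = x →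
      tor chevD4 K c * Sys.xG S K r x = Sys.xG S K r x * tor chevD4 K c := by
    intro r hr c hc' x hx
    have hlt : r < chevD4.nroots :=
      (by decide +kernel : ∀ r ∈ ([14, 22, 23, 1, 9] : List ℕ), r < chevD4.nroots) r hr
    have h1 := mul_mem (mul_mem (htorG c hc') (root_mem hq hK hr (one_pow q))) (inv_mem (htorG c hc'))
    rw [Sys.tor_conj S K c hlt, mul_one] at h1
    have h2 := hone _ (fixed_of_mem hq hK hr h1) (Units.ne_zero _)
    rw [← mul_inv_eq_iff_eq_mul, Sys.tor_conj S K c hlt, h2, one_mul]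
  have h22P : ∀ x : K, P q x * Sys.xG S K 22 (1 : K) = Sys.xG S K 22 (1 : K) * P q x := fun x =>
    ((orth_commute S K (show orthB chevD4 18 22 = true by decide +kernel) _ _).mul_left
      (orth_commute S K (show orthB chevD4 13 22 = true by decide +kernel) _ _)).mul_left
      (orth_commute S K (show orthB chevD4 12 22 = true by decide +kernel) _ _)
  -- the involution over the long fundamental root element
  obtain ⟨s, hs⟩ := exists_bracket hq hK hq2
  obtain ⟨e3, he3⟩ := hG (ee_mem_G hq hK (k := 3) (t := 1) fun h => absurd h (by decide))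
  have hcπ : π ⁅η s, e3⁆ = Sys.xG S K 22 1 := by
    rw [map_commutatorElement, hηπ, he3]
    have := hs 1 (one_mem _)
    rwa [mul_one] at this
  have hcsq : ⁅η s, e3⁆ * ⁅η s, e3⁆ = 1 := by
    have h1 := hηfix ⁅η s, e3⁆ (by rw [hcπ]; exact hroot 22 (by simp) c₀ hc₀ 1 (one_pow q))
      (fun x => by rw [hcπ]; exact h22P x) s
    rw [mul_inv_eq_iff_eq_mul] at h1
    have h2 : ⁅η s, e3⁆⁻¹ = η s * ⁅η s, e3⁆ * (η s)⁻¹ := by
      simp only [commutatorElement_def, mul_inv_rev, inv_inv, hηinv s]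
      rw [show η s * (η s * e3 * η s * e3⁻¹) * η s = η s * η s * (e3 * η s * (e3⁻¹ * η s)) by group,
        hηsq, one_mul]
      group
    rw [← h1, mul_inv_cancel_right] at h2
    nth_rewrite 1 [← h2]
    exact inv_mul_cancel _
  obtain ⟨n₀, hn₀⟩ := hG (E.nW_mem [0])
  have hn14 : (E.nW [0] : GL chevD4.Idx K) * Sys.xG S K 14 1 * (E.nW [0] : GL chevD4.Idx K)⁻¹ =
      Sys.xG S K 22 1 := by
    obtain ⟨κ, hκq, hκ, hc'⟩ := root_conj hq hK (r := 22) (r0 := 14) (L := [0]) (Or.inl rfl)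
      (by decide +kernel) (by simp)
    rw [hc', mul_one, hone κ hκq hκ]
  let a := n₀⁻¹ * ⁅η s, e3⁆ * n₀
  have haπ : π a = Sys.xG S K 14 1 := by
    show π (_ * _ * _) = _
    rw [map_mul, map_mul, map_inv, hcπ, hn₀, ← hn14]
    group
  have hasq : a * a = 1 := by
    show n₀⁻¹ * ⁅η s, e3⁆ * n₀ * (n₀⁻¹ * ⁅η s, e3⁆ * n₀) = 1
    rw [show n₀⁻¹ * ⁅η s, e3⁆ * n₀ * (n₀⁻¹ * ⁅η s, e3⁆ * n₀) =
      n₀⁻¹ * (⁅η s, e3⁆ * ⁅η s, e3⁆) * n₀ by group, hcsq]
    group
  let v : K → Γ := fun t => η t * a * (η t)⁻¹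
  have hv0 : v 0 = a := by simp only [v, hη0, one_mul, inv_one, mul_one]
  have hvsq : ∀ t, v t * v t = 1 := fun t => by
    show η t * a * (η t)⁻¹ * (η t * a * (η t)⁻¹) = 1
    rw [show η t * a * (η t)⁻¹ * (η t * a * (η t)⁻¹) = η t * (a * a) * (η t)⁻¹ by group, hasq]
    group
  have hvshift : ∀ t u, η t * v u * (η t)⁻¹ = v (t + u) := fun t u => by
    show η t * (η u * a * (η u)⁻¹) * (η t)⁻¹ = η (t + u) * a * (η (t + u))⁻¹
    rw [← hηadd]; group
  have hvequi : ∀ c ∈ Cset K q, ∀ σ : Γ, π σ = tor chevD4 K c → ∀ t, σ * v t * σ⁻¹ = v (χ c * t) := by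
    intro c hc' σ hσ t
    have ha : σ * a = a * σ :=
      htorc c hc' σ a hσ (by rw [haπ]; exact hroot 14 (by simp) c hc' 1 (one_pow q))
    show σ * (η t * a * (η t)⁻¹) * σ⁻¹ = η _ * a * (η _)⁻¹
    rw [← hηequi c hc' σ hσ t]
    calc σ * (η t * a * (η t)⁻¹) * σ⁻¹ = σ * η t * a * σ⁻¹ * (σ * (η t)⁻¹ * σ⁻¹) := by group
      _ = σ * η t * σ⁻¹ * (σ * a) * σ⁻¹ * (σ * (η t)⁻¹ * σ⁻¹) := by group
      _ = _ := by rw [ha]; group
  have h14pos : Sys.xG S K 14 (1 : K) ∈ chevD4.posUnipotent K :=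
    uSub_le_posUnipotent K Set.univ (Sys.xG_mem_uSub S K (Set.mem_univ 14) (by decide) (by decide) 1)
  have hvpos : ∀ t, π (v t) ∈ chevD4.posUnipotent K := fun t => by
    show π (_ * _ * _) ∈ _
    rw [map_mul, map_mul, map_inv, hηπ, haπ]
    exact mul_mem (mul_mem (hPpos t) h14pos) (inv_mem (hPpos t))
  have hπG : ∀ g : Γ, π g ∈ E.G := fun g => hrange ▸ ⟨g, rfl⟩
  -- their commutators lie over the last layer
  have h5 : ∀ w, π ⁅v 0, v w⁆ ∈ NN hq hK 5 := fun w => by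
    refine Subgroup.mem_inf.2 ⟨?_, hπG _⟩
    rw [map_commutatorElement, hv0, haπ]
    show ⁅_, π (_ * _ * _)⁆ ∈ _
    rw [map_mul, map_mul, map_inv, hηπ, haπ,
      show ⁅Sys.xG S K 14 (1 : K), P q w * Sys.xG S K 14 1 * (P q w)⁻¹⁆ =
        ⁅Sys.xG S K 14 (1 : K), ⁅Sys.xG S K 14 (1 : K), P q w⁆⁻¹⁆ by
      simp only [commutatorElement_def]; group]
    exact bracket_fourteen (inv_mem (bracket_up (n := 1) (by norm_num) h14pos (hPup w))) 1
  have h5T : ∀ u ∈ NN hq hK 5, ∀ c ∈ Cset K q, tor chevD4 K c * u = u * tor chevD4 K c := by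
    intro u hu c hc'
    obtain ⟨x, hx, hrest⟩ := exists_coord hq hK (k := 5) hu
    have hrest' : (ee hq hK 5 x)⁻¹ * u ∈ NN hq hK 6 := hrest
    rw [NN_six, Subgroup.mem_bot, inv_mul_eq_one] at hrest'
    obtain ⟨y, hy, he⟩ := ee_long hq hK (k := 5) rfl hx
    rw [← hrest', he]
    exact hroot _ (by decide) c hc' y hy
  let W := ⁅v 0, v 1⁆
  have hWη : ∀ t, η t * W * (η t)⁻¹ = W := fun t => by
    have h := hηfix W (h5T _ (h5 1) c₀ hc₀) (fun x => five_central hq hK (h5 1) (hPpos x)) t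
    calc η t * W * (η t)⁻¹ = (W * η t * W⁻¹) * W * (η t)⁻¹ := by rw [h]
      _ = W * η t * (η t)⁻¹ := by group
      _ = W := mul_inv_cancel_right _ _
  have hWT : ∀ c ∈ Cset K q, ∀ σ : Γ, π σ = tor chevD4 K c → σ * W * σ⁻¹ = W := fun c hc' σ hσ => by
    rw [htorc c hc' σ W hσ (h5T _ (h5 1) c hc'), mul_inv_cancel_right]
  have hvv : ∀ t u, t ≠ u → ⁅v t, v u⁆ = W := by
    intro t u htu
    have hw : u + t ≠ 0 := fun h => htu (by rw [add_eq_zero_iff_eq_neg, CharTwo.neg_eq] at h; exact h.symm)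
    obtain ⟨c, hc', hcv⟩ := exists_scalar hq hK (k := 1) rfl (Units.mk0 (u + t) hw)
    obtain ⟨σ, hσ⟩ := hG (htorG c hc')
    have hχ : χ c = u + t := by simp [χ, hcv]
    have e1 : ⁅v 0, v (u + t)⁆ = W := by
      rw [← hWT c hc' σ hσ, show σ * W * σ⁻¹ = ⁅σ * v 0 * σ⁻¹, σ * v 1 * σ⁻¹⁆ by
        simp only [W, commutatorElement_def]; group, hvequi c hc' σ hσ, hvequi c hc' σ hσ,
        mul_zero, mul_one, hχ]
    rw [← hWη t, ← e1, show η t * ⁅v 0, v (u + t)⁆ * (η t)⁻¹ =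
      ⁅η t * v 0 * (η t)⁻¹, η t * v (u + t) * (η t)⁻¹⁆ by simp only [commutatorElement_def]; group,
      hvshift, hvshift, add_zero, show t + (u + t) = u by
        rw [add_left_comm, CharTwo.add_self_eq_zero, add_zero]]
  have hWsq : W * W = 1 := by
    nth_rewrite 1 [← hvv 1 0 one_ne_zero]
    rw [show W = ⁅v 0, v 1⁆ from rfl, ← commutatorElement_inv (v 0) (v 1)]
    exact inv_mul_cancel _
  have hzc : ∀ g, g * ⁅v 0, W⁆ = ⁅v 0, W⁆ * g :=
    Subgroup.mem_center_iff.1 (hc (by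
      rw [MonoidHom.mem_ker, map_commutatorElement, commutatorElement_eq_one_iff_mul_comm]
      exact five_central hq hK (h5 1) (hvpos 0)))
  have hvz : ∀ t, v t * W = ⁅v 0, W⁆ * W * v t := fun t => by
    have e : ⁅v t, W⁆ = ⁅v 0, W⁆ := by
      have h := hvshift t 0
      rw [add_zero] at h
      rw [← h]
      nth_rewrite 1 [← hWη t]
      rw [show ⁅η t * v 0 * (η t)⁻¹, η t * W * (η t)⁻¹⁆ = η t * ⁅v 0, W⁆ * (η t)⁻¹ by
        simp only [commutatorElement_def]; group, hzc, mul_inv_cancel_right]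
    rw [← e, commutatorElement_def]; group
  have hz1 : ⁅v 0, W⁆ = 1 := eq_one_of_triangle hzc hWsq (a := v 0) (b := v 1) (c := v s₀)
    rfl (hvv _ _ hs₀) (hvv _ _ hs₁') (hvz 0) (hvz 1) (hvz s₀)
  have hvW : ∀ t, v t * W = W * v t := fun t => by rw [hvz, hz1, one_mul]
  -- the complement
  set X : Set Γ := Set.range v ∪ {W} with hX
  let Q : Subgroup Γ :=
    { carrier := Set.range η
      one_mem' := ⟨0, hη0⟩
      mul_mem' := by rintro _ _ ⟨t, rfl⟩ ⟨u, rfl⟩; exact ⟨t + u, (hηadd t u).symm⟩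
      inv_mem' := by rintro _ ⟨t, rfl⟩; exact ⟨t, (hηinv t).symm⟩ }
  have hQn : Q ≤ Subgroup.normalizer (Subgroup.closure X : Set Γ) := by
    rintro _ ⟨t, rfl⟩
    have hconj : ∀ x ∈ X, η t * x * (η t)⁻¹ ∈ Subgroup.closure X := by
      rintro x (⟨u, rfl⟩ | rfl)
      · rw [hvshift]; exact Subgroup.subset_closure (Or.inl ⟨_, rfl⟩)
      · rw [hWη]; exact Subgroup.subset_closure (Or.inr rfl)
    refine mem_normalizer_closure hconj fun x hx => ?_
    have := hconj x hx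
    rwa [hηinv] at this ⊢
  let M : Subgroup Γ := Q ⊔ Subgroup.closure X
  have hMcard : Nat.card M ≤ q ^ 12 := by
    have hQ : Nat.card Q ≤ 8 := hcard ▸ Nat.card_le_card_of_surjective
      (fun t => (⟨η t, t, rfl⟩ : Q)) (fun ⟨_, t, h⟩ => ⟨t, Subtype.ext h⟩)
    have hV := card_closure_le_pow hWsq hvsq hvW hvv
    rw [hcard, ← hX] at hV
    refine (card_sup_le_mul hQn).trans ((Nat.mul_le_mul hQ hV).trans ?_)
    rw [hq2]; norm_num
  have hmem14 : Sys.xG S K 14 (1 : K) ∈ M.map π :=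
    ⟨v 0, Subgroup.mem_sup_right (Subgroup.subset_closure (Or.inl ⟨0, rfl⟩)), by rw [hv0, haπ]⟩
  have hMU : M.map π ≤ chevD4.posUnipotent K ⊓ E.G := by
    refine Subgroup.map_le_iff_le_comap.2 (sup_le ?_ ((Subgroup.closure_le _).2 ?_))
    · rintro _ ⟨t, rfl⟩
      exact Subgroup.mem_inf.2 ⟨hηπ t ▸ hPpos t, hπG _⟩
    · rintro _ (⟨t, rfl⟩ | rfl)
      · exact Subgroup.mem_inf.2 ⟨hvpos t, hπG _⟩
      · exact Subgroup.mem_inf.2 ⟨uSub_le_posUnipotent K _ (Subgroup.mem_inf.1 (h5 1)).1, hπG _⟩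
  have hMT : ∀ c ∈ Cset K q, ∀ σ : Γ, π σ = tor chevD4 K c → ∀ m ∈ M, σ * m * σ⁻¹ ∈ M := by
    intro c hc' σ hσ m hm
    have hle : M ≤ M.comap (MulAut.conj σ).toMonoidHom := by
      refine sup_le ?_ ((Subgroup.closure_le _).2 ?_)
      · rintro _ ⟨t, rfl⟩
        rw [Subgroup.mem_comap, MulEquiv.coe_toMonoidHom, MulAut.conj_apply, hηequi c hc' σ hσ]
        exact Subgroup.mem_sup_left ⟨_, rfl⟩
      · rintro _ (⟨t, rfl⟩ | rfl) <;>
          rw [SetLike.mem_coe, Subgroup.mem_comap, MulEquiv.coe_toMonoidHom, MulAut.conj_apply]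
        · rw [hvequi c hc' σ hσ]
          exact Subgroup.mem_sup_right (Subgroup.subset_closure (Or.inl ⟨_, rfl⟩))
        · rw [hWT c hc' σ hσ]
          exact Subgroup.mem_sup_right (Subgroup.subset_closure (Or.inr rfl))
    exact hle hm
  have hUM : chevD4.posUnipotent K ⊓ E.G ≤ M.map π := by
    refine U_le_of_gens hq hK hq2 hMU hmem14 (fun t => ⟨η t, Subgroup.mem_sup_left ⟨t, rfl⟩, hηπ t⟩)
      fun c hc' h hh => ?_
    obtain ⟨m, hm, rfl⟩ := hh
    obtain ⟨σ, hσ⟩ := hG (htorG c hc')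
    exact ⟨σ * m * σ⁻¹, hMT c hc' σ hσ m hm, by rw [map_mul, map_mul, map_inv, hσ]⟩
  refine ⟨M, ?_, (le_antisymm hMU hUM).trans (NN_zero hq hK).symm, ?_⟩
  · let f : M → ↥(chevD4.posUnipotent K ⊓ E.G) := fun m => ⟨π m, hMU ⟨m, m.2, rfl⟩⟩
    have hf : Function.Surjective f := fun ⟨u, hu⟩ => by
      obtain ⟨m, hm, rfl⟩ := hUM hu
      exact ⟨⟨m, hm⟩, rfl⟩
    have hbij : Function.Bijective f := (Nat.bijective_iff_surjective_and_card f).2
      ⟨hf, le_antisymm (hMcard.trans (card_U hq hK).ge) (Nat.card_le_card_of_surjective f hf)⟩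
    refine eq_bot_iff.2 fun x hx => Subgroup.mem_bot.2 ?_
    obtain ⟨hxk, hxM⟩ := Subgroup.mem_inf.1 hx
    exact congrArg Subtype.val (hbij.1 (a₁ := ⟨x, hxM⟩) (a₂ := 1) (Subtype.ext (by
      show π x = π 1
      rw [map_one]; exact hxk)))
  · intro g hg m hm
    obtain ⟨u, hu, t, ⟨c, hc', rfl⟩, e⟩ := E.mem_B1.mp hg
    obtain ⟨m₀, hm₀, hm₀e⟩ := hUM hu
    have hσ : π (m₀⁻¹ * g) = tor chevD4 K c := by
      rw [map_mul, map_inv, hm₀e, e, inv_mul_cancel_left]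
    rw [show g * m * g⁻¹ = m₀ * (m₀⁻¹ * g * m * (m₀⁻¹ * g)⁻¹) * m₀⁻¹ by group]
    exact mul_mem (mul_mem hm₀ (hMT c hc' _ hσ m hm)) (inv_mem hm₀)

end CfsgLib.SchurTwisted.D4
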