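import Cfsg.Agent.SchurTwisted.D4Defining

/-!
`³D₄(2)`: the long fundamental root element, the short fundamental root subgroup and the torus
generate the unipotent subgroup.
-/

set_option autoImplicit false

namespace CfsgLib.SchurTwisted.D4

open Cfsg.Lie CfsgLib.Chevalley CfsgLib.TwistedLie CfsgLib.TwistedLie.D4
open scoped commutatorElement

local notation "S" => sysD4

variable {K : Type*} [Field K] [CharP K 2]

theorem xG_inv_two (r : ℕ) (t : K) : (Sys.xG S K r t)⁻¹ = Sys.xG S K r t := by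
  rw [Sys.xG_inv, CharTwo.neg_eq]

theorem xG_mul_self (r : ℕ) (t : K) : Sys.xG S K r t * Sys.xG S K r t = 1 := by
  nth_rewrite 1 [← xG_inv_two]; exact inv_mul_cancel _

/-- The commutator rule of two root elements with a single term of odd coefficient. -/
theorem conj_rule {r s k : ℕ} {C : ℤ} (hr : r < chevD4.nroots) (hs : s < chevD4.nroots) (h1 : s ≠ r)
    (h2 : s ≠ chevD4.neg r) (hC : C = 1 ∨ C = -1) (ht : chevD4.commTerms r s = [(k, C, 1, 1)])
    (t u : K) :
    Sys.xG S K r t * Sys.xG S K s u * Sys.xG S K r t = Sys.xG S K s u * Sys.xG S K k (t * u) := by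
  have h := Sys.xG_comm S K hr hs h1 h2 t u
  rw [xG_inv_two] at h
  rw [h]
  congr 1
  simp only [ChevalleyDatum.commWord, ht, List.map_cons, List.map_nil, pow_one]
  rw [wG_single]
  rcases hC with rfl | rfl <;> simp [CharTwo.neg_eq]

variable [Fintype K] {q : ℕ} (hq : IsPrimePow q) (hK : Fintype.card K = q ^ 3)

include hq hK

theorem up_normal {n : ℕ} (hn : n < 7) {v w : GL chevD4.Idx K} (hv : v ∈ (tw hq hK).B1)
    (hvw : w ∈ NN hq hK n) : v * w * v⁻¹ ∈ NN hq hK n := NN_conj hq hK hn hv hvw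

omit [Fintype K] hq hK in
/-- In the positive unipotent group the layers from `n` on form a normal subgroup. -/
theorem up_le_normalizer {n : ℕ} (hn : n < 7) :
    chevD4.posUnipotent K ≤ Subgroup.normalizer (uSub chevD4 K {r | r ∈ upR n} : Set (GL chevD4.Idx K)) := by
  set Q := uSub chevD4 K {r | r ∈ upR n}
  rw [← uSub_univ]
  refine Sys.uSub_le S K fun r _ h1 h2 a => ?_
  have key : ∀ w ∈ Q, Sys.xG S K r a * w * (Sys.xG S K r a)⁻¹ ∈ Q := by
    intro w hw
    have hle : Q ≤ Q.comap (MulAut.conj (Sys.xG S K r a)).toMonoidHom := by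
      refine Sys.uSub_le S K fun s hs g1 g2 b => ?_
      rw [Subgroup.mem_comap, MulEquiv.coe_toMonoidHom, MulAut.conj_apply, Sys.xG_inv]
      by_cases hrs : s = r
      · subst hrs
        rw [Sys.xG_add, Sys.xG_add]
        exact Sys.xG_mem_uSub S K (P := {r | r ∈ upR n}) hs g1 g2 _
      have hneg : s ≠ chevD4.neg r := fun e => by
        have := (Sys.neg_half S r h2).mpr h1
        omega
      have h := Sys.xG_comm S K h2 g2 hrs hneg (-a) b
      rw [Sys.xG_inv, neg_neg] at h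
      rw [h]
      exact mul_mem (Sys.xG_mem_uSub S K (P := {r | r ∈ upR n}) hs g1 g2 _)
        (Sys.wG_commWord_mem S K h2 g2 _ _ fun c hc => chkUp_spec hn h2 g2 h1 g1 hs hc)
    exact hle hw
  refine Subgroup.mem_normalizer_iff.2 fun w => ⟨key w, fun hw => ?_⟩
  have h := key _ hw
  rw [xG_inv_two] at h
  have hsq : Sys.xG S K r a * Sys.xG S K r a = 1 := by
    nth_rewrite 1 [← xG_inv_two]; exact inv_mul_cancel _
  have e : Sys.xG S K r a * (Sys.xG S K r a * w * Sys.xG S K r a) * Sys.xG S K r a = w := by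
    rw [← mul_assoc (Sys.xG S K r a), ← mul_assoc (Sys.xG S K r a), hsq, one_mul, mul_assoc, hsq,
      mul_one]
  rwa [e] at h

omit [CharP K 2] in
theorem ee_short {k : Fin 6} {r0 r1 r2 : ℕ} (hk : isShort k = true)
    (e0 : wL chevD4 (wdN (layW k)) 18 = r0) (e1 : wL chevD4 (wdN (layW k)) 13 = r1)
    (e2 : wL chevD4 (wdN (layW k)) 12 = r2) :
    ∃ a b c : K, a ≠ 0 ∧ b ≠ 0 ∧ c ≠ 0 ∧ ∀ t, ee hq hK k t =
      Sys.xG S K r0 (a * t) * Sys.xG S K r1 (b * t ^ q) * Sys.xG S K r2 (c * t ^ (q ^ 2)) := by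
  set n := (tw hq hK).nW (layW k) with hn
  have key : ∀ r, (h : r < chevD4.nroots) → ∃ κ : K, κ ≠ 0 ∧ ∀ t,
      (n : GL chevD4.Idx K) * Sys.xG S K r t * (n : GL chevD4.Idx K)⁻¹ =
        Sys.xG S K (wL chevD4 (wdN (layW k)) r) (κ * t) := fun r h => by
    obtain ⟨κ, hκ, hc⟩ := Sys.conj_root S K n ⟨r, h⟩
    refine ⟨κ, hκ, fun t => ?_⟩
    rw [(hc t).1]
    congr 1
    rw [hn, Tw.perm_nW]; exact wperm_flat _ _
  obtain ⟨a, ha, hA⟩ := key 18 (by decide)
  obtain ⟨b, hb, hB⟩ := key 13 (by decide)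
  obtain ⟨c, hc, hC⟩ := key 12 (by decide)
  refine ⟨a, b, c, ha, hb, hc, fun t => ?_⟩
  rw [ee, base, hk, if_pos rfl, ← hn, P, ← conj_mul, ← conj_mul, hA, hB, hC, e0, e1, e2]

omit [CharP K 2] in
theorem ee_zero_layer (t : K) : ee hq hK 0 t = Sys.xG S K 14 t := by
  rw [ee, base, show isShort 0 = false from rfl, if_neg (by simp), show layW 0 = [] from rfl,
    Tw.nW_nil]
  simp

omit [CharP K 2] in
theorem ee_one_layer (t : K) : ee hq hK 1 t = P q t := by
  rw [ee, base, show isShort 1 = true from rfl, if_pos rfl, show layW 1 = [] from rfl, Tw.nW_nil]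
  simp

/-- The exact commutator of the short fundamental subgroup with the third short layer. -/
theorem exists_bracket (hq2 : q = 2) :
    ∃ s : K, ∀ n ∈ NN hq hK 4, ⁅P q s, ee hq hK 3 1 * n⁆ = Sys.xG S K 22 1 := by
  obtain ⟨a, b, c, ha, -, -, he⟩ := ee_short hq hK (k := 3) (r0 := 17) (r1 := 20) (r2 := 21) rfl
    (by decide +kernel) (by decide +kernel) (by decide +kernel)
  have hE : ee hq hK 3 1 = Sys.xG S K 17 a * Sys.xG S K 20 b * Sys.xG S K 21 c := by
    rw [he]; simp
  have h22 : ∀ r ∈ ([18, 13, 12, 17, 20, 21] : List ℕ), orthB chevD4 r 22 = true := by decide +kernel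
  have hcm : ∀ r ∈ ([18, 13, 12, 17, 20, 21] : List ℕ), ∀ t u : K,
      Sys.xG S K 22 u * Sys.xG S K r t = Sys.xG S K r t * Sys.xG S K 22 u :=
    fun r hr t u => (orth_commute S K (h22 r hr) t u).eq.symm
  -- the coefficient
  have hcoef : ∃ s : K, a * s + b * s ^ 2 + c * s ^ 4 ≠ 0 := by
    by_contra hall
    push Not at hall
    open Polynomial in
    let p : K[X] := C a * X + C b * X ^ 2 + C c * X ^ 4
    have hdeg : p.natDegree ≤ 4 := by simp only [p]; compute_degree
    have hp0 : p = 0 := by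
      refine Polynomial.eq_zero_of_natDegree_lt_card_of_eval_eq_zero p Function.injective_id
        (fun s => by simp [p, hall]) ?_
      rw [hK, hq2]
      omega
    apply ha
    have := congrArg (fun r : Polynomial K => r.coeff 1) hp0
    simpa [p, Polynomial.coeff_X_pow] using this
  obtain ⟨s, hs⟩ := hcoef
  refine ⟨s, fun n hn => ?_⟩
  have hPn : P q s * n = n * P q s := by
    have hle : uSub chevD4 K {r | r ∈ upR 4} ≤ Subgroup.centralizer {P q s} := by
      refine Sys.uSub_le S K fun r hr h1 h2 t => Subgroup.mem_centralizer_iff.2 ?_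
      rintro _ rfl
      have ho := (by decide +kernel : ∀ r ∈ upR 4,
        orthB chevD4 18 r = true ∧ orthB chevD4 13 r = true ∧ orthB chevD4 12 r = true) r hr
      exact ((orth_commute S K ho.1 _ _).mul_left (orth_commute S K ho.2.1 _ _)).mul_left
        (orth_commute S K ho.2.2 _ _)
    exact Subgroup.mem_centralizer_iff.1 (hle (Subgroup.mem_inf.1 hn).1) _ rfl
  set f : K := a * s + b * s ^ 2 + c * s ^ 4 with hf
  have hPP : (P q s)⁻¹ = P q s := by
    refine inv_eq_of_mul_eq_one_right ?_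
    rw [P_comm hq hK, CharTwo.add_self_eq_zero, P_zero hq hK]
  have hconj : P q s * (Sys.xG S K 17 a * Sys.xG S K 20 b * Sys.xG S K 21 c) * P q s =
      Sys.xG S K 17 a * Sys.xG S K 20 b * Sys.xG S K 21 c * Sys.xG S K 22 f := by
    have sq' : ∀ r (t : K), Sys.xG S K r t * Sys.xG S K r t = 1 := fun r t => by
      nth_rewrite 1 [← xG_inv_two]; exact inv_mul_cancel _
    have orth : ∀ {r r'}, orthB chevD4 r r' = true → ∀ t u : K,
        Sys.xG S K r t * Sys.xG S K r' u = Sys.xG S K r' u * Sys.xG S K r t :=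
      fun h t u => (orth_commute S K h t u).eq
    have cj : ∀ (r : ℕ) (t : K) (x : GL chevD4.Idx K), Sys.xG S K r t * x * Sys.xG S K r t =
        MulAut.conj (Sys.xG S K r t) x := fun r t x => by
      rw [MulAut.conj_apply, xG_inv_two]
    have c18 := fun t u => conj_rule (K := K) (r := 18) (s := 17) (k := 22) (C := -1) (by decide)
      (by decide) (by decide) (by decide +kernel) (Or.inr rfl) (by decide +kernel) t u
    have c13 := fun t u => conj_rule (K := K) (r := 13) (s := 20) (k := 22) (C := 1) (by decide)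
      (by decide) (by decide) (by decide +kernel) (Or.inl rfl) (by decide +kernel) t u
    have c12 := fun t u => conj_rule (K := K) (r := 12) (s := 21) (k := 22) (C := 1) (by decide)
      (by decide) (by decide) (by decide +kernel) (Or.inl rfl) (by decide +kernel) t u
    have fixc : ∀ {r r'}, orthB chevD4 r r' = true → ∀ t u : K,
        MulAut.conj (Sys.xG S K r t) (Sys.xG S K r' u) = Sys.xG S K r' u := fun h t u => by
      rw [MulAut.conj_apply, orth h, mul_inv_cancel_right]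
    simp only [cj] at c18 c13 c12
    rw [show P q s * (Sys.xG S K 17 a * Sys.xG S K 20 b * Sys.xG S K 21 c) * P q s =
        MulAut.conj (P q s) (Sys.xG S K 17 a * Sys.xG S K 20 b * Sys.xG S K 21 c) by
      rw [MulAut.conj_apply, hPP]]
    rw [P, hq2, map_mul MulAut.conj, map_mul MulAut.conj, MulAut.mul_apply, MulAut.mul_apply]
    simp only [map_mul, c18, c13, c12, fixc (show orthB chevD4 12 17 = true by decide +kernel),
      fixc (show orthB chevD4 12 20 = true by decide +kernel),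
      fixc (show orthB chevD4 13 17 = true by decide +kernel),
      fixc (show orthB chevD4 13 21 = true by decide +kernel),
      fixc (show orthB chevD4 13 22 = true by decide +kernel),
      fixc (show orthB chevD4 18 20 = true by decide +kernel),
      fixc (show orthB chevD4 18 21 = true by decide +kernel),
      fixc (show orthB chevD4 18 22 = true by decide +kernel)]
    simp only [mul_assoc, Sys.xG_add]
    rw [← mul_assoc (Sys.xG S K 22 (s * a)), hcm 20 (by simp), mul_assoc,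
      ← mul_assoc (Sys.xG S K 22 _) (Sys.xG S K 22 _), Sys.xG_add,
      ← mul_assoc (Sys.xG S K 22 _) (Sys.xG S K 21 c), hcm 21 (by simp), mul_assoc, Sys.xG_add, hf]
    congr 4
    ring
  have hmain : ⁅P q s, ee hq hK 3 1 * n⁆ = Sys.xG S K 22 f := by
    rw [commutatorElement_def, mul_inv_rev, hPP]
    have e1 : P q s * (ee hq hK 3 1 * n) * P q s * (n⁻¹ * (ee hq hK 3 1)⁻¹) =
        P q s * ee hq hK 3 1 * (n * P q s * n⁻¹) * (ee hq hK 3 1)⁻¹ := by group
    rw [e1, ← hPn, mul_inv_cancel_right, hE, hconj]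
    set x := Sys.xG S K 17 a * Sys.xG S K 20 b * Sys.xG S K 21 c
    have hx : x * Sys.xG S K 22 f = Sys.xG S K 22 f * x := by
      have c17 : Commute (Sys.xG S K 22 f) (Sys.xG S K 17 a) := hcm 17 (by simp) a f
      have c20 : Commute (Sys.xG S K 22 f) (Sys.xG S K 20 b) := hcm 20 (by simp) b f
      have c21 : Commute (Sys.xG S K 22 f) (Sys.xG S K 21 c) := hcm 21 (by simp) c f
      exact ((c17.mul_right c20).mul_right c21).eq.symm
    rw [hx, mul_inv_cancel_right]
  have hfix : f ^ q = f := by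
    refine fixed_of_mem hq hK (r := 22) (by simp) ?_
    rw [← hmain, commutatorElement_def]
    have h3 : ee hq hK 3 1 * n ∈ (tw hq hK).G :=
      mul_mem (ee_mem_G hq hK fun h => absurd h (by decide)) (Subgroup.mem_inf.1 hn).2
    exact mul_mem (mul_mem (mul_mem (P_mem s) h3) (inv_mem (P_mem s))) (inv_mem h3)
  have hf1 : f = 1 := by
    rw [hq2, pow_two] at hfix
    exact mul_right_cancel₀ hs (hfix.trans (one_mul f).symm)
  rw [hmain, hf1]

omit [Fintype K] hq hK in
theorem chkNext : ((List.range 6).all fun n => (List.range 24).all fun r => (List.range 24).all fun s =>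
    decide (r < 12) || decide (s < 12) || decide (r = s) || decide (s ∉ upR n) ||
      (chevD4.commTerms r s).all fun c => decide (c.1 ∈ upR (n + 1) ∧ 12 ≤ c.1)) = true := by
  decide +kernel

omit [Fintype K] hq hK in
/-- Congruence modulo the layers from `n` on. -/
def Cg (n : ℕ) (x y : GL chevD4.Idx K) : Prop := x * y⁻¹ ∈ uSub chevD4 K {r | r ∈ upR n}

omit [Fintype K] hq hK in
theorem Cg.of_eq {n : ℕ} {x y : GL chevD4.Idx K} (h : x = y) : Cg n x y := by
  rw [Cg, h, mul_inv_cancel]; exact one_mem _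

omit [Fintype K] hq hK in
theorem Cg.trans {n : ℕ} {x y z : GL chevD4.Idx K} (h : Cg n x y) (h' : Cg n y z) : Cg n x z := by
  have := mul_mem h h'
  rwa [mul_assoc, inv_mul_cancel_left] at this

omit [Fintype K] hq hK in
theorem conj_up {n : ℕ} (hn : n < 7) {g w : GL chevD4.Idx K} (hg : g ∈ chevD4.posUnipotent K)
    (hw : w ∈ uSub chevD4 K {r | r ∈ upR n}) : g * w * g⁻¹ ∈ uSub chevD4 K {r | r ∈ upR n} :=
  (Subgroup.mem_normalizer_iff.1 (up_le_normalizer hn hg) w).1 hw

omit [Fintype K] hq hK in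
theorem Cg.mul {n : ℕ} (hn : n < 7) {x x' y y' : GL chevD4.Idx K} (hx : x ∈ chevD4.posUnipotent K)
    (h : Cg n x y) (h' : Cg n x' y') : Cg n (x * x') (y * y') := by
  have := mul_mem (conj_up hn hx h') h
  rwa [show x * (x' * y'⁻¹) * x⁻¹ * (x * y⁻¹) = x * x' * (y * y')⁻¹ by group] at this

omit [Fintype K] hq hK in
/-- Commutators with a layer fall into the next one. -/
theorem bracket_up {n : ℕ} (hn : n < 6) {g z : GL chevD4.Idx K} (hg : g ∈ chevD4.posUnipotent K)
    (hz : z ∈ uSub chevD4 K {r | r ∈ upR n}) :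
    ⁅g, z⁆ ∈ uSub chevD4 K {r | r ∈ upR (n + 1)} := by
  set R := uSub chevD4 K {r | r ∈ upR (n + 1)}
  have hzp : ∀ {w}, w ∈ uSub chevD4 K {r | r ∈ upR n} → w ∈ chevD4.posUnipotent K :=
    fun hw => uSub_le_posUnipotent K _ hw
  let A : Subgroup (GL chevD4.Idx K) :=
    { carrier := {g | g ∈ chevD4.posUnipotent K ∧ ∀ w ∈ uSub chevD4 K {r | r ∈ upR n}, ⁅g, w⁆ ∈ R}
      one_mem' := ⟨one_mem _, fun w _ => by rw [commutatorElement_one_left]; exact one_mem _⟩
      mul_mem' := fun {a b} ha hb => ⟨mul_mem ha.1 hb.1, fun w hw => by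
        rw [show ⁅a * b, w⁆ = a * ⁅b, w⁆ * a⁻¹ * ⁅a, w⁆ by simp only [commutatorElement_def]; group]
        exact mul_mem (conj_up (by omega) ha.1 (hb.2 w hw)) (ha.2 w hw)⟩
      inv_mem' := fun {a} ha => ⟨inv_mem ha.1, fun w hw => by
        rw [show ⁅a⁻¹, w⁆ = a⁻¹ * ⁅a, w⁆⁻¹ * a⁻¹⁻¹ by simp only [commutatorElement_def]; group]
        exact conj_up (by omega) (inv_mem ha.1) (inv_mem (ha.2 w hw))⟩ }
  suffices hA : chevD4.posUnipotent K ≤ A from (hA hg).2 z hz
  rw [← uSub_univ]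
  refine Sys.uSub_le S K fun r _ h1 h2 t => ⟨uSub_le_posUnipotent K Set.univ
    (Sys.xG_mem_uSub S K (Set.mem_univ r) h1 h2 t), ?_⟩
  let B : Subgroup (GL chevD4.Idx K) :=
    { carrier := {w | w ∈ uSub chevD4 K {r | r ∈ upR n} ∧ ⁅Sys.xG S K r t, w⁆ ∈ R}
      one_mem' := ⟨one_mem _, by rw [commutatorElement_one_right]; exact one_mem _⟩
      mul_mem' := fun {a b} ha hb => ⟨mul_mem ha.1 hb.1, by
        rw [show ⁅Sys.xG S K r t, a * b⁆ = ⁅Sys.xG S K r t, a⁆ * (a * ⁅Sys.xG S K r t, b⁆ * a⁻¹) by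
          simp only [commutatorElement_def]; group]
        exact mul_mem ha.2 (conj_up (by omega) (hzp ha.1) hb.2)⟩
      inv_mem' := fun {a} ha => ⟨inv_mem ha.1, by
        rw [show ⁅Sys.xG S K r t, a⁻¹⁆ = a⁻¹ * ⁅Sys.xG S K r t, a⁆⁻¹ * a⁻¹⁻¹ by
          simp only [commutatorElement_def]; group]
        exact conj_up (by omega) (inv_mem (hzp ha.1)) (inv_mem ha.2)⟩ }
  suffices hB : uSub chevD4 K {r | r ∈ upR n} ≤ B from fun w hw => (hB hw).2
  refine Sys.uSub_le S K fun s hs g1 g2 u => ⟨Sys.xG_mem_uSub S K (P := {r | r ∈ upR n}) hs g1 g2 u, ?_⟩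
  by_cases hrs : s = r
  · subst hrs
    rw [commutatorElement_def, Sys.xG_add, Sys.xG_inv, Sys.xG_inv, Sys.xG_add, Sys.xG_add,
      show t + u + -t + -u = 0 by ring, Sys.xG_zero]
    exact one_mem _
  have hneg : s ≠ chevD4.neg r := fun e => by
    have := (Sys.neg_half S r h2).mpr h1
    omega
  have hq' := chkNext
  simp only [List.all_eq_true, List.mem_range, Bool.or_eq_true, decide_eq_true_eq] at hq'
  have hterm : ∀ c ∈ chevD4.commTerms r s, c.1 ∈ upR (n + 1) ∧ 12 ≤ c.1 := by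
    rcases hq' n hn r h2 s g2 with (((h | h) | h) | h) | h
    · exact absurd h1 (by rw [show chevD4.nroots / 2 = 12 from rfl]; omega)
    · exact absurd g1 (by rw [show chevD4.nroots / 2 = 12 from rfl]; omega)
    · exact absurd h.symm hrs
    · exact absurd hs h
    · exact h
  have h := Sys.xG_comm S K h2 g2 hrs hneg (-t) u
  rw [Sys.xG_inv, neg_neg] at h
  rw [commutatorElement_def, Sys.xG_inv S K r t, h]
  exact conj_up (by omega) (uSub_le_posUnipotent K Set.univ
    (Sys.xG_mem_uSub S K (Set.mem_univ s) g1 g2 u)) (Sys.wG_commWord_mem S K h2 g2 _ _ hterm)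

omit [Fintype K] hq hK in
/-- The commutator with a product of three elements. -/
theorem bracket_right {n : ℕ} (hn : n < 6) {x y1 y2 y3 z1 z2 z3 : GL chevD4.Idx K}
    (hx : x ∈ chevD4.posUnipotent K) (h1 : y1 ∈ chevD4.posUnipotent K)
    (h2 : y2 ∈ chevD4.posUnipotent K) (m1 : z1 ∈ uSub chevD4 K {r | r ∈ upR n})
    (m2 : z2 ∈ uSub chevD4 K {r | r ∈ upR n}) (m3 : z3 ∈ uSub chevD4 K {r | r ∈ upR n})
    (e1 : Cg (n + 1) ⁅x, y1⁆ z1) (e2 : Cg (n + 1) ⁅x, y2⁆ z2) (e3 : Cg (n + 1) ⁅x, y3⁆ z3) :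
    Cg (n + 1) ⁅x, y1 * y2 * y3⁆ (z1 * z2 * z3) := by
  have hb : ∀ {g z}, g ∈ chevD4.posUnipotent K → z ∈ uSub chevD4 K {r | r ∈ upR n} →
      Cg (n + 1) (g * z * g⁻¹) z := fun {g z} hg hz => bracket_up hn hg hz
  have hc : ∀ {g}, g ∈ chevD4.posUnipotent K → ∀ {c z}, Cg (n + 1) c z →
      z ∈ uSub chevD4 K {r | r ∈ upR n} → Cg (n + 1) (g * c * g⁻¹) z := fun {g} hg {c z} hcz hz => by
    refine Cg.trans ?_ (hb hg hz)
    have := conj_up (by omega) hg hcz
    rwa [show g * (c * z⁻¹) * g⁻¹ = g * c * g⁻¹ * (g * z * g⁻¹)⁻¹ by group] at this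
  have e : ⁅x, y1 * y2 * y3⁆ =
      ⁅x, y1⁆ * (y1 * ⁅x, y2⁆ * y1⁻¹) * (y1 * y2 * ⁅x, y3⁆ * (y1 * y2)⁻¹) := by
    simp only [commutatorElement_def]; group
  rw [e]
  have hp : ∀ {a b}, a ∈ chevD4.posUnipotent K → b ∈ chevD4.posUnipotent K →
      ⁅a, b⁆ ∈ chevD4.posUnipotent K := fun ha hb => by
    rw [commutatorElement_def]; exact mul_mem (mul_mem (mul_mem ha hb) (inv_mem ha)) (inv_mem hb)
  exact Cg.mul (by omega) (mul_mem (hp hx h1) (mul_mem (mul_mem h1 (hp hx h2)) (inv_mem h1)))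
    (Cg.mul (by omega) (hp hx h1) e1 (hc h1 e2 m2)) (hc (mul_mem h1 h2) e3 m3)

omit [Fintype K] hq hK in
/-- The commutator of a product of three elements, in the same form. -/
theorem bracket_left {n : ℕ} (hn : n < 6) {x1 x2 x3 y z1 z2 z3 : GL chevD4.Idx K}
    (h1 : x1 ∈ chevD4.posUnipotent K) (h2 : x2 ∈ chevD4.posUnipotent K)
    (m1 : z1 ∈ uSub chevD4 K {r | r ∈ upR n})
    (m2 : z2 ∈ uSub chevD4 K {r | r ∈ upR n}) (m3 : z3 ∈ uSub chevD4 K {r | r ∈ upR n})
    (e1 : Cg (n + 1) ⁅x1, y⁆ z1) (e2 : Cg (n + 1) ⁅x2, y⁆ z2) (e3 : Cg (n + 1) ⁅x3, y⁆ z3) :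
    Cg (n + 1) ⁅x1 * x2 * x3, y⁆ (z3 * z2 * z1) := by
  have hup : uSub chevD4 K {r | r ∈ upR n} ≤ chevD4.posUnipotent K := uSub_le_posUnipotent K _
  have hc : ∀ {g}, g ∈ chevD4.posUnipotent K → ∀ {c z}, Cg (n + 1) c z →
      z ∈ uSub chevD4 K {r | r ∈ upR n} → Cg (n + 1) (g * c * g⁻¹) z := fun {g} hg {c z} hcz hz => by
    refine Cg.trans ?_ (bracket_up hn hg hz)
    have := conj_up (by omega) hg hcz
    rwa [show g * (c * z⁻¹) * g⁻¹ = g * c * g⁻¹ * (g * z * g⁻¹)⁻¹ by group] at this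
  have hmem : ∀ {c z}, Cg (n + 1) c z → z ∈ uSub chevD4 K {r | r ∈ upR n} →
      c ∈ chevD4.posUnipotent K := fun {c z} h hz => by
    have := mul_mem (uSub_le_posUnipotent K _ h) (hup hz)
    rwa [inv_mul_cancel_right] at this
  have e : ⁅x1 * x2 * x3, y⁆ =
      (x1 * x2 * ⁅x3, y⁆ * (x1 * x2)⁻¹) * (x1 * ⁅x2, y⁆ * x1⁻¹) * ⁅x1, y⁆ := by
    simp only [commutatorElement_def]; group
  rw [e]
  have a3 := hc (mul_mem h1 h2) e3 m3
  have a2 := hc h1 e2 m2
  exact Cg.mul (by omega) (mul_mem (hmem a3 m3) (hmem a2 m2)) (Cg.mul (by omega) (hmem a3 m3) a3 a2) e1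

omit [Fintype K] hq hK in
/-- The commutator of two root elements with one term, orthogonal to the second root. -/
theorem bracket_root {r s k : ℕ} (h : r < chevD4.nroots ∧ s < chevD4.nroots ∧ s ≠ r ∧
      s ≠ chevD4.neg r ∧ orthB chevD4 s k = true ∧
      (chevD4.commTerms r s = [(k, 1, 1, 1)] ∨ chevD4.commTerms r s = [(k, -1, 1, 1)])) (t u : K) :
    ⁅Sys.xG S K r t, Sys.xG S K s u⁆ = Sys.xG S K k (t * u) := by
  obtain ⟨hr, hs, h1, h2, ho, ht⟩ := h
  have e : Sys.xG S K r t * Sys.xG S K s u * Sys.xG S K r t =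
      Sys.xG S K s u * Sys.xG S K k (t * u) := by
    rcases ht with ht | ht
    · exact conj_rule hr hs h1 h2 (Or.inl rfl) ht t u
    · exact conj_rule hr hs h1 h2 (Or.inr rfl) ht t u
  rw [commutatorElement_def, xG_inv_two, e, (orth_commute S K ho u (t * u)).eq, mul_inv_cancel_right]

omit [Fintype K] [CharP K 2] hq hK in
theorem bracket_orth {r s : ℕ} (h : orthB chevD4 r s = true) (t u : K) :
    ⁅Sys.xG S K r t, Sys.xG S K s u⁆ = 1 :=
  commutatorElement_eq_one_iff_mul_comm.2 (orth_commute S K h t u).eq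

/-- A trivial product of three root elements has trivial first coefficient. -/
theorem triple_coeff {r0 r1 r2 : ℕ} {a b c : K} (h0 : r0 < chevD4.nroots) (h1 : r1 < chevD4.nroots)
    (h2 : r2 < chevD4.nroots) (h : Sys.xG S K r0 a * Sys.xG S K r1 b * Sys.xG S K r2 c = 1)
    {p0 p1 : ℕ} (hp : p0 < chevD4.rank ∧ p1 < chevD4.rank)
    (hc : (chevD4.cartan p0 r0 + chevD4.cartan p1 r0).natAbs = 2 ∧
      chevD4.cartan p0 r1 + chevD4.cartan p1 r1 = 0 ∧ chevD4.cartan p0 r2 + chevD4.cartan p1 r2 = 0) :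
    a = 0 := by
  classical
  obtain ⟨g, hg⟩ := exists_sq_ne_one (K := K) (four_le_card hq (by norm_num) hK)
  let d : ℕ → Kˣ := Pi.mulSingle p0 g * Pi.mulSingle p1 g
  have hv : ∀ r, torusVal chevD4 d r = g ^ (chevD4.cartan p0 r + chevD4.cartan p1 r) := fun r => by
    rw [torusVal_mul, torusVal_single K _ hp.1, torusVal_single K _ hp.2, zpow_add]
  have h' : tor chevD4 K d * (Sys.xG S K r0 a * Sys.xG S K r1 b * Sys.xG S K r2 c) *
      (tor chevD4 K d)⁻¹ = 1 := by rw [h, mul_one, mul_inv_cancel]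
  rw [← conj_mul, ← conj_mul, Sys.tor_conj S K d h0, Sys.tor_conj S K d h1, Sys.tor_conj S K d h2,
    hv r1, hv r2, hc.2.1, hc.2.2, zpow_zero, Units.val_one, one_mul, one_mul] at h'
  have h3 := xG_inj S K h0 (mul_right_cancel (mul_right_cancel (h'.trans h.symm)))
  by_contra ha
  have h4 : ((torusVal chevD4 d r0 : Kˣ) : K) = 1 := mul_right_cancel₀ ha (by rw [h3, one_mul])
  rw [Units.val_eq_one, hv] at h4
  refine hg ?_
  rcases Int.natAbs_eq (chevD4.cartan p0 r0 + chevD4.cartan p1 r0) with e | e <;>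
    rw [e, hc.1] at h4
  · rw [zpow_natCast] at h4
    rw [h4, Units.val_one]
  · rw [zpow_neg, inv_eq_one, zpow_natCast] at h4
    rw [h4, Units.val_one]

/-- The three generators reach every layer. -/
theorem U_le_of_gens (hq2 : q = 2) {H : Subgroup (GL chevD4.Idx K)}
    (hHU : H ≤ chevD4.posUnipotent K ⊓ (tw hq hK).G) (h14 : Sys.xG S K 14 1 ∈ H)
    (hP : ∀ t, P q t ∈ H)
    (hT : ∀ c ∈ Cset K q, ∀ h ∈ H, tor chevD4 K c * h * (tor chevD4 K c)⁻¹ ∈ H) :
    chevD4.posUnipotent K ⊓ (tw hq hK).G ≤ H := by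
  have hHB : ∀ {h}, h ∈ H → h ∈ (tw hq hK).B1 := fun hh => (tw hq hK).U_le_B1 (hHU hh)
  -- `H N` is a subgroup
  have hsup : ∀ {n}, n < 7 → ∀ {x}, x ∈ H ⊔ NN hq hK n → ∃ h ∈ H, ∃ m ∈ NN hq hK n, x = h * m := by
    intro n hn x hx
    have hle : H ≤ Subgroup.normalizer (NN hq hK n : Set (GL chevD4.Idx K)) := fun h hh =>
      Subgroup.mem_normalizer_iff.2 fun w => ⟨fun hw => NN_conj hq hK hn (hHB hh) hw, fun hw => by
        have := NN_conj hq hK hn (inv_mem (hHB hh)) hw
        rwa [inv_inv, show h⁻¹ * (h * w * h⁻¹) * h = w by group] at this⟩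
    rw [← SetLike.mem_coe, Subgroup.coe_mul_of_left_le_normalizer_right _ _ hle] at hx
    obtain ⟨h, hh, m, hm, e⟩ := Set.mem_mul.1 hx
    exact ⟨h, hh, m, hm, e.symm⟩
  -- a layer is filled by one element outside the next
  have fill : ∀ k : Fin 6, ∀ h ∈ H ⊔ NN hq hK ((k : ℕ) + 1), h ∈ NN hq hK k →
      h ∉ NN hq hK ((k : ℕ) + 1) → NN hq hK k ≤ H ⊔ NN hq hK ((k : ℕ) + 1) := by
    intro k h hh hk hnot u hu
    obtain ⟨t, ht, hrest⟩ := exists_coord hq hK hk
    have ht0 : t ≠ 0 := fun e => hnot (by simpa [e, ee_zero] using hrest)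
    obtain ⟨v, hv, hurest⟩ := exists_coord hq hK hu
    have hev : ee hq hK k v ∈ H ⊔ NN hq hK ((k : ℕ) + 1) := by
      by_cases hv0 : v = 0
      · rw [hv0, ee_zero]; exact one_mem _
      have het : ee hq hK k t ∈ H ⊔ NN hq hK ((k : ℕ) + 1) := by
        have := mul_mem hh (inv_mem (Subgroup.mem_sup_right hrest))
        simpa using this
      cases hs : isShort k with
      | false =>
        have h1 : ∀ x : K, Dom q k x → x ≠ 0 → x = 1 := fun x hx hx0 => by
          have := hx hs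
          rw [hq2, pow_two] at this
          exact mul_right_cancel₀ hx0 (this.trans (one_mul x).symm)
        rw [h1 v hv hv0, ← h1 t ht ht0]; exact het
      | true =>
        obtain ⟨c, hc, hcv⟩ := exists_scalar hq hK hs (Units.mk0 _ (div_ne_zero hv0 ht0))
        obtain ⟨h', hh', m, hm, e⟩ := hsup (by omega) het
        have h2 := tor_conj_ee hq hK hc k t
        rw [hcv, Units.val_mk0, div_mul_cancel₀ v ht0, e, ← conj_mul] at h2
        rw [← h2]
        exact mul_mem (Subgroup.mem_sup_left (hT c hc h' hh'))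
          (Subgroup.mem_sup_right (NN_conj hq hK (by omega) ((tw hq hK).T_le_B1 ⟨c, hc, rfl⟩) hm))
    simpa using mul_mem hev (Subgroup.mem_sup_right hurest)
  have hx14 : ∀ t, t ^ q = t → Sys.xG S K 14 t ∈ H := fun t ht => by
    by_cases ht0 : t = 0
    · rw [ht0, Sys.xG_zero]; exact one_mem _
    rw [hq2, pow_two] at ht
    rw [mul_right_cancel₀ ht0 (ht.trans (one_mul t).symm)]; exact h14
  have l0 : NN hq hK 0 ≤ H ⊔ NN hq hK 1 := fun u hu => by
    obtain ⟨t, ht, hrest⟩ := exists_coord hq hK (k := 0) hu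
    rw [ee_zero_layer] at hrest
    simpa using mul_mem (Subgroup.mem_sup_left (hx14 t (ht rfl)))
      (Subgroup.mem_sup_right hrest)
  have l1 : NN hq hK 1 ≤ H ⊔ NN hq hK 2 := fun u hu => by
    obtain ⟨t, -, hrest⟩ := exists_coord hq hK (k := 1) hu
    rw [ee_one_layer] at hrest
    simpa using mul_mem (Subgroup.mem_sup_left (hP t))
      (Subgroup.mem_sup_right hrest)
  have hm : ∀ {j : Fin 6} {r : ℕ}, r ∈ layR j → 12 ≤ r → r < 24 → ∀ t : K,
      Sys.xG S K r t ∈ uSub chevD4 K {r | r ∈ layR j} :=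
    fun {j r} h1 h2 h3 t => Sys.xG_mem_uSub S K (P := {r | r ∈ layR j}) h1 h2 h3 t
  have hlayUp : ∀ j : Fin 6, uSub chevD4 K {r | r ∈ layR j} ≤ uSub chevD4 K {r | r ∈ upR j} :=
    fun j => uSub_mono fun r hr => by rw [← upR_split j]; exact Or.inl hr
  have hupUp : ∀ j : Fin 6, uSub chevD4 K {r | r ∈ upR ((j : ℕ) + 1)} ≤ uSub chevD4 K {r | r ∈ upR j} :=
    fun j => uSub_mono fun r hr => by rw [← upR_split j]; exact Or.inr hr
  -- from a congruence to an element outside the next layer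
  have out : ∀ (j : Fin 6) (e v : GL chevD4.Idx K), e ∈ H → v ∈ uSub chevD4 K {r | r ∈ layR j} →
      v ≠ 1 → Cg ((j : ℕ) + 1) e v → NN hq hK j ≤ H ⊔ NN hq hK ((j : ℕ) + 1) := by
    intro j e v he hv hv1 hcg
    have e1 : e = e * v⁻¹ * v := (inv_mul_cancel_right e v).symm
    refine fill j e (Subgroup.mem_sup_left he) (Subgroup.mem_inf.2
      ⟨e1 ▸ mul_mem (hupUp j hcg) (hlayUp j hv), (hHU he).2⟩) fun hn => hv1 ?_
    have hvQ : v ∈ uSub chevD4 K {r | r ∈ upR ((j : ℕ) + 1)} := by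
      have := mul_mem (inv_mem hcg) (Subgroup.mem_inf.1 hn).1
      rwa [mul_inv_rev, inv_inv, inv_mul_cancel_right] at this
    exact Subgroup.mem_bot.1 ((lay_inf (K := K) j).le ⟨hv, hvQ⟩)
  have hpU : ∀ {r}, 12 ≤ r → r < 24 → ∀ t : K, Sys.xG S K r t ∈ chevD4.posUnipotent K :=
    fun {r} h1 h2 t => uSub_le_posUnipotent K Set.univ (Sys.xG_mem_uSub S K (Set.mem_univ r) h1 h2 t)
  have hP1 : P q (1 : K) = Sys.xG S K 18 1 * Sys.xG S K 13 1 * Sys.xG S K 12 1 := by simp [P]
  have l2 : NN hq hK 2 ≤ H ⊔ NN hq hK 3 := by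
    refine out 2 ⁅Sys.xG S K 14 1, P q (1 : K)⁆
      (Sys.xG S K 19 1 * Sys.xG S K 16 1 * Sys.xG S K 15 1) ?_ ?_ ?_ ?_
    · rw [commutatorElement_def]
      exact mul_mem (mul_mem (mul_mem h14 (hP 1)) (inv_mem h14)) (inv_mem (hP 1))
    · exact mul_mem (mul_mem (hm (j := 2) (r := 19) (by decide) (by norm_num) (by norm_num) _)
        (hm (j := 2) (r := 16) (by decide) (by norm_num) (by norm_num) _))
        (hm (j := 2) (r := 15) (by decide) (by norm_num) (by norm_num) _)
    · intro h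
      exact one_ne_zero (triple_coeff hq hK (r0 := 19) (r1 := 16) (r2 := 15) (by decide +kernel)
        (by decide +kernel) (by decide +kernel) h (p0 := 0) (p1 := 1) (by decide +kernel)
        (by decide +kernel))
    · show Cg 3 _ _
      rw [hP1]
      have q19 := bracket_root (K := K) (r := 14) (s := 18) (k := 19) (by decide +kernel) 1 1
      have q16 := bracket_root (K := K) (r := 14) (s := 13) (k := 16) (by decide +kernel) 1 1
      have q15 := bracket_root (K := K) (r := 14) (s := 12) (k := 15) (by decide +kernel) 1 1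
      rw [one_mul] at q19 q16 q15
      refine bracket_right (n := 2) (by norm_num) (hpU (by norm_num) (by norm_num) _)
        (hpU (by norm_num) (by norm_num) _) (hpU (by norm_num) (by norm_num) _)
        (hlayUp 2 (hm (by decide) (by norm_num) (by norm_num) _))
        (hlayUp 2 (hm (by decide) (by norm_num) (by norm_num) _))
        (hlayUp 2 (hm (by decide) (by norm_num) (by norm_num) _))
        (Cg.of_eq q19) (Cg.of_eq q16) (Cg.of_eq q15)
  have l3 : NN hq hK 3 ≤ H ⊔ NN hq hK 4 := by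
    obtain ⟨κ1, κ2, κ3, -, h2ne, h3ne, he⟩ := ee_short hq hK (k := 2) (r0 := 19) (r1 := 16) (r2 := 15)
      rfl (by decide +kernel) (by decide +kernel) (by decide +kernel)
    -- a parameter with a nonzero coefficient
    obtain ⟨t, ht⟩ : ∃ t : K, κ2 * t ^ 2 + κ3 * t ^ 4 ≠ 0 := by
      by_contra hall
      push Not at hall
      classical
      obtain ⟨g, hg⟩ := exists_sq_ne_one (K := K) (four_le_card hq (by norm_num) hK)
      rw [Units.val_pow_eq_pow_val] at hg
      have h1 := hall 1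
      rw [one_pow, one_pow, mul_one, mul_one, add_eq_zero_iff_eq_neg, CharTwo.neg_eq] at h1
      have h2 := hall (g : K)
      rw [h1, ← mul_add, mul_eq_zero] at h2
      rcases h2 with h2 | h2
      · exact h3ne h2
      · apply hg
        have h4 : (g : K) ^ 2 * ((g : K) ^ 2 + 1) = 0 := by rw [← h2]; ring
        rcases mul_eq_zero.1 h4 with h4 | h4
        · exact absurd h4 (pow_ne_zero _ g.ne_zero)
        · rwa [add_eq_zero_iff_eq_neg, CharTwo.neg_eq] at h4
    obtain ⟨h, hh, m, hm', e⟩ := hsup (n := 3) (by norm_num)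
      (l2 (ee_mem_NN hq hK (k := 2) (t := t) fun h => absurd h (by decide)))
    set a := κ1 * t with ha
    set b := κ2 * t ^ q with hb
    set c := κ3 * t ^ (q ^ 2) with hc
    have hbc : b + c ≠ 0 := by rw [hb, hc, hq2]; exact ht
    have hee : ee hq hK 2 t = Sys.xG S K 19 a * Sys.xG S K 16 b * Sys.xG S K 15 c := he t
    set V := Sys.xG S K 17 (b + c) * Sys.xG S K 20 (a + c) * Sys.xG S K 21 (a + b) with hV
    have hVl : V ∈ uSub chevD4 K {r | r ∈ layR 3} :=
      mul_mem (mul_mem (hm (j := 3) (r := 17) (by decide) (by norm_num) (by norm_num) _)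
        (hm (j := 3) (r := 20) (by decide) (by norm_num) (by norm_num) _))
        (hm (j := 3) (r := 21) (by decide) (by norm_num) (by norm_num) _)
    refine out 3 ⁅P q (1 : K), h⁆ V ?_ hVl ?_ ?_
    · rw [commutatorElement_def]
      exact mul_mem (mul_mem (mul_mem (hP 1) hh) (inv_mem (hP 1))) (inv_mem hh)
    · intro h0
      exact hbc (triple_coeff hq hK (r0 := 17) (r1 := 20) (r2 := 21) (by decide +kernel)
        (by decide +kernel) (by decide +kernel) h0 (p0 := 2) (p1 := 3) (by decide +kernel)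
        (by decide +kernel))
    · show Cg 4 _ _
      have hA : ee hq hK 2 t ∈ chevD4.posUnipotent K :=
        uSub_le_posUnipotent K _ (ee_mem_lay hq hK 2 t)
      have hPp : P q (1 : K) ∈ chevD4.posUnipotent K :=
        uSub_le_posUnipotent K _ (X_le' hq hK 0 ((mem_XX0 hq hK).mpr ⟨1, rfl⟩))
      -- the tail does not matter
      have hmQ : m⁻¹ ∈ uSub chevD4 K {r | r ∈ upR 3} := inv_mem (Subgroup.mem_inf.1 hm').1
      have heq : h = ee hq hK 2 t * m⁻¹ := by rw [e, mul_inv_cancel_right]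
      have hinA : ⁅P q (1 : K), ee hq hK 2 t⁆ ∈ chevD4.posUnipotent K := by
        rw [commutatorElement_def]
        exact mul_mem (mul_mem (mul_mem hPp hA) (inv_mem hPp)) (inv_mem hA)
      have t1 : Cg 4 ⁅P q (1 : K), h⁆ ⁅P q (1 : K), ee hq hK 2 t⁆ := by
        rw [heq]
        show ⁅P q (1 : K), ee hq hK 2 t * m⁻¹⁆ * ⁅P q (1 : K), ee hq hK 2 t⁆⁻¹ ∈ _
        rw [show ⁅P q (1 : K), ee hq hK 2 t * m⁻¹⁆ * ⁅P q (1 : K), ee hq hK 2 t⁆⁻¹ =
          ⁅P q (1 : K), ee hq hK 2 t⁆ * (ee hq hK 2 t * ⁅P q (1 : K), m⁻¹⁆ * (ee hq hK 2 t)⁻¹) *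
            ⁅P q (1 : K), ee hq hK 2 t⁆⁻¹ by simp only [commutatorElement_def]; group]
        exact conj_up (by norm_num) hinA (conj_up (by norm_num) hA
          (bracket_up (n := 3) (by norm_num) hPp hmQ))
      refine t1.trans ?_
      -- the three factors of `P`
      have zero3 : (1 : GL chevD4.Idx K) ∈ uSub chevD4 K {r | r ∈ upR 3} := one_mem _
      have hl3 : ∀ {r}, r ∈ layR 3 → 12 ≤ r → r < 24 → ∀ x : K,
          Sys.xG S K r x ∈ uSub chevD4 K {r | r ∈ upR 3} :=
        fun h1 h2 h3 x => hlayUp 3 (hm h1 h2 h3 x)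
      have b18 : Cg 4 ⁅Sys.xG S K 18 (1 : K), ee hq hK 2 t⁆
          (1 * Sys.xG S K 21 b * Sys.xG S K 20 c) := by
        rw [hee]
        refine bracket_right (n := 3) (by norm_num) (hpU (by norm_num) (by norm_num) _)
          (hpU (by norm_num) (by norm_num) _) (hpU (by norm_num) (by norm_num) _) zero3
          (hl3 (by decide) (by norm_num) (by norm_num) _) (hl3 (by decide) (by norm_num) (by norm_num) _)
          (Cg.of_eq (bracket_orth (by decide +kernel) _ _)) ?_ ?_
        · exact Cg.of_eq (by rw [bracket_root (K := K) (r := 18) (s := 16) (k := 21) (by decide +kernel), one_mul])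
        · exact Cg.of_eq (by rw [bracket_root (K := K) (r := 18) (s := 15) (k := 20) (by decide +kernel), one_mul])
      have b13 : Cg 4 ⁅Sys.xG S K 13 (1 : K), ee hq hK 2 t⁆
          (Sys.xG S K 21 a * 1 * Sys.xG S K 17 c) := by
        rw [hee]
        refine bracket_right (n := 3) (by norm_num) (hpU (by norm_num) (by norm_num) _)
          (hpU (by norm_num) (by norm_num) _) (hpU (by norm_num) (by norm_num) _)
          (hl3 (by decide) (by norm_num) (by norm_num) _) zero3 (hl3 (by decide) (by norm_num) (by norm_num) _)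
          ?_ (Cg.of_eq (bracket_orth (by decide +kernel) _ _)) ?_
        · exact Cg.of_eq (by rw [bracket_root (K := K) (r := 13) (s := 19) (k := 21) (by decide +kernel), one_mul])
        · exact Cg.of_eq (by rw [bracket_root (K := K) (r := 13) (s := 15) (k := 17) (by decide +kernel), one_mul])
      have b12 : Cg 4 ⁅Sys.xG S K 12 (1 : K), ee hq hK 2 t⁆
          (Sys.xG S K 20 a * Sys.xG S K 17 b * 1) := by
        rw [hee]
        refine bracket_right (n := 3) (by norm_num) (hpU (by norm_num) (by norm_num) _)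
          (hpU (by norm_num) (by norm_num) _) (hpU (by norm_num) (by norm_num) _)
          (hl3 (by decide) (by norm_num) (by norm_num) _) (hl3 (by decide) (by norm_num) (by norm_num) _) zero3
          ?_ ?_ (Cg.of_eq (bracket_orth (by decide +kernel) _ _))
        · exact Cg.of_eq (by rw [bracket_root (K := K) (r := 12) (s := 19) (k := 20) (by decide +kernel), one_mul])
        · exact Cg.of_eq (by rw [bracket_root (K := K) (r := 12) (s := 16) (k := 17) (by decide +kernel), one_mul])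
      rw [hP1]
      have hleft := bracket_left (n := 3) (by norm_num) (hpU (r := 18) (by norm_num) (by norm_num) 1)
        (hpU (r := 13) (by norm_num) (by norm_num) 1)
        (mul_mem (mul_mem zero3 (hl3 (by decide) (by norm_num) (by norm_num) b))
          (hl3 (by decide) (by norm_num) (by norm_num) c))
        (mul_mem (mul_mem (hl3 (by decide) (by norm_num) (by norm_num) a) zero3)
          (hl3 (by decide) (by norm_num) (by norm_num) c))
        (mul_mem (mul_mem (hl3 (by decide) (by norm_num) (by norm_num) a)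
          (hl3 (by decide) (by norm_num) (by norm_num) b)) zero3) b18 b13 b12
      refine hleft.trans (Cg.of_eq ?_)
      have o : ∀ {r r'}, orthB chevD4 r r' = true → ∀ x y : K,
          Commute (Sys.xG S K r x) (Sys.xG S K r' y) := fun h => orth_commute S K h
      have o17 : ∀ x y : K, Commute (Sys.xG S K 17 x) (Sys.xG S K 20 y) := o (by decide +kernel)
      have o21 : ∀ x y : K, Commute (Sys.xG S K 17 x) (Sys.xG S K 21 y) := o (by decide +kernel)
      have o2 : ∀ x y : K, Commute (Sys.xG S K 20 x) (Sys.xG S K 21 y) := o (by decide +kernel)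
      rw [hV, one_mul, mul_one, mul_one]
      calc Sys.xG S K 20 a * Sys.xG S K 17 b * (Sys.xG S K 21 a * Sys.xG S K 17 c) *
            (Sys.xG S K 21 b * Sys.xG S K 20 c)
          = (Sys.xG S K 20 a * Sys.xG S K 17 b) * (Sys.xG S K 21 a * Sys.xG S K 17 c) *
            (Sys.xG S K 21 b * Sys.xG S K 20 c) := rfl
        _ = (Sys.xG S K 17 b * Sys.xG S K 20 a) * (Sys.xG S K 17 c * Sys.xG S K 21 a) *
            (Sys.xG S K 20 c * Sys.xG S K 21 b) := by
            rw [(o17 b a).eq, (o21 c a).eq, (o2 c b).eq]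
        _ = Sys.xG S K 17 b * (Sys.xG S K 20 a * Sys.xG S K 17 c) * (Sys.xG S K 21 a *
            Sys.xG S K 20 c) * Sys.xG S K 21 b := by group
        _ = Sys.xG S K 17 b * (Sys.xG S K 17 c * Sys.xG S K 20 a) * (Sys.xG S K 20 c *
            Sys.xG S K 21 a) * Sys.xG S K 21 b := by rw [(o17 c a).eq, (o2 c a).eq]
        _ = (Sys.xG S K 17 b * Sys.xG S K 17 c) * (Sys.xG S K 20 a * Sys.xG S K 20 c) *
            (Sys.xG S K 21 a * Sys.xG S K 21 b) := by group
        _ = _ := by simp only [Sys.xG_add]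
  have l4 : NN hq hK 4 ≤ H ⊔ NN hq hK 5 := by
    obtain ⟨s, hs⟩ := exists_bracket hq hK hq2
    obtain ⟨h, hh, m, hm, e⟩ := hsup (n := 4) (by norm_num)
      (l3 (ee_mem_NN hq hK (k := 3) (t := 1) fun h => absurd h (by decide)))
    have heq : h = ee hq hK 3 1 * m⁻¹ := by rw [e, mul_inv_cancel_right]
    have h22 : Sys.xG S K 22 1 ∈ H := by
      rw [← hs m⁻¹ (inv_mem hm), ← heq, commutatorElement_def]
      exact mul_mem (mul_mem (mul_mem (hP s) hh) (inv_mem (hP s))) (inv_mem hh)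
    refine fill 4 _ (Subgroup.mem_sup_left h22) (Subgroup.mem_inf.2 ⟨Sys.xG_mem_uSub S K
      (P := {r | r ∈ upR 4}) (show 22 ∈ upR 4 by decide +kernel) (by decide) (by decide) _,
      (hHU h22).2⟩) ?_
    intro hn
    have h1 : Sys.xG S K 22 (1 : K) ∈ uSub chevD4 K {r | r ∈ layR 4} ⊓
        uSub chevD4 K {r | r ∈ upR (((4 : Fin 6) : ℕ) + 1)} :=
      ⟨Sys.xG_mem_uSub S K (P := {r | r ∈ layR 4}) (show 22 ∈ layR 4 by decide) (by decide) (by decide) _,
        (Subgroup.mem_inf.1 hn).1⟩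
    rw [lay_inf, Subgroup.mem_bot, Sys.xG_eq_one_iff S K (by decide)] at h1
    exact one_ne_zero h1
  have l5 : NN hq hK 5 ≤ H ⊔ NN hq hK 6 := by
    have hm22 : Sys.xG S K 22 (1 : K) ∈ NN hq hK 4 := Subgroup.mem_inf.2 ⟨Sys.xG_mem_uSub S K
      (P := {r | r ∈ upR 4}) (show 22 ∈ upR 4 by decide +kernel) (by decide) (by decide) _,
      root_mem hq hK (by simp) (one_pow q)⟩
    obtain ⟨h, hh, m, hm, e⟩ := hsup (n := 5) (by norm_num) (l4 hm22)
    have heq : h = Sys.xG S K 22 1 * m⁻¹ := by rw [e, mul_inv_cancel_right]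
    have hcomm : Sys.xG S K 14 (1 : K) * m⁻¹ = m⁻¹ * Sys.xG S K 14 1 := by
      have hle : uSub chevD4 K {r | r ∈ upR 5} ≤ Subgroup.centralizer {Sys.xG S K 14 (1 : K)} := by
        refine Sys.uSub_le S K fun r hr h1 h2 t => Subgroup.mem_centralizer_iff.2 ?_
        rintro _ rfl
        exact (orth_commute S K ((by decide +kernel : ∀ r ∈ upR 5, orthB chevD4 14 r = true) r hr) _ _).eq
      exact Subgroup.mem_centralizer_iff.1 (hle (Subgroup.mem_inf.1 (inv_mem hm)).1) _ rfl
    have h23 : Sys.xG S K 23 1 ∈ H := by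
      have hr := conj_rule (K := K) (r := 14) (s := 22) (k := 23) (C := 1) (by decide) (by decide)
        (by decide) (by decide +kernel) (Or.inl rfl) (by decide +kernel) 1 1
      rw [one_mul] at hr
      have e2 : ⁅Sys.xG S K 14 (1 : K), h⁆ = Sys.xG S K 23 1 := by
        rw [commutatorElement_def, heq, xG_inv_two, mul_inv_rev, inv_inv, xG_inv_two]
        calc Sys.xG S K 14 1 * (Sys.xG S K 22 1 * m⁻¹) * Sys.xG S K 14 1 * (m * Sys.xG S K 22 1)
            = Sys.xG S K 14 1 * Sys.xG S K 22 1 * (m⁻¹ * Sys.xG S K 14 1) * m * Sys.xG S K 22 1 := by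
              group
          _ = Sys.xG S K 14 1 * Sys.xG S K 22 1 * Sys.xG S K 14 1 * Sys.xG S K 22 1 := by
              rw [← hcomm]; group
          _ = Sys.xG S K 22 1 * (Sys.xG S K 23 1 * Sys.xG S K 22 1) := by rw [hr, mul_assoc]
          _ = _ := by
              rw [← (orth_commute S K (show orthB chevD4 22 23 = true by decide +kernel) 1 1).eq,
                ← mul_assoc, xG_mul_self, one_mul]
      rw [← e2, commutatorElement_def]
      exact mul_mem (mul_mem (mul_mem h14 hh) (inv_mem h14)) (inv_mem hh)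
    refine fill 5 _ (Subgroup.mem_sup_left h23) (Subgroup.mem_inf.2 ⟨Sys.xG_mem_uSub S K
      (P := {r | r ∈ upR 5}) (show 23 ∈ upR 5 by decide +kernel) (by decide) (by decide) _,
      (hHU h23).2⟩) ?_
    intro hn
    have : Sys.xG S K 23 (1 : K) ∈ NN hq hK 6 := hn
    rw [NN_six, Subgroup.mem_bot, Sys.xG_eq_one_iff S K (by decide)] at this
    exact one_ne_zero this
  rw [← NN_zero]
  have step : ∀ {n}, NN hq hK n ≤ H ⊔ NN hq hK (n + 1) → H ⊔ NN hq hK n ≤ H ⊔ NN hq hK (n + 1) :=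
    fun h => sup_le le_sup_left h
  calc NN hq hK 0 ≤ H ⊔ NN hq hK 1 := l0
    _ ≤ H ⊔ NN hq hK 2 := step l1
    _ ≤ H ⊔ NN hq hK 3 := step l2
    _ ≤ H ⊔ NN hq hK 4 := step l3
    _ ≤ H ⊔ NN hq hK 5 := step l4
    _ ≤ H ⊔ NN hq hK 6 := step l5
    _ = H := by rw [NN_six, sup_bot_eq]

end CfsgLib.SchurTwisted.D4
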