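import Cfsg.Agent.SchurTwisted.CrossLift
import Cfsg.Agent.TwistedLie.E6Order
import Cfsg.Agent.TwistedLie.E6Torus

/-!
The rank-one homomorphisms of `²E₆(q)` and the multiplier at primes different from the
characteristic.
-/

set_option autoImplicit false

namespace CfsgLib.SchurTwisted.E6

open Cfsg.Lie CfsgLib.Chevalley CfsgLib.Chevalley.SL2Rel CfsgLib.TwistedLie CfsgLib.TwistedLie.E6
open CfsgLib.SchurClassical
open scoped MatrixGroups

universe u

local notation "S" => sysE6

variable {K : Type u} [Field K] [Fintype K] {q : ℕ} (hq : IsPrimePow q) (hK : Fintype.card K = q ^ 2)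

/-- The homomorphism of a fundamental root. -/
noncomputable def sHom {i : ℕ} (hi : i < chevE6.rank) : SL(2, K) →* GL chevE6.Idx K :=
  (Sys.sl2Rel S K hi).lift

omit [Fintype K] in
theorem sHom_upper {i : ℕ} (hi : i < chevE6.rank) (t : K) :
    sHom hi (upper t) = Sys.xG S K (chevE6.simple i) t :=
  (Sys.sl2Rel S K hi).lift_upper rfl

omit [Fintype K] in
theorem sHom_lower {i : ℕ} (hi : i < chevE6.rank) (t : K) :
    sHom hi (lower t) = Sys.xG S K (chevE6.neg (chevE6.simple i)) t :=
  (Sys.sl2Rel S K hi).lift_lower rfl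

omit [Fintype K] in
theorem sHom_dia {i : ℕ} (hi : i < chevE6.rank) (u : Kˣ) :
    sHom hi (dia u) = tor chevE6 K (Pi.mulSingle i u) := lift_dia _ u

omit [Fintype K] in
theorem sHom_weyl {i : ℕ} (hi : i < chevE6.rank) :
    sHom (K := K) hi weyl = Sys.nG S K (chevE6.simple i) 1 := lift_weyl _

omit [Fintype K] in
theorem sHom_commute {i j : ℕ} (hi : i < chevE6.rank) (hj : j < chevE6.rank)
    (h : orthPairB chevE6 (chevE6.simple i) (chevE6.simple j) = true) (a b : SL(2, K)) :
    Commute (sHom hi a) (sHom hj b) := by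
  obtain ⟨h1, h2, h3, h4⟩ := orthPair_spec h
  have key : ∀ x ∈ (sHom (K := K) hi).range, ∀ y ∈ (sHom (K := K) hj).range, Commute x y := by
    intro x hx y hy
    rw [sHom, SL2Rel.range_lift] at hx hy
    induction hx using Subgroup.closure_induction with
    | mem x hx =>
      induction hy using Subgroup.closure_induction with
      | mem y hy =>
        rcases hx with ⟨t, rfl⟩ | ⟨t, rfl⟩ <;> rcases hy with ⟨u, rfl⟩ | ⟨u, rfl⟩
        exacts [orth_commute S K h1 t u, orth_commute S K h3 t u, orth_commute S K h2 t u,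
          orth_commute S K h4 t u]
      | one => exact Commute.one_right _
      | mul _ _ _ _ a b => exact a.mul_right b
      | inv _ _ a => exact a.inv_right
    | one => exact Commute.one_left _
    | mul _ _ _ _ a b => exact a.mul_left b
    | inv _ _ a => exact a.inv_left
  exact key _ ⟨a, rfl⟩ _ ⟨b, rfl⟩

omit [Fintype K] in
theorem torusVal_neg (c : ℕ → Kˣ) {r : ℕ} (hr : r < chevE6.nroots) :
    (torusVal chevE6 c (chevE6.neg r) : K) = (torusVal chevE6 c r : K)⁻¹ :=
  eq_inv_of_mul_eq_one_right ((Sys.torusVal_isChar S K c).1 r hr)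

include hq hK

/-- The fixed field. -/
noncomputable def kFix : Subfield K := (phi hq hK).eqLocusField (RingHom.id K)

theorem mem_kFix {t : K} : t ∈ kFix hq hK ↔ phi hq hK t = t := Iff.rfl

/-- The homomorphism of a fixed fundamental root. -/
noncomputable def phi1 {i : ℕ} (hi : i < chevE6.rank) : SL(2, kFix hq hK) →* GL chevE6.Idx K :=
  (sHom hi).comp (Matrix.SpecialLinearGroup.map (kFix hq hK).subtype)

/-- The homomorphism of a pair of fundamental roots. -/
noncomputable def phi2 {a b : ℕ} (h : Folded.Two chevE6 pE sgE qE a b) :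
    SL(2, K) →* GL chevE6.Idx K :=
  MonoidHom.mk' (fun g => sHom h.a_lt g *
    sHom h.b_lt (Matrix.SpecialLinearGroup.map (phi hq hK) g)) fun x y => by
    simp only [map_mul]
    rw [mul_assoc, ← mul_assoc (sHom h.a_lt y), (sHom_commute h.a_lt h.b_lt h.orth y _).eq,
      mul_assoc, ← mul_assoc]

theorem phi2_apply {a b : ℕ} (h : Folded.Two chevE6 pE sgE qE a b) (g : SL(2, K)) :
    phi2 hq hK h g = sHom h.a_lt g *
      sHom h.b_lt (Matrix.SpecialLinearGroup.map (phi hq hK) g) := rfl

/-- The rank-one data of an orbit of one root. -/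
@[reducible]
noncomputable def oneData (p : ℕ) [CharP K p] (i : Fin 4) (a : ℕ)
    (h : Folded.One chevE6 pE sgE qE a) (hi : blkN i = [a])
    (hX : XX hq hK i = Folded.X1 S (phi hq hK) a) : RankOne (tw hq hK) p i :=
  letI : Fintype (kFix hq hK) := Fintype.ofFinite _
  haveI : CharP (kFix hq hK) p := (RingHom.charP_iff (algebraMap (kFix hq hK) K)
    (algebraMap (kFix hq hK) K).injective p).2 inferInstance
  { F := kFix hq hK
    φ := phi1 hq hK h.lt
    upper_mem := fun t => by
      show _ ∈ XX hq hK i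
      rw [hX, phi1, MonoidHom.comp_apply, map_upper, sHom_upper]
      exact (Folded.mem_X1 S _).mpr ⟨_, t.2, rfl⟩
    onto := fun x hx => by
      change x ∈ XX hq hK i at hx
      rw [hX] at hx
      obtain ⟨t, ht, rfl⟩ := (Folded.mem_X1 S _).mp hx
      exact ⟨⟨t, ht⟩, by rw [phi1, MonoidHom.comp_apply, map_upper, sHom_upper]; rfl⟩
    inj := fun t ht => by
      rw [phi1, MonoidHom.comp_apply, map_upper, sHom_upper,
        Sys.xG_eq_one_iff S K (sysE6.wf.simple_lt a h.lt)] at ht
      exact Subtype.ext ht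
    map_weyl := by
      show _ = (Sys.wN S K (blkF i) : GL chevE6.Idx K)
      rw [phi1, MonoidHom.comp_apply, map_weyl, sHom_weyl, n_eq hq hK, hi]
      simp [nL]
    dia_mem := fun u => by
      rw [phi1, MonoidHom.comp_apply, map_dia, sHom_dia]
      exact mem_TT hq hK (Folded.one_mem_fixC graphE6 _ h (u : kFix hq hK).2)
    scale := by
      rintro _ ⟨c, hc, rfl⟩
      have hlt := sysE6.wf.simple_lt a h.lt
      have he : phi hq hK (torusVal chevE6 c (chevE6.simple a) : K) =
          (torusVal chevE6 c (chevE6.simple a) : K) := by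
        exact (Folded.torusVal_fix_val graphE6 _ hc hlt).symm.trans
          (congrArg (fun r => (torusVal chevE6 c r : K)) h.p_eq)
      refine ⟨Units.mk0 ⟨_, he⟩ (fun e => Units.ne_zero _ (congrArg Subtype.val e)), fun t => ?_⟩
      simp only [phi1, MonoidHom.comp_apply, map_upper, map_lower, sHom_upper, sHom_lower]
      refine ⟨Sys.tor_conj S K c hlt _, ?_⟩
      rw [Sys.tor_conj S K c (sysE6.wf.neg_lt _ hlt), torusVal_neg c hlt]
      rfl }

/-- The rank-one data of an orbit of two roots. -/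
@[reducible]
noncomputable def twoData (p : ℕ) [CharP K p] (i : Fin 4) (a b : ℕ)
    (h : Folded.Two chevE6 pE sgE qE a b) (hi : blkN i = [a, b])
    (hX : XX hq hK i = Folded.X2 S (phi hq hK) h) : RankOne (tw hq hK) p i :=
  have hup : ∀ t, phi2 hq hK h (upper t) = Folded.P S (phi hq hK) a b t := fun t => by
    rw [phi2_apply, map_upper, sHom_upper, sHom_upper, Folded.P]
  { F := K
    φ := phi2 hq hK h
    upper_mem := fun t => by
      show _ ∈ XX hq hK i
      rw [hX, hup]
      exact (Folded.mem_X2 S _).mpr ⟨t, rfl⟩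
    onto := fun x hx => by
      change x ∈ XX hq hK i at hx
      rw [hX] at hx
      obtain ⟨t, rfl⟩ := (Folded.mem_X2 S _).mp hx
      exact ⟨t, hup t⟩
    inj := fun t ht => by
      rw [hup] at ht
      exact Folded.P_inj S _ h (ht.trans (by simp [Folded.P, Sys.xG_zero]))
    map_weyl := by
      show _ = (Sys.wN S K (blkF i) : GL chevE6.Idx K)
      rw [phi2_apply, map_weyl, sHom_weyl, sHom_weyl, n_eq hq hK, hi]
      simp [nL]
    dia_mem := fun u => by
      rw [phi2_apply, map_dia, sHom_dia, sHom_dia, ← map_mul]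
      exact mem_TT hq hK (Folded.cP_mem_fixC graphE6 _ h (phi_phi hq hK) u)
    scale := by
      rintro _ ⟨c, hc, rfl⟩
      have hla := sysE6.wf.simple_lt a h.a_lt
      have hlb := sysE6.wf.simple_lt b h.b_lt
      refine ⟨torusVal chevE6 c (chevE6.simple a), fun t => ⟨?_, ?_⟩⟩
      · rw [hup, hup, Folded.P_conj S _ h graphE6 hc]
      · have hb : (torusVal chevE6 c (chevE6.simple b) : K) =
            phi hq hK (torusVal chevE6 c (chevE6.simple a) : K) :=
          (congrArg (fun r => (torusVal chevE6 c r : K)) h.p_a.symm).trans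
            (Folded.torusVal_fix_val graphE6 (phi hq hK) hc hla)
        simp only [phi2_apply, map_lower, sHom_lower]
        rw [← conj_mul, Sys.tor_conj S K c (sysE6.wf.neg_lt _ hla),
          Sys.tor_conj S K c (sysE6.wf.neg_lt _ hlb), torusVal_neg c hla, torusVal_neg c hlb, hb,
          map_mul, map_inv₀] }

/-- The four rank-one homomorphisms. -/
@[reducible]
noncomputable def rankOne (p : ℕ) [CharP K p] : ∀ i, RankOne (tw hq hK) p i
  | 0 => oneData hq hK p 0 1 one1 rfl rfl
  | 1 => oneData hq hK p 1 3 one3 rfl rfl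
  | 2 => twoData hq hK p 2 2 4 two24 rfl rfl
  | 3 => twoData hq hK p 3 0 5 two05 rfl rfl

omit hq hK in
/-- The Coxeter matrix of the folded system. -/
def mE (i j : Fin 4) : ℕ :=
  (![![1, 3, 2, 2], ![3, 1, 4, 2], ![2, 4, 1, 3], ![2, 2, 3, 1]] : Fin 4 → Fin 4 → ℕ) i j

omit hq hK in
theorem mE_ok : Tw.CoxOK chevE6 blkN mE := by decide +kernel

omit hq hK in
/-- The word of a braid relation. -/
def braidW (i j : Fin 4) : List (Fin 4) :=
  if mE i j = 2 then [j] else if mE i j = 3 then [j, i] else [j, i, j]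

omit hq hK in
theorem braid_ok : ∀ i j : Fin 4, i ≠ j → ∀ a, a = (if mE i j = 3 then j else i) →
    (List.replicate (mE i j) [i, j]).flatten = i :: braidW i j ++ a :: (braidW i j).reverse ∧
      ∀ c ∈ blkN a, ∃ d ∈ blkN i,
        chevE6.simple d = wL chevE6 (wdN (braidW i j)) (chevE6.simple c) := by decide +kernel

theorem isPGroup_U {p : ℕ} [CharP K p] :
    IsPGroup p ↥(chevE6.posUnipotent K ⊓ (tw hq hK).G) := by
  obtain ⟨p', hp', hc', n, e⟩ := exists_char_pow hq two_ne_zero hK
  obtain rfl := CharP.eq K hc' ‹CharP K p›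
  exact IsPGroup.of_card (n := n * 36) (by rw [card_U hq hK, e, pow_mul])

theorem card_kFix : Nat.card (kFix hq hK)ˣ = q - 1 := by
  have hU : Nat.card (fixU K q) = q - 1 := by
    rw [IsCyclic.card_powMonoidHom_ker, Nat.card_units, Nat.card_eq_fintype_card, hK]
    exact Nat.gcd_eq_right (Nat.sub_one_dvd_pow_sub_one q 2)
  rw [← hU]
  refine Nat.card_congr ⟨fun u => ⟨Units.map ((kFix hq hK).subtype : kFix hq hK →* K) u,
      (mem_fixU hq hK).2 (u : kFix hq hK).2⟩,
    fun v => Units.mk0 ⟨_, (mem_fixU hq hK).1 v.2⟩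
      (fun e => Units.ne_zero _ (congrArg Subtype.val e)),
    fun u => ?_, fun v => ?_⟩
  · exact Units.ext (Subtype.ext rfl)
  · exact Subtype.ext (Units.ext rfl)

/-- For `r` different from the characteristic the `r`-part of a stem kernel divides the multiplier. -/
theorem card_cross {p r : ℕ} [CharP K p] (hp : p.Prime) (hr : r.Prime) (hne : r ≠ p)
    {Γ : Type u} [Group Γ] [Finite Γ] {σ : Γ →* ↥(tw hq hK).G} (hs : Function.Surjective σ)
    (hc : σ.ker ≤ Subgroup.center Γ) (hA : IsPGroup r σ.ker) :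
    Nat.card ↥(σ.ker ⊓ commutator Γ) ∣ Nat.gcd 3 (q + 1) := by
  let π : Γ →* GL chevE6.Idx K := (tw hq hK).G.subtype.comp σ
  have hk : π.ker = σ.ker := MonoidHom.ker_comp_of_injective σ _ (Subgroup.subtype_injective _)
  have hrange : π.range = (tw hq hK).G := by
    rw [MonoidHom.range_comp, MonoidHom.range_eq_top.2 hs, ← MonoidHom.range_eq_map,
      Subgroup.range_subtype]
  have hbl : ∀ i, ((tw hq hK).blk i).map (fun a : Fin chevE6.rank => (a : ℕ)) = blkN i := blkF_val
  have hT : (tw hq hK).T ≤ ⨆ i, ((rankOne hq hK p i).φ.comp diaHom).range := by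
    rintro _ ⟨c, hc, rfl⟩
    obtain ⟨h1, h3, -, -⟩ := fixC_vals hq hK hc
    rw [fixC_decomp hq hK hc]
    refine mul_mem (mul_mem (mul_mem (Subgroup.mem_iSup_of_mem 0 ?_) (Subgroup.mem_iSup_of_mem 1 ?_))
      (Subgroup.mem_iSup_of_mem 2 ?_)) (Subgroup.mem_iSup_of_mem 3 ?_)
    · refine ⟨Units.mk0 ⟨_, h1⟩ (fun e => Units.ne_zero _ (congrArg Subtype.val e)), ?_⟩
      show phi1 hq hK one1.lt (dia _) = _
      rw [phi1, MonoidHom.comp_apply, map_dia, sHom_dia]
      exact congrArg (fun u => tor chevE6 K (Pi.mulSingle 1 u)) (Units.ext rfl)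
    · refine ⟨Units.mk0 ⟨_, h3⟩ (fun e => Units.ne_zero _ (congrArg Subtype.val e)), ?_⟩
      show phi1 hq hK one3.lt (dia _) = _
      rw [phi1, MonoidHom.comp_apply, map_dia, sHom_dia]
      exact congrArg (fun u => tor chevE6 K (Pi.mulSingle 3 u)) (Units.ext rfl)
    · refine ⟨c 2, ?_⟩
      show phi2 hq hK two24 (dia _) = _
      rw [phi2_apply, map_dia, sHom_dia, sHom_dia, ← map_mul]
      rfl
    · refine ⟨c 0, ?_⟩
      show phi2 hq hK two05 (dia _) = _
      rw [phi2_apply, map_dia, sHom_dia, sHom_dia, ← map_mul]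
      rfl
  have h := card_ker_inf_commutator (rankOne hq hK p) hT (isPGroup_U hq hK) hbl mE mE_ok
    (fun i j hij => by
      obtain ⟨hw, hm⟩ := braid_ok i j hij _ rfl
      refine ⟨_, _, hw, fun c hc => ?_⟩
      obtain ⟨d, hd, e⟩ := hm (c : ℕ) (mem_blkF.mp hc)
      refine ⟨⟨d, blkN_lt i d hd⟩, mem_blkF.mpr hd, e.trans ?_⟩
      exact (wperm_flat (braidW i j) (Sys.simpleF S c)).symm)
    (fun i k hk _ => hk) hp hr hne hrange (hk ▸ hc) (hk ▸ hA)
  rw [hk] at h
  have hprod : ∏ i, Nat.card (rankOne hq hK p i).Fˣ =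
      Nat.gcd 3 (q + 1) * Nat.card (tw hq hK).T := by
    rw [Fin.prod_univ_four, card_T hq hK]
    show Nat.card (kFix hq hK)ˣ * Nat.card (kFix hq hK)ˣ * Nat.card Kˣ * Nat.card Kˣ = _
    rw [card_kFix hq hK, Nat.card_units, Nat.card_eq_fintype_card, hK]
    have hsq : q ^ 2 - 1 = (q - 1) * (q + 1) := by
      rw [mul_comm, ← Nat.sq_sub_sq q 1, one_pow]
    rw [hsq]
    ring
  rw [hprod] at h
  have hpos : 0 < Nat.card (tw hq hK).T := by
    haveI : Finite (GL chevE6.Idx K) := inferInstance
    exact Nat.card_pos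
  exact Nat.dvd_of_mul_dvd_mul_right hpos h

end CfsgLib.SchurTwisted.E6
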