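import Cfsg.Agent.TwistedLie.E6Facts

/-!
The layers of the unipotent subgroup of `²E₆(q)`: the twenty-four orbits of positive roots ordered
by height, with the finite checks about them.
-/

set_option autoImplicit false

namespace CfsgLib.SchurTwisted.E6

open Cfsg.Lie CfsgLib.Chevalley CfsgLib.TwistedLie CfsgLib.TwistedLie.E6

local notation "S" => sysE6

/-- The first roots of the layers. -/
def repL : List ℕ :=
  [36, 37, 39, 46, 38, 40, 47, 41, 44, 48, 45, 49, 51, 52, 53, 60, 54, 63, 55, 65, 66, 69, 70, 71]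

/-- The heights of the layers, and a bound beyond the last. -/
def lowL : List ℤ :=
  [1, 1, 1, 1, 2, 2, 2, 3, 3, 3, 4, 4, 4, 5, 5, 5, 6, 6, 7, 7, 8, 9, 10, 11, 12]

/-- The first root of a layer. -/
def rep (n : ℕ) : ℕ := repL.getD n 0

/-- Whether a layer consists of two roots. -/
def isShort (n : ℕ) : Bool := decide (pE (rep n) ≠ rep n)

/-- The roots of a layer. -/
def layR (n : ℕ) : List ℕ := if isShort n then [rep n, pE (rep n)] else [rep n]

/-- The roots of the layers from `n` on. -/
def upR (n : ℕ) : List ℕ := ((List.range 24).filter fun j => decide (n ≤ j)).flatMap layR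

/-- The height of a root. -/
def ht (r : ℕ) : ℤ :=
  tabE6.coord 6 0 r + tabE6.coord 6 1 r + tabE6.coord 6 2 r + tabE6.coord 6 3 r +
    tabE6.coord 6 4 r + tabE6.coord 6 5 r

theorem ht_add {r s k i j : ℕ}
    (h : ∀ m < chevE6.rank, Sys.vec S m k = i * Sys.vec S m r + j * Sys.vec S m s) :
    ht k = i * ht r + j * ht s := by
  have e : ∀ m < 6, tabE6.coord 6 m k = i * tabE6.coord 6 m r + j * tabE6.coord 6 m s := h
  simp only [ht, e 0 (by norm_num), e 1 (by norm_num), e 2 (by norm_num), e 3 (by norm_num),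
    e 4 (by norm_num), e 5 (by norm_num)]
  ring

theorem ht_range : ((List.range 72).all fun r =>
    decide (r < 36) || decide (1 ≤ ht r ∧ ht r ≤ 11)) = true := by decide +kernel

theorem ht_pos {r : ℕ} (hr : r < 72) (h : 36 ≤ r) : 1 ≤ ht r ∧ ht r ≤ 11 := by
  have h' := ht_range
  simp only [List.all_eq_true, List.mem_range, Bool.or_eq_true, decide_eq_true_eq] at h'
  exact (h' r hr).resolve_left (by omega)

/-- The layers from `n` on contain everything above their lowest height. -/
theorem chkUpHt : ((List.range 25).all fun n => (List.range 72).all fun r =>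
    decide (r < 36) || ((decide (r ∉ upR n) || decide (lowL.getD n 0 ≤ ht r)) &&
      (decide (ht r ≤ lowL.getD n 0) || decide (r ∈ upR n)))) = true := by decide +kernel

theorem upR_ht {n r : ℕ} (hn : n < 25) (hr : r < 72) (h : 36 ≤ r) :
    (r ∈ upR n → lowL.getD n 0 ≤ ht r) ∧ (lowL.getD n 0 < ht r → r ∈ upR n) := by
  have h' := chkUpHt
  simp only [List.all_eq_true, List.mem_range, Bool.or_eq_true, Bool.and_eq_true,
    decide_eq_true_eq] at h'
  obtain ⟨h1, h2⟩ := (h' n hn r hr).resolve_left (by omega)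
  exact ⟨fun hm => h1.resolve_left (not_not_intro hm), fun hl => h2.resolve_left (by omega)⟩

theorem sum_pos {r s k i j : ℕ} (hrp : chevE6.IsPosRoot r) (hsp : chevE6.IsPosRoot s)
    (hk : k < chevE6.nroots) (hi : 1 ≤ i)
    (hv : ∀ m < chevE6.rank, Sys.vec S m k = i * Sys.vec S m r + j * Sys.vec S m s) :
    36 ≤ k := by
  obtain ⟨h1, h2⟩ := (Sys.pos_iff S r).mp hrp
  obtain ⟨h3, h4⟩ := (Sys.pos_iff S s).mp hsp
  obtain ⟨m, hm, hmr⟩ := Sys.exists_vec_pos S h2 h1
  refine Sys.pos_of_vec S hk hm ?_
  rw [hv m hm]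
  have : (0 : ℤ) < i * Sys.vec S m r := mul_pos (by omega) hmr
  have : (0 : ℤ) ≤ j * Sys.vec S m s := mul_nonneg (by omega) (Sys.vec_pos S s h4 h3 m hm)
  omega

theorem closed_up {n : ℕ} (hn : n < 25) : Sys.Closed S {r | r ∈ upR n} := by
  intro r hr s hs hrp hsp k hk i j hi hj hv
  obtain ⟨h1, h2⟩ := (Sys.pos_iff S r).mp hrp
  obtain ⟨h3, h4⟩ := (Sys.pos_iff S s).mp hsp
  refine (upR_ht hn hk (sum_pos hrp hsp hk hi hv)).2 ?_
  have ha := (upR_ht hn h2 h1).1 hr
  have hb := (ht_pos h4 h3).1
  have hc := (ht_pos h2 h1).1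
  rw [ht_add hv]
  have e1 : ht r ≤ i * ht r := le_mul_of_one_le_left (by omega) (by exact_mod_cast hi)
  have e2 : (1 : ℤ) ≤ j * ht s := one_le_mul_of_one_le_of_one_le (by exact_mod_cast hj) hb
  omega

theorem chkLayHt : ((List.range 24).all fun l => (layR l).all fun r =>
    decide (r < 72 ∧ 36 ≤ r ∧ ht r = lowL.getD l 0)) = true := by decide +kernel

theorem lay_ht {l r : ℕ} (hl : l < 24) (hr : r ∈ layR l) :
    r < 72 ∧ 36 ≤ r ∧ ht r = lowL.getD l 0 := by
  have h := chkLayHt
  simp only [List.all_eq_true, List.mem_range, decide_eq_true_eq] at h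
  exact h l hl r hr

/-- No root is a combination of the roots of one layer. -/
theorem chkNoSum : ((List.range 24).all fun l => (List.range 72).all fun k =>
    decide (k < 36) ||
    (List.range 12).all fun n => decide (n < 2) ||
      decide (ht k ≠ (n : ℤ) * lowL.getD l 0) ||
      (List.range n).all fun i => decide (i = 0) ||
        (layR l).all fun r => (layR l).all fun s =>
          !((List.range 6).all fun m => decide (tabE6.coord 6 m k =
            (i : ℤ) * tabE6.coord 6 m r + ((n - i : ℕ) : ℤ) * tabE6.coord 6 m s))) = true := by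
  decide +kernel

theorem closed_lay {l : ℕ} (hl : l < 24) : Sys.Closed S {r | r ∈ layR l} := by
  intro r hr s hs hrp hsp k hk i j hi hj hv
  obtain ⟨h2, h1, ha⟩ := lay_ht hl hr
  obtain ⟨h4, h3, hb⟩ := lay_ht hl hs
  have hk' := sum_pos hrp hsp hk hi hv
  have e := ht_add hv
  rw [ha, hb, ← add_mul] at e
  have hlow : (1 : ℤ) ≤ lowL.getD l 0 := ha ▸ (ht_pos h2 h1).1
  have hn : i + j < 12 := by
    have h11 := (ht_pos hk hk').2
    have : ((i : ℤ) + j) * 1 ≤ ((i : ℤ) + j) * lowL.getD l 0 :=
      mul_le_mul_of_nonneg_left hlow (by omega)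
    omega
  exfalso
  have h := chkNoSum
  simp only [List.all_eq_true, List.mem_range, Bool.or_eq_true, decide_eq_true_eq,
    Bool.not_eq_true', List.all_eq_false] at h
  rcases (h l hl k hk).resolve_left (by omega) (i + j) hn with (hh | hh) | hh
  · omega
  · exact hh (by push_cast; exact e)
  · obtain ⟨m, hm, hne⟩ := (hh i (by omega)).resolve_left (by omega) r hr s hs
    refine hne ?_
    rw [show i + j - i = j by omega]
    exact hv m hm

theorem upR_sub : ((List.range 24).all fun k => (layR k).all fun r => decide (r ∈ upR k) &&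
    decide (r ∉ upR (k + 1))) = true := by decide +kernel

theorem upR_step : ((List.range 24).all fun k => (upR (k + 1)).all fun r => decide (r ∈ upR k)) =
    true := by decide +kernel

theorem upR_cases : ((List.range 24).all fun k => (upR k).all fun r =>
    decide (r ∈ layR k) || decide (r ∈ upR (k + 1))) = true := by decide +kernel

theorem upR_split {k : ℕ} (hk : k < 24) :
    {r | r ∈ layR k} ∪ {r | r ∈ upR (k + 1)} = {r | r ∈ upR k} := by
  ext r
  simp only [Set.mem_union, Set.mem_ofPred_eq]
  have h1 := upR_sub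
  have h2 := upR_step
  have h3 := upR_cases
  simp only [List.all_eq_true, List.mem_range, Bool.or_eq_true, Bool.and_eq_true,
    decide_eq_true_eq] at h1 h2 h3
  exact ⟨fun h => h.elim (fun h => (h1 k hk r h).1) (h2 k hk r), h3 k hk r⟩

theorem lay_not_up {k r : ℕ} (hk : k < 24) (hr : r ∈ layR k) : r ∉ upR (k + 1) := by
  have h1 := upR_sub
  simp only [List.all_eq_true, List.mem_range, Bool.and_eq_true, decide_eq_true_eq] at h1
  exact (h1 k hk r hr).2

theorem upR_24 : upR 24 = [] := by decide +kernel

theorem upR_all : ((List.range 72).all fun r => decide (r < 36) || decide (r ∈ upR 0)) = true := by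
  decide +kernel

/-- The layers from `n` on form an ideal of the positive roots. -/
theorem chkUp : ((List.range 25).all fun n => (upR n).all fun s => (List.range 72).all fun r =>
    decide (r < 36) ||
      (chevE6.commTerms r s).all fun c => decide (c.1 ∈ upR n ∧ 36 ≤ c.1)) = true := by decide +kernel

theorem chkUp_spec {n r s : ℕ} (hn : n < 25) (hr : r < 72) (h1 : 36 ≤ r) (hsu : s ∈ upR n)
    {c : ℕ × ℤ × ℕ × ℕ} (hc : c ∈ chevE6.commTerms r s) : c.1 ∈ upR n ∧ 36 ≤ c.1 := by
  have h := chkUp
  simp only [List.all_eq_true, List.mem_range, Bool.or_eq_true, decide_eq_true_eq] at h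
  exact (h n hn s hsu r hr).resolve_left (by omega) c hc

/-- The twist on the layers. -/
theorem chkTwist : ((List.range 24).all fun k =>
    ((layR k).all fun r => decide (pE r ∈ layR k)) && decide (rep k < 72 ∧ 36 ≤ rep k) &&
    (if isShort k then decide (pE (pE (rep k)) = rep k) &&
        decide (sgE (rep k) * sgE (pE (rep k)) = 1) &&
        orthB chevE6 (rep k) (pE (rep k))
      else decide (sgE (rep k) = 1))) = true := by decide +kernel

theorem twist_short {k : ℕ} (hk : k < 24) (h : isShort k = true) :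
    pE (pE (rep k)) = rep k ∧ sgE (rep k) * sgE (pE (rep k)) = 1 ∧
      orthB chevE6 (rep k) (pE (rep k)) = true := by
  have h' := chkTwist
  simp only [List.all_eq_true, List.mem_range, Bool.and_eq_true, decide_eq_true_eq] at h'
  have h2 := (h' k hk).2
  rw [if_pos h] at h2
  simp only [Bool.and_eq_true, decide_eq_true_eq] at h2
  exact ⟨h2.1.1, h2.1.2, h2.2⟩

theorem twist_long {k : ℕ} (hk : k < 24) (h : isShort k = false) :
    pE (rep k) = rep k ∧ sgE (rep k) = 1 := by
  have h' := chkTwist
  simp only [List.all_eq_true, List.mem_range, Bool.and_eq_true, decide_eq_true_eq] at h'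
  have h2 := (h' k hk).2
  rw [if_neg (by simp [h])] at h2
  exact ⟨by simpa [isShort] using h, by simpa using h2⟩

theorem lay_pE {k r : ℕ} (hk : k < 24) (hr : r ∈ layR k) : pE r ∈ layR k := by
  have h' := chkTwist
  simp only [List.all_eq_true, List.mem_range, Bool.and_eq_true, decide_eq_true_eq] at h'
  exact (h' k hk).1.1 r hr

theorem rep_pos {k : ℕ} (hk : k < 24) : rep k < 72 ∧ 36 ≤ rep k := by
  have h' := chkTwist
  simp only [List.all_eq_true, List.mem_range, Bool.and_eq_true, decide_eq_true_eq] at h'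
  exact (h' k hk).1.2

theorem up_pE : ((List.range 25).all fun n => (upR n).all fun r =>
    decide (pE r ∈ upR n)) = true := by decide +kernel

end CfsgLib.SchurTwisted.E6
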