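import Cfsg.Agent.SchurClassical.Lifts
import Cfsg.Agent.Schur.CentralCommutator

/-!
Invariant complements along a flag of a unipotent group normalised by a torus.

In a central extension, let `N' ≤ N` be normalised by a subgroup `B`, let `M'` be a `B`-invariant
complement over `N'`, let the lifts of `N` commute modulo `M'` and let some `t` in the torus act
without fixed points on `N / N'`.  Then `[t, N]M'` is a complement over `N`, invariant under every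
element that either commutes with such a `t`, or arises as `[t, g]` for a `t` fixing `N / N'`.
-/

set_option autoImplicit false

namespace CfsgLib.SchurTwisted

open scoped commutatorElement
open CfsgLib.SchurClassical

variable {Γ A : Type*} [Group Γ] [Group A] (π : Γ →* A)

/-- An invariant complement of the kernel over a subgroup. -/
structure Compl (B N : Subgroup A) (M : Subgroup Γ) : Prop where
  inj : π.ker ⊓ M = ⊥
  map : M.map π = N
  conj : ∀ g, π g ∈ B → ∀ m ∈ M, g * m * g⁻¹ ∈ M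

/-- An element acting without fixed points on a layer. -/
def FPF (t : A) (N N' : Subgroup A) : Prop := ∀ u ∈ N, t * u * t⁻¹ * u⁻¹ ∈ N' → u ∈ N'

/-- An element fixing a layer pointwise. -/
def FixesLayer (t : A) (N N' : Subgroup A) : Prop := ∀ u ∈ N, t * u * t⁻¹ * u⁻¹ ∈ N'

variable {π}

namespace Compl

variable {B N : Subgroup A} {M : Subgroup Γ} (h : Compl π B N M)
include h

theorem map_mem {m : Γ} (hm : m ∈ M) : π m ∈ N := h.map ▸ Subgroup.mem_map_of_mem π hm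

theorem ext {a b : Γ} (ha : a ∈ M) (hb : b ∈ M) (e : π a = π b) : a = b :=
  mul_inv_eq_one.1 (Subgroup.mem_bot.1 (h.inj.le (Subgroup.mem_inf.2
    ⟨by rw [MonoidHom.mem_ker, map_mul, map_inv, e, mul_inv_cancel],
      M.mul_mem ha (M.inv_mem hb)⟩)))

theorem exists_lift {u : A} (hu : u ∈ N) : ∃ m ∈ M, π m = u := by
  rwa [← h.map] at hu

theorem split (hc : π.ker ≤ Subgroup.center Γ) {g : Γ} (hg : π g ∈ N) :
    ∃ z ∈ Subgroup.center Γ, ∃ m ∈ M, π z = 1 ∧ g = z * m := by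
  obtain ⟨m, hm, e⟩ := h.exists_lift hg
  have hk : g * m⁻¹ ∈ π.ker := by rw [MonoidHom.mem_ker, map_mul, map_inv, e, mul_inv_cancel]
  exact ⟨_, hc hk, m, hm, hk, (inv_mul_cancel_right g m).symm⟩

end Compl

theorem comm_congr (hc : π.ker ≤ Subgroup.center Γ) {g g' a a' : Γ} (e1 : π g = π g')
    (e2 : π a = π a') : ⁅g, a⁆ = ⁅g', a'⁆ := Schur.commutator_congr hc e1 e2

theorem mem_commutator_mul {g a b : Γ} : ⁅g, a * b⁆ = ⁅g, a⁆ * ⁅a, ⁅g, b⁆⁆ * ⁅g, b⁆ := by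
  simp only [commutatorElement_def]; group

/-- One step along the flag. -/
theorem exists_compl_step [Finite Γ] [Finite A] (hc : π.ker ≤ Subgroup.center Γ)
    {B U T N N' : Subgroup A} {M' : Subgroup Γ} (hM' : Compl π B N' M') (hN'N : N' ≤ N)
    (hNB : N ≤ B) (hTB : T ≤ B) (hUB : U ≤ B) (hBN : ∀ g ∈ B, ∀ u ∈ N, g * u * g⁻¹ ∈ N)
    (hBN' : ∀ g ∈ B, ∀ u ∈ N', g * u * g⁻¹ ∈ N') (hBr : B ≤ π.range)
    (hTcomm : ∀ a ∈ T, ∀ b ∈ T, a * b = b * a)
    (hab : ∀ a b : Γ, π a ∈ N → π b ∈ N → ⁅a, b⁆ ∈ M')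
    {t₀ : A} (ht₀ : t₀ ∈ T) (hf₀ : FPF t₀ N N') {Y : Set A}
    (hYB : Y ⊆ B) (hgen : B ≤ Subgroup.closure ((T : Set A) ∪ N ∪ Y))
    (hY : ∀ y ∈ Y, (∃ t ∈ T, t * y = y * t ∧ FPF t N N') ∨
      ∃ t ∈ T, ∃ y₀ ∈ U, FixesLayer t N N' ∧ t * y₀ * t⁻¹ * y₀⁻¹ = y) :
    ∃ M, Compl π B N M ∧ M' ≤ M := by
  obtain ⟨τ₀, hτ₀⟩ := hBr (hTB ht₀)
  let M : Subgroup Γ :=
    { carrier := {x | ∃ a, π a ∈ N ∧ ∃ m ∈ M', x = ⁅τ₀, a⁆ * m}
      one_mem' := ⟨1, by rw [map_one]; exact one_mem _, 1, one_mem _, by simp⟩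
      mul_mem' := by
        rintro _ _ ⟨a, ha, m, hm, rfl⟩ ⟨b, hb, m', hm', rfl⟩
        have hτb : π ⁅τ₀, b⁆ ∈ N := by
          rw [map_commutatorElement, commutatorElement_def, hτ₀]
          exact mul_mem (hBN _ (hTB ht₀) _ hb) (inv_mem hb)
        refine ⟨a * b, by rw [map_mul]; exact mul_mem ha hb,
          ⁅τ₀, b⁆⁻¹ * (⁅a, ⁅τ₀, b⁆⁆⁻¹ * m) * ⁅τ₀, b⁆ * m', mul_mem ?_ hm', ?_⟩
        · have := hM'.conj ⁅τ₀, b⁆⁻¹ (by rw [map_inv]; exact hNB (inv_mem hτb))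
            (⁅a, ⁅τ₀, b⁆⁆⁻¹ * m) (mul_mem (inv_mem (hab _ _ ha hτb)) hm)
          rwa [inv_inv] at this
        · rw [mem_commutator_mul]; group
      inv_mem' := by
        rintro _ ⟨a, ha, m, hm, rfl⟩
        have hτa : π ⁅τ₀, a⁻¹⁆ ∈ N := by
          rw [map_commutatorElement, commutatorElement_def, hτ₀, map_inv, inv_inv]
          exact mul_mem (hBN _ (hTB ht₀) _ (inv_mem ha)) ha
        refine ⟨a⁻¹, by rw [map_inv]; exact inv_mem ha,
          (⁅τ₀, a⁆ * m * ⁅τ₀, a⁻¹⁆)⁻¹, inv_mem ?_, by group⟩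
        have e : ⁅τ₀, a * a⁻¹⁆ = ⁅τ₀, a⁆ * ⁅a, ⁅τ₀, a⁻¹⁆⁆ * ⁅τ₀, a⁻¹⁆ := mem_commutator_mul
        rw [mul_inv_cancel, commutatorElement_one_right] at e
        have hk := hab a _ ha hτa
        have h1 := mul_mem (inv_mem hk) hm
        have h2 := hM'.conj ⁅τ₀, a⁻¹⁆⁻¹ (by rw [map_inv]; exact hNB (inv_mem hτa)) _ h1
        have e2 : ⁅τ₀, a⁆ = ⁅τ₀, a⁻¹⁆⁻¹ * ⁅a, ⁅τ₀, a⁻¹⁆⁆⁻¹ := by
          rw [eq_comm, ← mul_inv_rev, inv_eq_iff_mul_eq_one, eq_comm, e]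
          have h3 : ∀ x y : Γ, x * y = 1 → y * x = 1 := fun x y h => by
            rw [mul_eq_one_iff_eq_inv.1 h, mul_inv_cancel]
          have h4 := h3 _ _ (show ⁅τ₀, a⁆ * (⁅a, ⁅τ₀, a⁻¹⁆⁆ * ⁅τ₀, a⁻¹⁆) = 1 by
            rw [← mul_assoc, ← e])
          rw [h4, ← e]
        rw [e2]
        rw [inv_inv] at h2
        simpa [mul_assoc] using h2 }
  have hM : ∀ {x}, x ∈ M ↔ ∃ a, π a ∈ N ∧ ∃ m ∈ M', x = ⁅τ₀, a⁆ * m := Iff.rfl
  have hle : M' ≤ M := fun m hm => hM.2 ⟨1, by rw [map_one]; exact one_mem _, m, hm, by simp⟩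
  have hπ0 : ∀ a, π ⁅τ₀, a⁆ = t₀ * π a * t₀⁻¹ * (π a)⁻¹ := fun a => by
    rw [map_commutatorElement, commutatorElement_def, hτ₀]
  have hinj : π.ker ⊓ M = ⊥ := by
    rw [eq_bot_iff]
    rintro _ ⟨hx, a, ha, m, hm, rfl⟩
    have hx' : π (⁅τ₀, a⁆ * m) = 1 := hx
    rw [map_mul, hπ0, mul_eq_one_iff_eq_inv] at hx'
    have haN' : π a ∈ N' := hf₀ _ ha (hx'.symm ▸ inv_mem (hM'.map_mem hm))
    obtain ⟨z, hz, b, hb, hz1, rfl⟩ := hM'.split hc haN'
    have hcm : ⁅τ₀, z * b⁆ ∈ M' := by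
      rw [comm_congr hc (g' := τ₀) (a' := b) rfl (by rw [map_mul, hz1, one_mul]), commutatorElement_def]
      exact mul_mem (hM'.conj τ₀ (hτ₀ ▸ hTB ht₀) b hb) (inv_mem hb)
    exact Subgroup.mem_bot.2 (Subgroup.mem_bot.1 (hM'.inj.le (Subgroup.mem_inf.2
      ⟨hx, mul_mem hcm hm⟩)))
  have hmap : M.map π = N := by
    refine le_antisymm ?_ ?_
    · rintro _ ⟨_, ⟨a, ha, m, hm, rfl⟩, rfl⟩
      rw [map_mul, hπ0]
      exact mul_mem (mul_mem (hBN _ (hTB ht₀) _ ha) (inv_mem ha)) (hN'N (hM'.map_mem hm))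
    · intro u hu
      -- the map induced by `t₀` on the cosets of `N'` is a bijection
      haveI hnorm : (N'.subgroupOf N).Normal := ⟨fun x hx g => by
        rw [Subgroup.mem_subgroupOf] at hx ⊢
        exact hBN' _ (hNB g.2) _ hx⟩
      let f : N → N := fun v => ⟨t₀ * v * t₀⁻¹ * (v : A)⁻¹,
        mul_mem (hBN _ (hTB ht₀) _ v.2) (inv_mem v.2)⟩
      have key : ∀ v w : N, (f v)⁻¹ * f w ∈ N'.subgroupOf N → v⁻¹ * w ∈ N'.subgroupOf N := by
        intro v w hvw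
        rw [Subgroup.mem_subgroupOf] at hvw ⊢
        refine hf₀ _ (v⁻¹ * w).2 ?_
        obtain ⟨v', hv'⟩ := hBr (hNB v.2)
        obtain ⟨w', hw'⟩ := hBr (hNB w.2)
        have h1 := hab v'⁻¹ ⁅τ₀, v'⁻¹ * w'⁆ (by rw [map_inv, hv']; exact inv_mem v.2) (by
          rw [hπ0, map_mul, map_inv, hv', hw']
          exact mul_mem (hBN _ (hTB ht₀) _ (v⁻¹ * w).2) (inv_mem (v⁻¹ * w).2))
        have h2 := hM'.map_mem h1
        rw [map_commutatorElement, hπ0, map_mul, map_inv, hv', hw'] at h2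
        have h3 : (f v : A)⁻¹ * f w ∈ N' := hvw
        have e : (f v : A)⁻¹ * f w = ⁅(v : A), t₀ * (((v : A))⁻¹ * w) * t₀⁻¹ * ((v : A)⁻¹ * w)⁻¹⁆ *
            (t₀ * ((v : A)⁻¹ * w) * t₀⁻¹ * ((v : A)⁻¹ * w)⁻¹) := by
          simp only [f, commutatorElement_def]; group
        have h5 := hab v' ⁅τ₀, v'⁻¹ * w'⁆ (hv' ▸ v.2) (by
          rw [hπ0, map_mul, map_inv, hv', hw']
          exact mul_mem (hBN _ (hTB ht₀) _ (v⁻¹ * w).2) (inv_mem (v⁻¹ * w).2))
        have h6 := hM'.map_mem h5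
        rw [map_commutatorElement, hπ0, map_mul, map_inv, hv', hw'] at h6
        rw [e] at h3
        have h7 := mul_mem (inv_mem h6) h3
        rwa [inv_mul_cancel_left] at h7
      let F : N → N ⧸ N'.subgroupOf N := fun v => QuotientGroup.mk (f v)
      have hF : ∀ v w, F v = F w → (QuotientGroup.mk v : N ⧸ N'.subgroupOf N) = QuotientGroup.mk w :=
        fun v w h => QuotientGroup.eq.2 (key v w (QuotientGroup.eq.1 h))
      let G : N ⧸ N'.subgroupOf N → N ⧸ N'.subgroupOf N := fun c => F (Quotient.out c)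
      have hG : Function.Injective G := fun c d h => by
        have := hF _ _ h
        simpa using this
      obtain ⟨c, hc'⟩ := Finite.injective_iff_surjective.1 hG (QuotientGroup.mk ⟨u, hu⟩)
      have hmem : ((f (Quotient.out c))⁻¹ * ⟨u, hu⟩ : N) ∈ N'.subgroupOf N := QuotientGroup.eq.1 hc'
      obtain ⟨m, hm, hme⟩ := hM'.exists_lift (Subgroup.mem_subgroupOf.1 hmem)
      obtain ⟨a, ha⟩ := hBr (hNB (Quotient.out c).2)
      refine ⟨⁅τ₀, a⁆ * m, hM.2 ⟨a, ha ▸ (Quotient.out c).2, m, hm, rfl⟩, ?_⟩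
      rw [map_mul, hπ0, ha, hme]
      simp only [f, Subgroup.coe_mul, Subgroup.coe_inv]
      group
  refine ⟨M, ⟨hinj, hmap, ?_⟩, hle⟩
  have hsplit : ∀ {g}, π g ∈ N → ∃ z ∈ Subgroup.center Γ, ∃ m ∈ M, π z = 1 ∧ g = z * m := by
    intro g hg
    obtain ⟨m, hm, e⟩ := (hmap.ge hg : π g ∈ M.map π)
    have hk : g * m⁻¹ ∈ π.ker := by rw [MonoidHom.mem_ker, map_mul, map_inv, e, mul_inv_cancel]
    exact ⟨_, hc hk, m, hm, hk, (inv_mul_cancel_right g m).symm⟩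
  -- the stabiliser of `M`
  let S : Subgroup Γ :=
    { carrier := {g | π g ∈ B ∧ ∀ m ∈ M, g * m * g⁻¹ ∈ M}
      one_mem' := ⟨by rw [map_one]; exact one_mem _, fun m hm => by simpa using hm⟩
      mul_mem' := fun {a b} ha hb => ⟨by rw [map_mul]; exact mul_mem ha.1 hb.1, fun m hm => by
        have := ha.2 _ (hb.2 m hm)
        rwa [show a * b * m * (a * b)⁻¹ = a * (b * m * b⁻¹) * a⁻¹ by group]⟩
      inv_mem' := fun {a} ha => ⟨by rw [map_inv]; exact inv_mem ha.1, fun m hm => by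
        let φ : M → M := fun x => ⟨a * x * a⁻¹, ha.2 x x.2⟩
        have hφ : Function.Injective φ := fun x y h => by
          have h' := congrArg Subtype.val h
          exact Subtype.ext (mul_left_cancel (mul_right_cancel h'))
        obtain ⟨x, hx⟩ := Finite.injective_iff_surjective.1 hφ ⟨m, hm⟩
        have e : a * x * a⁻¹ = m := congrArg Subtype.val hx
        rw [inv_inv, ← e]
        simpa [mul_assoc] using x.2⟩ }
  have hS : ∀ g, π g ∈ B → (∀ a, π a ∈ N → g * ⁅τ₀, a⁆ * g⁻¹ ∈ M) → g ∈ S := by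
    refine fun g hg h => ⟨hg, ?_⟩
    rintro _ ⟨a, ha, m, hm, rfl⟩
    rw [← conj_mul]
    exact mul_mem (h a ha) (hle (hM'.conj g hg m hm))
  have hSN : ∀ g, π g ∈ N → g ∈ S := fun g hg => ⟨hNB hg, fun m hm => by
    rw [show g * m * g⁻¹ = ⁅g, m⁆ * m by rw [commutatorElement_def]; group]
    exact mul_mem (hle (hab g m hg (hmap.le (Subgroup.mem_map_of_mem π hm)))) hm⟩
  have hST : ∀ g, π g ∈ T → g ∈ S := fun g hg => hS g (hTB hg) fun a ha => hM.2
    ⟨g * a * g⁻¹, by rw [map_mul, map_mul, map_inv]; exact hBN _ (hTB hg) _ ha, 1, one_mem _, by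
      rw [mul_one, comm_congr hc (g := τ₀) (g' := g * τ₀ * g⁻¹) (a := g * a * g⁻¹) (a' := g * a * g⁻¹)
        (by rw [map_mul, map_mul, map_inv, hτ₀, hTcomm _ hg _ ht₀, mul_inv_cancel_right]) rfl]
      simp only [commutatorElement_def]; group⟩
  -- every fixed point free element of the torus defines the same complement
  have hindep : ∀ τ, π τ ∈ T → FPF (π τ) N N' → ∀ x ∈ M, ∃ a, π a ∈ N ∧ ∃ m ∈ M', x = ⁅τ, a⁆ * m := by
    intro τ hτ hf x hx
    have hin : ∀ a, π a ∈ N → ⁅τ, a⁆ ∈ M := fun a ha => by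
      obtain ⟨z, hz, b, hb, hz1, rfl⟩ := hsplit ha
      rw [comm_congr hc (g' := τ) (a' := b) rfl (by rw [map_mul, hz1, one_mul]), commutatorElement_def]
      exact mul_mem ((hST τ hτ).2 b hb) (inv_mem hb)
    haveI hnorm : (M'.subgroupOf M).Normal := ⟨fun y hy g => by
      rw [Subgroup.mem_subgroupOf] at hy ⊢
      exact hM'.conj _ (hNB (hmap.le (Subgroup.mem_map_of_mem π g.2))) _ hy⟩
    let f : M → M := fun v => ⟨⁅τ, (v : Γ)⁆, hin v (hmap.le (Subgroup.mem_map_of_mem π v.2))⟩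
    have key : ∀ v w : M, (f v)⁻¹ * f w ∈ M'.subgroupOf M → v⁻¹ * w ∈ M'.subgroupOf M := by
      intro v w hvw
      rw [Subgroup.mem_subgroupOf] at hvw ⊢
      have hv := hmap.le (Subgroup.mem_map_of_mem π v.2)
      have hw := hmap.le (Subgroup.mem_map_of_mem π w.2)
      have hu : π (((v⁻¹ * w : M)) : Γ) ∈ N := hmap.le (Subgroup.mem_map_of_mem π (v⁻¹ * w : M).2)
      have h1 : ⁅τ, ((v⁻¹ * w : M) : Γ)⁆ ∈ M' := by
        have hk := hab (v : Γ) ⁅τ, ((v⁻¹ * w : M) : Γ)⁆ hv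
          (hmap.le (Subgroup.mem_map_of_mem π (hin _ hu)))
        have e : ((f v : Γ))⁻¹ * f w = ⁅(v : Γ), ⁅τ, ((v⁻¹ * w : M) : Γ)⁆⁆ * ⁅τ, ((v⁻¹ * w : M) : Γ)⁆ := by
          simp only [f, commutatorElement_def, Subgroup.coe_mul, Subgroup.coe_inv]; group
        have h2 : ((f v : Γ))⁻¹ * f w ∈ M' := hvw
        rw [e] at h2
        have h7 := mul_mem (inv_mem hk) h2
        rwa [inv_mul_cancel_left] at h7
      have h3 := hf _ hu (by
        have := hM'.map_mem h1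
        rwa [map_commutatorElement, commutatorElement_def] at this)
      obtain ⟨m, hm, hme⟩ := hM'.exists_lift h3
      have hh : ((v⁻¹ * w : M) : Γ) = m := by
        refine mul_inv_eq_one.1 (Subgroup.mem_bot.1 (hinj.le (Subgroup.mem_inf.2
          ⟨by rw [MonoidHom.mem_ker, map_mul, map_inv, hme, mul_inv_cancel],
            mul_mem (v⁻¹ * w : M).2 (inv_mem (hle hm))⟩)))
      rw [hh]; exact hm
    let G : M ⧸ M'.subgroupOf M → M ⧸ M'.subgroupOf M := fun c => QuotientGroup.mk (f (Quotient.out c))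
    have hG : Function.Injective G := fun c d h => by
      have := QuotientGroup.eq.2 (key _ _ (QuotientGroup.eq.1 h))
      simpa using this
    obtain ⟨c, hc'⟩ := Finite.injective_iff_surjective.1 hG (QuotientGroup.mk ⟨x, hx⟩)
    have hmem : ((f (Quotient.out c))⁻¹ * ⟨x, hx⟩ : M) ∈ M'.subgroupOf M := QuotientGroup.eq.1 hc'
    exact ⟨_, hmap.le (Subgroup.mem_map_of_mem π (Quotient.out c).2), _,
      Subgroup.mem_subgroupOf.1 hmem, by
        simp only [f, Subgroup.coe_mul, Subgroup.coe_inv]; group⟩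
  have hSY : ∀ g, π g ∈ B → π g ∈ Y → g ∈ S := by
    intro g hgB hg
    rcases hY _ hg with ⟨t, ht, hty, hf⟩ | ⟨t, ht, y₀, hy₀, hfix, he⟩
    · obtain ⟨τ, rfl⟩ := hBr (hTB ht)
      refine ⟨hgB, fun x hx => ?_⟩
      obtain ⟨a, ha, m, hm, rfl⟩ := hindep τ ht hf x hx
      rw [← conj_mul]
      refine mul_mem ?_ (hle (hM'.conj g hgB m hm))
      have e : g * ⁅τ, a⁆ * g⁻¹ = ⁅g * τ * g⁻¹, g * a * g⁻¹⁆ := by
        simp only [commutatorElement_def]; group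
      rw [e, comm_congr hc (g' := τ) (a' := g * a * g⁻¹)
        (by rw [map_mul, map_mul, map_inv, ← hty, mul_inv_cancel_right]) rfl]
      have ha' : π (g * a * g⁻¹) ∈ N := by
        rw [map_mul, map_mul, map_inv]; exact hBN _ hgB _ ha
      obtain ⟨z, hz, b, hb, hz1, hab'⟩ := hsplit ha'
      rw [hab', comm_congr hc (g' := τ) (a' := b) rfl (by rw [map_mul, hz1, one_mul]),
        commutatorElement_def]
      exact mul_mem ((hST τ ht).2 b hb) (inv_mem hb)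
    · obtain ⟨τ, rfl⟩ := hBr (hTB ht)
      obtain ⟨η, rfl⟩ := hBr (hUB hy₀)
      refine ⟨hgB, fun x hx => ?_⟩
      have hfixM : ∀ ε : Γ, π ε = π τ → ∀ v ∈ M, ∃ m ∈ M', ε * v * ε⁻¹ = m * v := by
        intro ε hε v hv
        have hεM := (hST ε (hε ▸ ht)).2 v hv
        refine ⟨ε * v * ε⁻¹ * v⁻¹, ?_, by group⟩
        obtain ⟨m, hm, hme⟩ := hM'.exists_lift (hfix _ (hmap.le (Subgroup.mem_map_of_mem π hv)))
        have : ε * v * ε⁻¹ * v⁻¹ = m := mul_inv_eq_one.1 (Subgroup.mem_bot.1 (hinj.le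
          (Subgroup.mem_inf.2 ⟨by
            rw [MonoidHom.mem_ker]
            simp only [map_mul, map_inv, hme, hε]
            group, mul_mem (mul_mem hεM (inv_mem hv)) (inv_mem (hle hm))⟩)))
        rw [this]; exact hm
      have e : g * x * g⁻¹ = ⁅τ, η⁆ * x * ⁅τ, η⁆⁻¹ := by
        have hz : ⁅τ, η⁆⁻¹ * g ∈ Subgroup.center Γ := hc (by
          rw [MonoidHom.mem_ker, map_mul, map_inv, map_commutatorElement, commutatorElement_def,
            he, inv_mul_cancel])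
        have h1 := Subgroup.mem_center_iff.1 hz x
        calc g * x * g⁻¹ = ⁅τ, η⁆ * ((⁅τ, η⁆⁻¹ * g) * x) * g⁻¹ := by group
          _ = _ := by rw [← h1]; group
      rw [e]
      have hw : π (η⁻¹ * x * η) ∈ N := by
        have := hBN _ (inv_mem (hUB hy₀)) _ (hmap.le (Subgroup.mem_map_of_mem π hx))
        rwa [inv_inv, ← map_inv, ← map_mul, ← map_mul] at this
      obtain ⟨z, hz, w, hw', -, hwe⟩ := hsplit hw
      -- `τ⁻¹` fixes the layer as well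
      obtain ⟨m1, hm1, hm1e⟩ : ∃ m ∈ M', τ⁻¹ * w * τ = m * w := by
        have hv : τ⁻¹ * w * τ ∈ M := by
          have := (hST τ⁻¹ (by rw [map_inv]; exact inv_mem ht)).2 w hw'
          rwa [inv_inv] at this
        obtain ⟨m, hm, hme⟩ := hfixM τ rfl _ hv
        refine ⟨m⁻¹, inv_mem hm, ?_⟩
        rw [eq_inv_mul_iff_mul_eq, ← hme]; group
      have hm2 : η * m1 * η⁻¹ ∈ M' := hM'.conj η (hUB hy₀) m1 hm1
      have hzc := Subgroup.mem_center_iff.1 hz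
      have e2 : ⁅τ, η⁆ * x * ⁅τ, η⁆⁻¹ = τ * (η * m1 * η⁻¹ * x) * τ⁻¹ := by
        have hx' : x = η * (z * w) * η⁻¹ := by rw [← hwe]; group
        calc ⁅τ, η⁆ * x * ⁅τ, η⁆⁻¹ = τ * η * (τ⁻¹ * (η⁻¹ * x * η) * τ) * η⁻¹ * τ⁻¹ := by
              simp only [commutatorElement_def]; group
          _ = τ * η * (z * (τ⁻¹ * w * τ)) * η⁻¹ * τ⁻¹ := by
              rw [hwe, show τ⁻¹ * (z * w) * τ = z * (τ⁻¹ * w * τ) by
                rw [← mul_assoc, hzc τ⁻¹]; group]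
          _ = τ * η * (m1 * (z * w)) * η⁻¹ * τ⁻¹ := by
              rw [hm1e, ← mul_assoc z, ← hzc m1, mul_assoc m1]
          _ = _ := by rw [hx']; group
      rw [e2]
      exact (hST τ ht).2 _ (mul_mem (hle hm2) hx)
  intro g hg
  have hle' : B ≤ S.map π := by
    refine hgen.trans ((Subgroup.closure_le _).2 ?_)
    rintro u ((hu | hu) | hu)
    · obtain ⟨v, rfl⟩ := hBr (hTB hu)
      exact ⟨v, hST v hu, rfl⟩
    · obtain ⟨v, rfl⟩ := hBr (hNB hu)
      exact ⟨v, hSN v hu, rfl⟩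
    · obtain ⟨v, rfl⟩ := hBr (hYB hu)
      exact ⟨v, hSY v (hYB hu) hu, rfl⟩
  obtain ⟨s, hs, e⟩ := hle' hg
  have hz : g * s⁻¹ ∈ Subgroup.center Γ := hc (by
    rw [MonoidHom.mem_ker, map_mul, map_inv, e, mul_inv_cancel])
  intro m hm
  have h1 := Subgroup.mem_center_iff.1 hz (s * m * s⁻¹)
  have e3 : g * m * g⁻¹ = s * m * s⁻¹ := by
    calc g * m * g⁻¹ = (g * s⁻¹) * (s * m * s⁻¹) * (g * s⁻¹)⁻¹ := by group
      _ = _ := by rw [← h1]; group
  rw [e3]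
  exact hs.2 m hm


/-- The start of the flag. -/
theorem compl_bot (B : Subgroup A) : Compl π B ⊥ ⊥ where
  inj := inf_bot_eq _
  map := Subgroup.map_bot π
  conj g _ m hm := by
    rw [Subgroup.mem_bot] at hm
    simp [hm]

/-- Lifts commute if one of the images is a commutator of elements commuting with the other. -/
theorem commute_of_comm (hc : π.ker ≤ Subgroup.center Γ) {X Y A₁ B₁ : Γ}
    (hY : π Y = π ⁅A₁, B₁⁆) (hA : π X * π A₁ = π A₁ * π X) (hB : π X * π B₁ = π B₁ * π X) :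
    X * Y = Y * X := by
  have hz : ⁅A₁, B₁⁆⁻¹ * Y ∈ Subgroup.center Γ := hc (by
    rw [MonoidHom.mem_ker, map_mul, map_inv, hY, inv_mul_cancel])
  have h1 : X * ⁅A₁, B₁⁆ * X⁻¹ = ⁅A₁, B₁⁆ := by
    have e : X * ⁅A₁, B₁⁆ * X⁻¹ = ⁅X * A₁ * X⁻¹, X * B₁ * X⁻¹⁆ := by
      simp only [commutatorElement_def]; group
    rw [e]
    exact comm_congr hc (by rw [map_mul, map_mul, map_inv, hA, mul_inv_cancel_right])
      (by rw [map_mul, map_mul, map_inv, hB, mul_inv_cancel_right])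
  have h2 := Subgroup.mem_center_iff.1 hz X
  rw [mul_inv_eq_iff_eq_mul] at h1
  calc X * Y = X * ⁅A₁, B₁⁆ * (⁅A₁, B₁⁆⁻¹ * Y) := by group
    _ = ⁅A₁, B₁⁆ * (X * (⁅A₁, B₁⁆⁻¹ * Y)) := by rw [h1]; group
    _ = _ := by rw [h2]; group

section Retract

open scoped IsMulCommutative

/-- Lifts of a layer commute modulo the complement below if the torus induces all scalars on it. -/
theorem comm_of_scalar {F : Type*} [Field F] (hc : π.ker ≤ Subgroup.center Γ) {B T N N' : Subgroup A}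
    {M' : Subgroup Γ} (hM' : Compl π B N' M') (hN'N : N' ≤ N) (hNB : N ≤ B) (hTB : T ≤ B)
    (hBr : B ≤ π.range) (hBN' : ∀ g ∈ B, ∀ u ∈ N', g * u * g⁻¹ ∈ N') (e : F → A)
    (he : ∀ x, e x ∈ N) (hadd : ∀ x y, (e (x + y))⁻¹ * (e x * e y) ∈ N')
    (honto : ∀ u ∈ N, ∃ x, (e x)⁻¹ * u ∈ N')
    (hscal : ∀ v : F, v ≠ 0 → ∃ t ∈ T, ∀ x, (e (v * x))⁻¹ * (t * e x * t⁻¹) ∈ N')
    (hs : ∃ s : F, s ≠ 0 ∧ 1 + s ≠ 0 ∧ s * s + s + 1 ≠ 0) :
    ∀ a b : Γ, π a ∈ N → π b ∈ N → ⁅a, b⁆ ∈ M' := by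
  obtain ⟨ρ, hρk, hρM⟩ := exists_retraction_comap hc hM'.inj hM'.map.le hM'.map.ge
  let R : Γ → Subgroup.center Γ := fun w => open Classical in if h : π w ∈ N' then ρ ⟨w, h⟩ else 1
  have hRmul : ∀ u v, π u ∈ N' → π v ∈ N' → R (u * v) = R u * R v := fun u v hu hv => by
    have huv : π (u * v) ∈ N' := by rw [map_mul]; exact mul_mem hu hv
    simp only [R, dif_pos hu, dif_pos hv, dif_pos huv]
    rw [← map_mul]
    rfl
  have hRM : ∀ m ∈ M', R m = 1 := fun m hm => by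
    simp only [R, dif_pos (hM'.map_mem hm)]
    exact hρM _ hm
  have hRk : ∀ z, π z = 1 → (R z : Γ) = z := fun z hz => by
    have h : π z ∈ N' := hz ▸ one_mem _
    simp only [R, dif_pos h]
    exact hρk _ hz
  have hRconj : ∀ g, π g ∈ B → ∀ w, π w ∈ N' → R (g * w * g⁻¹) = R w := fun g hg w hw => by
    obtain ⟨z, hz, m, hm, hz1, rfl⟩ := hM'.split hc hw
    have hgm := hM'.conj g hg m hm
    rw [show g * (z * m) * g⁻¹ = z * (g * m * g⁻¹) by
      rw [← mul_assoc, Subgroup.mem_center_iff.1 hz g]; group]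
    rw [hRmul _ _ (hz1 ▸ one_mem _) (hM'.map_mem hgm), hRmul _ _ (hz1 ▸ one_mem _) (hM'.map_mem hm),
      hRM _ hgm, hRM _ hm]
  have hmemM : ∀ w, π w ∈ N' → R w = 1 → w ∈ M' := fun w hw h => by
    obtain ⟨z, hz, m, hm, hz1, rfl⟩ := hM'.split hc hw
    rw [hRmul _ _ (hz1 ▸ one_mem _) (hM'.map_mem hm), hRM _ hm, mul_one] at h
    have : z = 1 := by rw [← hRk z hz1, h]; rfl
    rw [this, one_mul]; exact hm
  -- the commutator of the lifts
  choose el hel using fun x => hBr (hNB (he x))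
  have hcN : ∀ a b : Γ, π a ∈ N → π b ∈ N → π ⁅a, b⁆ ∈ N' := by
    have hm : ∀ {g u}, g ∈ N → u ∈ N' → g * u * g⁻¹ ∈ N' := fun {g u} hg hu => hBN' g (hNB hg) u hu
    intro a b ha hb
    rw [map_commutatorElement]
    obtain ⟨x, hx⟩ := honto _ ha
    obtain ⟨y, hy⟩ := honto _ hb
    haveI : (N'.subgroupOf N).Normal := ⟨fun u hu g => by
      rw [Subgroup.mem_subgroupOf] at hu ⊢
      exact hm g.2 hu⟩
    let mk : N → N ⧸ N'.subgroupOf N := QuotientGroup.mk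
    have hmk : ∀ u v : N, (u : A)⁻¹ * v ∈ N' → mk u = mk v := fun u v h => QuotientGroup.eq.2 h
    have e1 : mk ⟨π a, ha⟩ = mk ⟨e x, he x⟩ := (hmk ⟨e x, he x⟩ _ hx).symm
    have e2 : mk ⟨π b, hb⟩ = mk ⟨e y, he y⟩ := (hmk ⟨e y, he y⟩ _ hy).symm
    have e3 : ∀ x y, mk ⟨e x, he x⟩ * mk ⟨e y, he y⟩ = mk ⟨e (x + y), he _⟩ := fun x y => by
      show mk (⟨e x, he x⟩ * ⟨e y, he y⟩) = _
      exact (hmk ⟨e (x + y), he _⟩ (⟨e x, he x⟩ * ⟨e y, he y⟩) (hadd x y)).symm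
    have h0 : mk ⟨π a, ha⟩ * mk ⟨π b, hb⟩ = mk ⟨π b, hb⟩ * mk ⟨π a, ha⟩ := by
      rw [e1, e2, e3, e3, add_comm]
    have h1 : mk ⁅(⟨π a, ha⟩ : N), ⟨π b, hb⟩⁆ = 1 := by
      show mk (_ * _ * _⁻¹ * _⁻¹) = 1
      simp only [mk, QuotientGroup.mk_mul, QuotientGroup.mk_inv] at h0 ⊢
      rw [h0]; group
    exact Subgroup.mem_subgroupOf.1 ((QuotientGroup.eq_one_iff _).1 h1)
  have hadd' : ∀ u : Γ, π u ∈ N → ∀ a a' : Γ, π a ∈ N → π a' ∈ N →
      R ⁅a * a', u⁆ = R ⁅a', u⁆ * R ⁅a, u⁆ := fun u hu a a' ha ha' => by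
    have e : ⁅a * a', u⁆ = a * ⁅a', u⁆ * a⁻¹ * ⁅a, u⁆ := by
      simp only [commutatorElement_def]; group
    rw [e, hRmul _ _ (by rw [map_mul, map_mul, map_inv]; exact hBN' _ (hNB ha) _ (hcN a' u ha' hu))
      (hcN a u ha hu), hRconj a (hNB ha) _ (hcN a' u ha' hu)]
  have hswap : ∀ a b : Γ, π a ∈ N → π b ∈ N → R ⁅b, a⁆ = (R ⁅a, b⁆)⁻¹ := fun a b ha hb => by
    rw [eq_inv_iff_mul_eq_one, ← hRmul _ _ (hcN b a hb ha) (hcN a b ha hb), ← commutatorElement_inv,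
      inv_mul_cancel]
    exact hRM 1 (one_mem _)
  have hzero : ∀ n u : Γ, π n ∈ N' → π u ∈ N → R ⁅n, u⁆ = 1 := fun n u hn hu => by
    rw [show ⁅n, u⁆ = n * (u * n⁻¹ * u⁻¹) by simp only [commutatorElement_def]; group]
    have h1 : π n⁻¹ ∈ N' := by rw [map_inv]; exact inv_mem hn
    have h2 : π (u * n⁻¹ * u⁻¹) ∈ N' := by
      rw [map_mul, map_mul, map_inv π u]; exact hBN' _ (hNB hu) _ h1
    rw [hRmul _ _ hn h2, hRconj u (hNB hu) _ h1, ← hRmul _ _ hn h1, mul_inv_cancel]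
    exact hRM 1 (one_mem _)
  have hred : ∀ a a' u : Γ, π a ∈ N → π u ∈ N → (π a')⁻¹ * π a ∈ N' → π a' ∈ N →
      R ⁅a, u⁆ = R ⁅a', u⁆ := fun a a' u ha hu h ha' => by
    have hn : π (a'⁻¹ * a) ∈ N' := by rwa [map_mul, map_inv]
    have h3 := hadd' u hu a' (a'⁻¹ * a) ha' (hN'N hn)
    rw [mul_inv_cancel_left, hzero _ _ hn hu, one_mul] at h3
    exact h3
  let c : F → F → Subgroup.center Γ := fun x y => R ⁅el x, el y⁆
  have helN : ∀ x, π (el x) ∈ N := fun x => hel x ▸ he x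
  have hl : ∀ x x' y, c (x + x') y = c x y * c x' y := fun x x' y => by
    show R _ = _
    rw [hred (el (x + x')) (el x * el x') (el y) (helN _) (helN _) (by
      rw [map_mul, hel, hel, hel]
      have := inv_mem (hadd x x')
      rwa [mul_inv_rev, inv_inv] at this) (by rw [map_mul]; exact mul_mem (helN _) (helN _)),
      hadd' _ (helN _) _ _ (helN _) (helN _), mul_comm]
  have hr : ∀ x y y', c x (y + y') = c x y * c x y' := fun x y y' => by
    show R _ = _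
    rw [hswap (el (y + y')) (el x) (helN _) (helN _)]
    show (c (y + y') x)⁻¹ = _
    rw [hl, mul_inv]
    simp only [c]
    rw [hswap (el y) (el x) (helN _) (helN _), hswap (el y') (el x) (helN _) (helN _)]
  have hinv : ∀ v : F, v ≠ 0 → ∀ x y, c (v * x) (v * y) = c x y := fun v hv x y => by
    obtain ⟨t, ht, hte⟩ := hscal v hv
    obtain ⟨τ, rfl⟩ := hBr (hTB ht)
    have hconjN : ∀ z, π (τ * el z * τ⁻¹) ∈ N ∧ (π (τ * el z * τ⁻¹))⁻¹ * π (el (v * z)) ∈ N' := by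
      intro z
      have h := hte z
      rw [map_mul, map_mul, map_inv, hel, hel]
      have h' : π τ * e z * (π τ)⁻¹ = e (v * z) * ((e (v * z))⁻¹ * (π τ * e z * (π τ)⁻¹)) := by group
      refine ⟨h' ▸ mul_mem (he _) (hN'N h), ?_⟩
      have h2 := inv_mem h
      rwa [mul_inv_rev, inv_inv] at h2
    show R _ = R _
    rw [hred (el (v * x)) (τ * el x * τ⁻¹) (el (v * y)) (helN _) (helN _) (hconjN x).2 (hconjN x).1,
      hswap (el (v * y)) _ (helN _) (hconjN x).1,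
      hred (el (v * y)) (τ * el y * τ⁻¹) (τ * el x * τ⁻¹) (helN _) (hconjN x).1 (hconjN y).2
        (hconjN y).1, ← hswap _ _ (hconjN y).1 (hconjN x).1,
      show ⁅τ * el x * τ⁻¹, τ * el y * τ⁻¹⁆ = τ * ⁅el x, el y⁆ * τ⁻¹ by
        simp only [commutatorElement_def]; group, hRconj τ (hTB ht) _ (hcN _ _ (helN _) (helN _))]
  have hall : ∀ x y, c x y = 1 := by
    let f : F → Subgroup.center Γ := fun w => c 1 w
    have hf : ∀ v w, v ≠ 0 → c v w = f (w / v) := fun v w hv => by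
      have := hinv v hv 1 (w / v)
      rwa [mul_one, mul_div_cancel₀ w hv] at this
    obtain ⟨s, hs0, hs1, hs2⟩ := hs
    have hone : ∀ w, f w = 1 := by
      intro x
      set w := x / (s * s + s + 1) with hw
      have key : f (w * s + w * (s * s + s + 1)) = f (w * s) := by
        have h1 := hl 1 s (w * (s * (1 + s)))
        rw [hf _ _ hs1, hf _ _ hs0, show w * (s * (1 + s)) / (1 + s) = w * s by field_simp,
          show w * (s * (1 + s)) / s = w * (1 + s) by field_simp] at h1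
        show c 1 _ = c 1 _
        rw [show w * s + w * (s * s + s + 1) = w * (1 + s) + w * (s * (1 + s)) by ring, hr, mul_comm]
        exact h1.symm
      rw [show f (w * s + w * (s * s + s + 1)) = f (w * s) * f (w * (s * s + s + 1)) from hr _ _ _,
        mul_eq_left] at key
      rwa [show w * (s * s + s + 1) = x by rw [hw]; exact div_mul_cancel₀ x hs2] at key
    intro x y
    by_cases hx : x = 0
    · have h := hl 0 0 y
      rw [add_zero, left_eq_mul] at h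
      rw [hx, h]
    · rw [hf x y hx, hone]
  intro a b ha hb
  refine hmemM _ (hcN a b ha hb) ?_
  obtain ⟨x, hx⟩ := honto _ ha
  obtain ⟨y, hy⟩ := honto _ hb
  rw [← hel] at hx hy
  rw [hred a (el x) b ha hb hx (helN _), hswap b (el x) hb (helN _),
    hred b (el y) (el x) hb (helN _) hy (helN _), ← hswap (el y) (el x) (helN _) (helN _)]
  exact hall x y

end Retract

/-- From the complement over `U` to the kernel meeting the derived group of `B = U T` trivially. -/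
theorem ker_inf_commutator_of_compl (hc : π.ker ≤ Subgroup.center Γ) {p : ℕ}
    (hA : IsPGroup p π.ker) {B U T : Subgroup A} {M : Subgroup Γ} (hM : Compl π B U M)
    (hBr : B ≤ π.range) (hUB : U ≤ B) (hTB : T ≤ B) (hB : ∀ g ∈ B, ∃ u ∈ U, ∃ t ∈ T, g = u * t)
    (hTcomm : ∀ a ∈ T, ∀ b ∈ T, a * b = b * a)
    (hTp : ∀ t ∈ T, ∃ n, p.Coprime n ∧ t ^ n = 1) :
    π.ker ⊓ ⁅B.comap π, B.comap π⁆ = ⊥ := by
  rw [eq_bot_iff, ← hM.inj]
  refine le_inf inf_le_left (inf_le_right.trans ?_)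
  rw [Subgroup.commutator_le]
  have hdec : ∀ g, π g ∈ B → ∃ m ∈ M, ∃ τ, π τ ∈ T ∧ g = m * τ := fun g hg => by
    obtain ⟨u, hu, t, ht, e⟩ := hB _ hg
    obtain ⟨m, hm, hme⟩ := hM.exists_lift hu
    exact ⟨m, hm, m⁻¹ * g, by rw [map_mul, map_inv, hme, e, inv_mul_cancel_left]; exact ht,
      by rw [mul_inv_cancel_left]⟩
  have hTT : ∀ a b : Γ, π a ∈ T → π b ∈ T → ⁅a, b⁆ = 1 := fun a b ha hb => by
    have hk : ⁅a, b⁆ ∈ π.ker := by
      rw [MonoidHom.mem_ker, map_commutatorElement, commutatorElement_eq_one_iff_mul_comm]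
      exact hTcomm _ ha _ hb
    obtain ⟨n, hn, hn1⟩ := hTp _ ha
    obtain ⟨k, hk'⟩ := hA ⟨_, hk⟩
    have hcent := hc hk
    have hpow : ∀ j : ℕ, ⁅a ^ j, b⁆ = ⁅a, b⁆ ^ j := by
      intro j
      induction j with
      | zero => simp
      | succ j ih =>
        rw [show ⁅a ^ (j + 1), b⁆ = a * ⁅a ^ j, b⁆ * a⁻¹ * ⁅a, b⁆ by
          rw [pow_succ']; simp only [commutatorElement_def]; group, ih, pow_succ,
          Subgroup.mem_center_iff.1 (pow_mem hcent j) a, mul_inv_cancel_right]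
    refine eq_one_of_pow_prime_pow (congrArg Subtype.val hk') ?_ hn
    rw [← hpow, comm_congr hc (g' := 1) (a' := b) (by rw [map_pow, hn1, map_one]) rfl,
      commutatorElement_one_left]
  intro x hx y hy
  obtain ⟨m, hm, τ, hτ, rfl⟩ := hdec x hx
  obtain ⟨m', hm', τ', hτ', rfl⟩ := hdec y hy
  have h1 : ∀ g, π g ∈ B → ∀ v ∈ M, ⁅g, v⁆ ∈ M := fun g hg v hv =>
    mul_mem (hM.conj g hg v hv) (inv_mem hv)
  have hmB : π m ∈ B := hUB (hM.map_mem hm)
  have hm'B : π m' ∈ B := hUB (hM.map_mem hm')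
  have e : ⁅m * τ, m' * τ'⁆ = m * (⁅τ, m'⁆ * (m' * ⁅τ, τ'⁆ * m'⁻¹)) * m⁻¹ *
      (⁅m' * τ', m⁆)⁻¹ := by
    simp only [commutatorElement_def]; group
  rw [e, hTT τ τ' hτ hτ', mul_one, mul_inv_cancel, mul_one]
  exact mul_mem (mul_mem (mul_mem hm (h1 τ (hTB hτ) m' hm')) (inv_mem hm))
    (inv_mem (h1 _ hy m hm))

end CfsgLib.SchurTwisted
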