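import Cfsg.Agent.SchurClassical.Lifts
import Cfsg.Agent.SchurClassical.SympCross

/-!
Lifting a homomorphism of a group without multiplier through a central extension, and the
unique complement over a `p`-subgroup.
-/

set_option autoImplicit false

namespace CfsgLib.SchurTwisted

open Subgroup (closure center comap map mem_bot mem_center_iff closure_le)
open CfsgLib.SchurClassical
open scoped MatrixGroups

universe u

variable {Γ A : Type u} [Group Γ] [Finite Γ] [Group A] {p r : ℕ}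

/-- A homomorphism of a group generated by `p`-elements and without `r`-multiplier lifts. -/
theorem exists_hom_lift (hp : p.Prime) (hr : r.Prime) (hne : r ≠ p) {π : Γ →* A}
    (hc : π.ker ≤ center Γ) (hA : IsPGroup r π.ker) {L : Type u} [Group L] [Finite L]
    (hL : NoMult r L) (hgen : closure (pElts p L) = ⊤) (φ : L →* A) (hφ : ∀ l, φ l ∈ π.range) :
    ∃ ψ : L →* Γ, (∀ l, π (ψ l) = φ l) ∧ ∀ l ∈ pElts p L, ψ l ∈ pElts p Γ := by
  let E : Subgroup (Γ × L) := (π.comp (MonoidHom.fst _ _)).eqLocus (φ.comp (MonoidHom.snd _ _))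
  let σ : E →* L := (MonoidHom.snd _ _).comp E.subtype
  have hs : Function.Surjective σ := fun l => by
    obtain ⟨g, hg⟩ := hφ l
    exact ⟨⟨(g, l), hg⟩, rfl⟩
  have hker : ∀ x : E, σ x = 1 → (x : Γ × L).1 ∈ π.ker := fun x hx => by
    have h1 : (x : Γ × L).2 = 1 := hx
    have h2 : π (x : Γ × L).1 = φ (x : Γ × L).2 := x.2
    rw [MonoidHom.mem_ker, h2, h1, map_one]
  have hσc : σ.ker ≤ center E := fun x hx => mem_center_iff.2 fun y => Subtype.ext (Prod.ext
    (mem_center_iff.1 (hc (hker x hx)) _) (by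
      show (y : Γ × L).2 * (x : Γ × L).2 = (x : Γ × L).2 * (y : Γ × L).2
      rw [show (x : Γ × L).2 = 1 from hx, one_mul, mul_one]))
  have hσA : IsPGroup r σ.ker := fun x => by
    obtain ⟨k, hk⟩ := hA ⟨_, hker x.1 x.2⟩
    refine ⟨k, Subtype.ext (Subtype.ext (Prod.ext ?_ ?_))⟩
    · exact congrArg Subtype.val hk
    · show ((x : E) : Γ × L).2 ^ r ^ k = 1
      rw [show ((x : E) : Γ × L).2 = 1 from x.2, one_pow]
  have hbot : σ.ker ⊓ closure (pElts p E) = ⊥ := by
    refine ker_inf_closure_pElts hp hr hne hσA (S := ⊤) ?_ le_rfl fun t _ => Subgroup.mem_top _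
    rw [Subgroup.comap_top, ← _root_.commutator_def]
    exact hL E σ hs hσc hσA
  let H := closure (pElts p E)
  have hinj : Function.Injective (σ.comp H.subtype) := by
    rw [← MonoidHom.ker_eq_bot_iff, eq_bot_iff]
    intro x hx
    exact mem_bot.2 (Subtype.ext (mem_bot.1 (hbot.le ⟨hx, x.2⟩)))
  have hsurj : Function.Surjective (σ.comp H.subtype) := by
    have hle : closure (pElts p L) ≤ (σ.comp H.subtype).range := by
      refine (closure_le _).2 fun l hl => ?_
      obtain ⟨t, ht, rfl⟩ := exists_pElt_lift hp hr hne hs hσA hl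
      exact ⟨⟨t, Subgroup.subset_closure ht⟩, rfl⟩
    intro l
    exact hle (hgen.ge (Subgroup.mem_top l))
  let e : H ≃* L := MulEquiv.ofBijective _ ⟨hinj, hsurj⟩
  refine ⟨(MonoidHom.fst Γ L).comp (E.subtype.comp (H.subtype.comp e.symm.toMonoidHom)),
    fun l => ?_, fun l hl => ?_⟩
  · show π ((e.symm l : H) : E).1.1 = φ l
    have h2 : π ((e.symm l : H) : E).1.1 = φ ((e.symm l : H) : E).1.2 := ((e.symm l : H) : E).2
    have h3 : ((e.symm l : H) : E).1.2 = l := e.apply_symm_apply l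
    rw [h2, h3]
  · obtain ⟨k, hk⟩ := hl
    exact ⟨k, by rw [← map_pow, hk, map_one]⟩

/-- The complement of the kernel over a `p`-subgroup, consisting of all `p`-elements over it. -/
theorem exists_complement (hp : p.Prime) (hr : r.Prime) (hne : r ≠ p) {π : Γ →* A}
    (hc : π.ker ≤ center Γ) (hA : IsPGroup r π.ker) {U : Subgroup A} (hU : IsPGroup p U)
    (hUr : U ≤ π.range) :
    ∃ M : Subgroup Γ, (∀ m, m ∈ M ↔ m ∈ pElts p Γ ∧ π m ∈ U) ∧ π.ker ⊓ M = ⊥ ∧
      M.map π = U := by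
  haveI := Fact.mk hp
  haveI := Fact.mk hr
  let τ : ↥(U.comap π) →* U := (π.comp (U.comap π).subtype).codRestrict U fun x => x.2
  have hts : Function.Surjective τ := fun u => by
    obtain ⟨g, hg⟩ := hUr u.2
    exact ⟨⟨g, show π g ∈ U from hg ▸ u.2⟩, Subtype.ext hg⟩
  haveI : Finite U := Finite.of_surjective _ hts
  have htk : ∀ x : ↥(U.comap π), x ∈ τ.ker → (x : Γ) ∈ π.ker := fun x hx =>
    congrArg Subtype.val hx
  have hn : NoMult r U := by
    refine noMult_of_index hr ⊥ ?_ noMult_of_isCyclic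
    rw [Subgroup.index_bot]
    obtain ⟨k, hk⟩ := (IsPGroup.iff_card).1 hU
    rw [hk]
    exact fun h => hne ((Nat.prime_dvd_prime_iff_eq hr hp).1 (hr.dvd_of_dvd_pow h))
  have hS : π.ker ⊓ ⁅U.comap π, U.comap π⁆ = ⊥ := by
    have h1 := hn ↥(U.comap π) τ hts (fun x hx => mem_center_iff.2 fun y =>
      Subtype.ext (mem_center_iff.1 (hc (htk x hx)) y)) (fun x => by
        obtain ⟨k, hk⟩ := hA ⟨_, htk x.1 x.2⟩
        have hk' : ((x : ↥(U.comap π)) : Γ) ^ r ^ k = 1 := congrArg Subtype.val hk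
        exact ⟨k, Subtype.ext (Subtype.ext hk')⟩)
    rw [eq_bot_iff]
    rintro x ⟨hx, hx'⟩
    rw [← Subgroup.map_subtype_commutator] at hx'
    obtain ⟨y, hy, rfl⟩ := hx'
    rw [mem_bot, mem_bot.1 (h1.le ⟨Subtype.ext hx, hy⟩)]
    rfl
  let T : Set Γ := {t | t ∈ pElts p Γ ∧ π t ∈ U}
  have hbot : π.ker ⊓ closure T = ⊥ :=
    ker_inf_closure_pElts hp hr hne hA hS (fun t ht => ht.1) fun t ht => ht.2
  refine ⟨closure T, fun m => ⟨fun hm => ?_, fun hm => Subgroup.subset_closure hm⟩, hbot, ?_⟩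
  · have hmU : π m ∈ U := (closure_le (U.comap π)).2 (fun t ht => ht.2) hm
    obtain ⟨k, hk⟩ := mem_pElts_of_mem hU hmU
    exact ⟨⟨k, mem_bot.1 (hbot.le ⟨show π (m ^ p ^ k) = 1 by rw [map_pow, hk],
      pow_mem hm _⟩)⟩, hmU⟩
  · refine le_antisymm (Subgroup.map_le_iff_le_comap.2 ((closure_le _).2 fun t ht => ht.2)) ?_
    intro u hu
    obtain ⟨t₀, ht₀⟩ := hUr hu
    let π' : Γ →* π.range := π.rangeRestrict
    have hk' : IsPGroup r π'.ker := by rw [show π'.ker = π.ker from π.ker_rangeRestrict]; exact hA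
    obtain ⟨t, ht, e⟩ := exists_pElt_lift hp hr hne π.rangeRestrict_surjective hk'
      (g := ⟨u, hUr hu⟩) (by
        obtain ⟨k, hk⟩ := mem_pElts_of_mem hU hu
        exact ⟨k, Subtype.ext hk⟩)
    have e' : π t = u := congrArg Subtype.val e
    exact ⟨t, Subgroup.subset_closure ⟨ht, e' ▸ hu⟩, e'⟩

/-- `SL₂` is generated by its `p`-elements. -/
theorem closure_pElts_sl2 {F : Type u} [Field F] [Fintype F] (p : ℕ) [Fact p.Prime] [CharP F p] :
    closure (pElts p SL(2, F)) = ⊤ := by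
  let e := Sp.sp2Equiv (F := F)
  rw [eq_top_iff]
  intro x _
  have h : e.symm x ∈ closure (pElts p (Matrix.symplecticGroup (Fin 1) F)) := by
    rw [Sp.closure_pElts 1 p]; trivial
  have h2 : e (e.symm x) ∈ (closure (pElts p (Matrix.symplecticGroup (Fin 1) F))).map e.toMonoidHom :=
    Subgroup.mem_map_of_mem e.toMonoidHom h
  rw [MonoidHom.map_closure, e.apply_symm_apply] at h2
  refine Subgroup.closure_mono ?_ h2
  rintro _ ⟨a, ⟨k, hk⟩, rfl⟩
  exact ⟨k, by rw [← map_pow, hk, map_one]⟩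

theorem noMult_sl2 {F : Type u} [Field F] [Fintype F] [CharP F p] (hp : p.Prime) (hr : r.Prime)
    (hne : r ≠ p) : NoMult r SL(2, F) :=
  noMult_congr Sp.sp2Equiv (Sp.noMult_sp2 (F := F) hp hr hne)

end CfsgLib.SchurTwisted
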